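import Mathlib

/-!
# The Klein count: a finite group acting so that every non-identity element has exactly two
fixed points.
-/

set_option autoImplicit false

namespace Cfsg.Agent.Lib.Zass

open MulAction

theorem arith_sorted (m a b c e f g : ℕ) (hm : 0 < m) (ha : a * e = m) (hb : b * f = m)
    (hc : c * g = m) (he : 2 ≤ e) (hef : e ≤ f) (hfg : f ≤ g) (h : m + 2 = a + b + c) :
    c = 2 ∨ (m = 12 ∧ g ≤ 3 ∧ f ≤ 3 ∧ e ≤ 3) ∨ (m = 24 ∧ g ≤ 4 ∧ f ≤ 4 ∧ e ≤ 4) ∨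
      (m = 60 ∧ g ≤ 5 ∧ g ≠ 4 ∧ f ≤ 5 ∧ f ≠ 4 ∧ e ≤ 5 ∧ e ≠ 4) := by
  have h3e : e < 3 := by
    by_contra hn
    push Not at hn
    have h1 : 3 * a ≤ m := by rw [← ha, mul_comm 3]; exact Nat.mul_le_mul_left _ hn
    have h2 : 3 * b ≤ m := by rw [← hb, mul_comm 3]; exact Nat.mul_le_mul_left _ (by omega)
    have h3 : 3 * c ≤ m := by rw [← hc, mul_comm 3]; exact Nat.mul_le_mul_left _ (by omega)
    omega
  have he2 : e = 2 := by omega
  subst he2
  by_cases hf2 : f = 2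
  · subst hf2
    left
    omega
  right
  have hf4 : f < 4 := by
    by_contra hn
    push Not at hn
    have h2 : 4 * b ≤ m := by rw [← hb, mul_comm 4]; exact Nat.mul_le_mul_left _ hn
    have h3 : 4 * c ≤ m := by rw [← hc, mul_comm 4]; exact Nat.mul_le_mul_left _ (by omega)
    omega
  have hf3 : f = 3 := by omega
  subst hf3
  have hg6 : g < 6 := by
    by_contra hn
    push Not at hn
    have h3 : 6 * c ≤ m := by rw [← hc, mul_comm 6]; exact Nat.mul_le_mul_left _ hn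
    omega
  have : g = 3 ∨ g = 4 ∨ g = 5 := by omega
  rcases this with rfl | rfl | rfl
  · left; refine ⟨by omega, by omega, by omega, by omega⟩
  · right; left; refine ⟨by omega, by omega, by omega, by omega⟩
  · right; right; refine ⟨by omega, by omega, by omega, by omega, by omega, by omega, by omega⟩

theorem arith_three (m a b c e f g : ℕ) (hm : 0 < m) (ha : a * e = m) (hb : b * f = m)
    (hc : c * g = m) (he : 2 ≤ e) (hf : 2 ≤ f) (hg : 2 ≤ g) (h : m + 2 = a + b + c) :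
    (a = 2 ∨ b = 2 ∨ c = 2) ∨ (m = 12 ∧ e ≤ 3 ∧ f ≤ 3 ∧ g ≤ 3) ∨ (m = 24 ∧ e ≤ 4 ∧ f ≤ 4 ∧ g ≤ 4) ∨
      (m = 60 ∧ e ≤ 5 ∧ e ≠ 4 ∧ f ≤ 5 ∧ f ≠ 4 ∧ g ≤ 5 ∧ g ≠ 4) := by
  have key : ∀ {x y z u v w : ℕ}, (z = 2 ∨ (m = 12 ∧ w ≤ 3 ∧ v ≤ 3 ∧ u ≤ 3) ∨ (m = 24 ∧ w ≤ 4 ∧ v ≤ 4 ∧ u ≤ 4) ∨
      (m = 60 ∧ w ≤ 5 ∧ w ≠ 4 ∧ v ≤ 5 ∧ v ≠ 4 ∧ u ≤ 5 ∧ u ≠ 4)) → (z = 2 → (a = 2 ∨ b = 2 ∨ c = 2)) →
      (((m = 12 ∧ w ≤ 3 ∧ v ≤ 3 ∧ u ≤ 3) → (m = 12 ∧ e ≤ 3 ∧ f ≤ 3 ∧ g ≤ 3)) ∧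
       ((m = 24 ∧ w ≤ 4 ∧ v ≤ 4 ∧ u ≤ 4) → (m = 24 ∧ e ≤ 4 ∧ f ≤ 4 ∧ g ≤ 4)) ∧
       ((m = 60 ∧ w ≤ 5 ∧ w ≠ 4 ∧ v ≤ 5 ∧ v ≠ 4 ∧ u ≤ 5 ∧ u ≠ 4) →
         (m = 60 ∧ e ≤ 5 ∧ e ≠ 4 ∧ f ≤ 5 ∧ f ≠ 4 ∧ g ≤ 5 ∧ g ≠ 4))) →
      (a = 2 ∨ b = 2 ∨ c = 2) ∨ (m = 12 ∧ e ≤ 3 ∧ f ≤ 3 ∧ g ≤ 3) ∨ (m = 24 ∧ e ≤ 4 ∧ f ≤ 4 ∧ g ≤ 4) ∨
      (m = 60 ∧ e ≤ 5 ∧ e ≠ 4 ∧ f ≤ 5 ∧ f ≠ 4 ∧ g ≤ 5 ∧ g ≠ 4) := by
    intro x y z u v w h h1 ⟨h2, h3, h4⟩
    rcases h with h | h | h | h
    · exact Or.inl (h1 h)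
    · exact Or.inr (Or.inl (h2 h))
    · exact Or.inr (Or.inr (Or.inl (h3 h)))
    · exact Or.inr (Or.inr (Or.inr (h4 h)))
  rcases le_total e f with h1 | h1 <;> rcases le_total f g with h2 | h2 <;>
    rcases le_total e g with h3 | h3
  · exact key (x := a) (y := b) (arith_sorted m a b c e f g hm ha hb hc he h1 h2 (by omega))
      (fun h => by simp [h]) ⟨by rintro ⟨a1, a2, a3, a4⟩; exact ⟨a1, by omega, by omega, by omega⟩,
        by rintro ⟨a1, a2, a3, a4⟩; exact ⟨a1, by omega, by omega, by omega⟩,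
        by rintro ⟨a1, a2, a3, a4, a5, a6, a7⟩; exact ⟨a1, a6, a7, a4, a5, a2, a3⟩⟩
  · exact key (x := a) (y := b) (arith_sorted m a b c e f g hm ha hb hc he h1 h2 (by omega))
      (fun h => by simp [h]) ⟨by rintro ⟨a1, a2, a3, a4⟩; exact ⟨a1, by omega, by omega, by omega⟩,
        by rintro ⟨a1, a2, a3, a4⟩; exact ⟨a1, by omega, by omega, by omega⟩,
        by rintro ⟨a1, a2, a3, a4, a5, a6, a7⟩; exact ⟨a1, a6, a7, a4, a5, a2, a3⟩⟩
  · exact key (x := a) (y := c) (arith_sorted m a c b e g f hm ha hc hb he h3 h2 (by omega))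
      (fun h => by simp [h]) ⟨by rintro ⟨a1, a2, a3, a4⟩; exact ⟨a1, by omega, by omega, by omega⟩,
        by rintro ⟨a1, a2, a3, a4⟩; exact ⟨a1, by omega, by omega, by omega⟩,
        by rintro ⟨a1, a2, a3, a4, a5, a6, a7⟩; exact ⟨a1, a6, a7, a2, a3, a4, a5⟩⟩
  · exact key (x := c) (y := a) (arith_sorted m c a b g e f hm hc ha hb hg h3 h1 (by omega))
      (fun h => by simp [h]) ⟨by rintro ⟨a1, a2, a3, a4⟩; exact ⟨a1, by omega, by omega, by omega⟩,
        by rintro ⟨a1, a2, a3, a4⟩; exact ⟨a1, by omega, by omega, by omega⟩,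
        by rintro ⟨a1, a2, a3, a4, a5, a6, a7⟩; exact ⟨a1, a4, a5, a2, a3, a6, a7⟩⟩
  · exact key (x := b) (y := a) (arith_sorted m b a c f e g hm hb ha hc hf h1 h3 (by omega))
      (fun h => by simp [h]) ⟨by rintro ⟨a1, a2, a3, a4⟩; exact ⟨a1, by omega, by omega, by omega⟩,
        by rintro ⟨a1, a2, a3, a4⟩; exact ⟨a1, by omega, by omega, by omega⟩,
        by rintro ⟨a1, a2, a3, a4, a5, a6, a7⟩; exact ⟨a1, a4, a5, a6, a7, a2, a3⟩⟩
  · exact key (x := b) (y := c) (arith_sorted m b c a f g e hm hb hc ha hf h2 h3 (by omega))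
      (fun h => by simp [h]) ⟨by rintro ⟨a1, a2, a3, a4⟩; exact ⟨a1, by omega, by omega, by omega⟩,
        by rintro ⟨a1, a2, a3, a4⟩; exact ⟨a1, by omega, by omega, by omega⟩,
        by rintro ⟨a1, a2, a3, a4, a5, a6, a7⟩; exact ⟨a1, a2, a3, a6, a7, a4, a5⟩⟩
  · exact key (x := c) (y := b) (arith_sorted m c b a g f e hm hc hb ha hg h2 h1 (by omega))
      (fun h => by simp [h]) ⟨by rintro ⟨a1, a2, a3, a4⟩; exact ⟨a1, by omega, by omega, by omega⟩,
        by rintro ⟨a1, a2, a3, a4⟩; exact ⟨a1, by omega, by omega, by omega⟩,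
        by rintro ⟨a1, a2, a3, a4, a5, a6, a7⟩; exact ⟨a1, a2, a3, a4, a5, a6, a7⟩⟩
  · exact key (x := c) (y := b) (arith_sorted m c b a g f e hm hc hb ha hg h2 h1 (by omega))
      (fun h => by simp [h]) ⟨by rintro ⟨a1, a2, a3, a4⟩; exact ⟨a1, by omega, by omega, by omega⟩,
        by rintro ⟨a1, a2, a3, a4⟩; exact ⟨a1, by omega, by omega, by omega⟩,
        by rintro ⟨a1, a2, a3, a4, a5, a6, a7⟩; exact ⟨a1, a2, a3, a4, a5, a6, a7⟩⟩

theorem card_orbit_mul_stab {Γ X : Type*} [Group Γ] [MulAction Γ X] (x : X) :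
    Nat.card (orbit Γ x) * Nat.card (stabilizer Γ x) = Nat.card Γ := by
  rw [Nat.card_congr (orbitEquivQuotientStabilizer Γ x)]
  exact Subgroup.index_mul_card _

theorem klein_count {Γ X : Type*} [Group Γ] [Finite Γ] [Nontrivial Γ] [MulAction Γ X]
    (h2 : ∀ γ : Γ, γ ≠ 1 → (fixedBy X γ).ncard = 2) :
    (∃ x : X, stabilizer Γ x = ⊤) ∨ (∃ x : X, (stabilizer Γ x).index = 2) ∨
      (Nat.card Γ = 12 ∧ ∀ x : X, Nat.card (stabilizer Γ x) ≤ 3) ∨
      (Nat.card Γ = 24 ∧ ∀ x : X, Nat.card (stabilizer Γ x) ≤ 4) ∨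
      (Nat.card Γ = 60 ∧ ∀ x : X, Nat.card (stabilizer Γ x) ≤ 5 ∧ Nat.card (stabilizer Γ x) ≠ 4) := by
  classical
  haveI := Fintype.ofFinite Γ
  -- the points with a nontrivial stabiliser
  have hsm : ∀ (g : Γ) (x : X), stabilizer Γ x ≠ ⊥ → stabilizer Γ (g • x) ≠ ⊥ := by
    intro g x hx
    obtain ⟨γ, hγ, hγ1⟩ := (Subgroup.ne_bot_iff_exists_ne_one).mp hx |>.elim
      (fun a h => (⟨a.1, a.2, fun e => h (Subtype.ext e)⟩ : ∃ γ : Γ, γ ∈ stabilizer Γ x ∧ γ ≠ 1))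
    intro hb
    have h1 : g * γ * g⁻¹ ∈ stabilizer Γ (g • x) := by
      rw [mem_stabilizer_iff]
      have : γ • x = x := hγ
      rw [mul_smul, mul_smul, inv_smul_smul, this]
    rw [hb, Subgroup.mem_bot] at h1
    exact hγ1 (by
      have := h1
      rw [mul_inv_eq_one] at this
      exact mul_left_cancel (this.trans (mul_one g).symm))
  let Y : SubMulAction Γ X :=
    { carrier := {x | stabilizer Γ x ≠ ⊥}
      smul_mem' := fun g x hx => hsm g x hx }
  have hmemY : ∀ x : X, x ∈ Y ↔ stabilizer Γ x ≠ ⊥ := fun x => Iff.rfl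
  have hfix : ∀ γ : Γ, γ ≠ 1 → fixedBy X γ ⊆ (Y : Set X) := by
    intro γ hγ x hx
    refine fun hb => hγ ?_
    have h1 : γ ∈ stabilizer Γ x := hx
    rw [hb, Subgroup.mem_bot] at h1
    exact h1
  have hYfin : Finite Y := by
    have h3 : (Y : Set X) ⊆ ⋃ γ ∈ {γ : Γ | γ ≠ 1}, fixedBy X γ := by
      intro x hx
      obtain ⟨a, ha⟩ := (Subgroup.ne_bot_iff_exists_ne_one).mp hx
      simp only [Set.mem_iUnion]
      exact ⟨a.1, fun e => ha (Subtype.ext e), a.2⟩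
    have h4 : (⋃ γ ∈ {γ : Γ | γ ≠ 1}, fixedBy X γ).Finite := by
      apply Set.Finite.biUnion (Set.toFinite _)
      intro γ hγ
      apply Set.finite_of_ncard_ne_zero
      rw [h2 γ hγ]
      norm_num
    exact (h4.subset h3).to_subtype
  haveI := hYfin
  haveI := Fintype.ofFinite Y
  have hm2 : 2 ≤ Fintype.card Γ := Fintype.one_lt_card
  -- Burnside's lemma
  have hB := MulAction.sum_card_fixedBy_eq_card_orbits_mul_card_group Γ Y
  have hfixY : ∀ γ : Γ, γ ≠ 1 → Fintype.card (fixedBy Y γ) = 2 := by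
    intro γ hγ
    rw [← Nat.card_eq_fintype_card, ← h2 γ hγ, ← Nat.card_coe_set_eq]
    apply Nat.card_congr
    refine ⟨fun y => ⟨y.1.1, ?_⟩, fun x => ⟨⟨x.1, hfix γ hγ x.2⟩, ?_⟩, ?_, ?_⟩
    · have h5 : γ • y.1 = y.1 := y.2
      exact congrArg Subtype.val h5
    · apply Subtype.ext
      exact x.2
    · intro y; rfl
    · intro x; rfl
  have hsum : ∑ γ : Γ, Fintype.card (fixedBy Y γ) = Fintype.card Y + 2 * (Fintype.card Γ - 1) := by
    rw [← Finset.add_sum_erase _ _ (Finset.mem_univ (1 : Γ))]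
    congr 1
    · apply Fintype.card_congr
      refine ⟨fun y => y.1, fun y => ⟨y, by simp [mem_fixedBy]⟩, ?_, ?_⟩
      · intro y; rfl
      · intro y; rfl
    · rw [Finset.sum_congr rfl (fun γ hγ => hfixY γ (Finset.ne_of_mem_erase hγ)),
        Finset.sum_const, Finset.card_erase_of_mem (Finset.mem_univ _), Finset.card_univ, smul_eq_mul,
        mul_comm]
  set m := Fintype.card Γ with hm
  let Ω := orbitRel.Quotient Γ Y
  haveI : Finite Ω := Quotient.finite _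
  -- sizes of orbits
  let a : Ω → ℕ := fun ω => Nat.card (orbit Γ ω.out)
  let e : Ω → ℕ := fun ω => Nat.card (stabilizer Γ ω.out)
  have hae : ∀ ω, a ω * e ω = m := by
    intro ω
    rw [hm, ← Nat.card_eq_fintype_card]
    exact card_orbit_mul_stab (Γ := Γ) ω.out
  have hstabY : ∀ y : Y, stabilizer Γ y = stabilizer Γ (y : X) := by
    intro y
    ext g
    simp only [mem_stabilizer_iff]
    exact ⟨fun h => congrArg Subtype.val h, fun h => Subtype.ext h⟩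
  have he2 : ∀ ω, 2 ≤ e ω := by
    intro ω
    have h1 : stabilizer Γ ((ω.out : Y) : X) ≠ ⊥ := (ω.out).2
    have h3 : Nat.card (stabilizer Γ (ω.out : Y)) ≠ 1 := by
      rw [hstabY]
      intro h
      exact h1 (Subgroup.eq_bot_of_card_eq _ h)
    have h4 : 0 < Nat.card (stabilizer Γ (ω.out : Y)) := Nat.card_pos
    show 2 ≤ Nat.card (stabilizer Γ (ω.out : Y))
    omega
  haveI : Fintype Ω := Fintype.ofFinite _
  have hcardY : Fintype.card Y = ∑ ω : Ω, a ω := by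
    rw [Fintype.card_congr (selfEquivSigmaOrbits Γ Y), Fintype.card_sigma]
    apply Finset.sum_congr rfl
    intro ω _
    rw [← Nat.card_eq_fintype_card]
  have hmain : Fintype.card Ω * m = (∑ ω : Ω, a ω) + 2 * (m - 1) := by
    rw [← hcardY, ← hsum, hB, Nat.mul_left_inj (by omega)]
    have hcc : ∀ (i j : Fintype Ω), @Fintype.card Ω i = @Fintype.card Ω j := fun i j => by
      congr; exact Subsingleton.elim _ _
    exact hcc _ _
  have hle : 2 * ∑ ω : Ω, a ω ≤ Fintype.card Ω * m := by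
    rw [Finset.mul_sum, ← smul_eq_mul, ← Finset.card_univ, ← Finset.sum_const]
    apply Finset.sum_le_sum
    intro ω _
    rw [← hae ω, mul_comm]
    exact Nat.mul_le_mul_left _ (he2 ω)
  have hr3 : Fintype.card Ω ≤ 3 := by
    by_contra hn
    push Not at hn
    have h5 : 4 * m ≤ Fintype.card Ω * m := Nat.mul_le_mul_right _ hn
    omega
  have horb : ∀ x : Y, ∃ ω : Ω, Nat.card (stabilizer Γ (x : X)) = e ω := by
    intro x
    refine ⟨Quotient.mk'' x, ?_⟩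
    have h6 : orbit Γ (Quotient.mk'' x : Ω).out = orbit Γ x := by
      apply orbit_eq_iff.mpr
      exact orbitRel_apply.mp (Quotient.mk_out (s := orbitRel Γ Y) x)
    have h7 := card_orbit_mul_stab (Γ := Γ) x
    have h8 := hae (Quotient.mk'' x)
    have h9 : Nat.card (orbit Γ x) = a (Quotient.mk'' x) := by
      show Nat.card (orbit Γ x) = Nat.card (orbit Γ (Quotient.mk'' x : Ω).out)
      rw [h6]
    rw [h9, Nat.card_eq_fintype_card (α := Γ), ← hm, hstabY] at h7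
    have hapos0 : ∀ ω, 0 < a ω := fun ω => by
      have h00 := hae ω
      exact Nat.pos_of_ne_zero (fun h => by rw [h, zero_mul] at h00; omega)
    have h10 : 0 < a (Quotient.mk'' x) := hapos0 _
    exact Nat.eq_of_mul_eq_mul_left h10 (h7.trans h8.symm)
  have hone : ∀ x : X, stabilizer Γ x = ⊥ → Nat.card (stabilizer Γ x) = 1 := by
    intro x hx
    rw [hx]
    exact Subgroup.card_bot
  have hapos : ∀ ω, 0 < a ω := fun ω => by
    have h00 := hae ω
    exact Nat.pos_of_ne_zero (fun h => by rw [h, zero_mul] at h00; omega)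
  have hr : Fintype.card Ω = 0 ∨ Fintype.card Ω = 1 ∨ Fintype.card Ω = 2 ∨ Fintype.card Ω = 3 := by omega
  rcases hr with hr | hr | hr | hr
  · exfalso
    rw [hr, Fintype.card_eq_zero_iff.mp hr |> fun _ => Finset.univ_eq_empty_iff.mpr (Fintype.card_eq_zero_iff.mp hr)] at hmain
    simp at hmain
    omega
  · exfalso
    obtain ⟨ω, hω⟩ := Fintype.card_eq_one_iff.mp hr
    have h1 : (Finset.univ : Finset Ω) = {ω} := by
      ext y; simp [hω y]
    rw [hr, h1, Finset.sum_singleton] at hmain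
    have := hapos ω
    omega
  · left
    obtain ⟨ω₁, ω₂, hne, h1⟩ := Finset.card_eq_two.mp (by rw [Finset.card_univ]; exact hr : (Finset.univ : Finset Ω).card = 2)
    rw [hr, h1, Finset.sum_pair hne] at hmain
    have h3 := hapos ω₁
    have h4 := hapos ω₂
    have h5 : a ω₁ = 1 := by omega
    refine ⟨(ω₁.out : Y), ?_⟩
    have h6 : e ω₁ = m := by
      have := hae ω₁
      rwa [h5, one_mul] at this
    have h7 : Nat.card (stabilizer Γ ((ω₁.out : Y) : X)) = Nat.card Γ := by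
      have h8 : e ω₁ = Nat.card (stabilizer Γ ((ω₁.out : Y) : X)) := by
        show Nat.card (stabilizer Γ (ω₁.out : Y)) = _
        rw [hstabY]
      rw [← h8, h6, hm, Nat.card_eq_fintype_card]
    exact Subgroup.eq_top_of_card_eq _ h7
  · right
    obtain ⟨ω₁, ω₂, ω₃, h12, h13, h23, h1⟩ := Finset.card_eq_three.mp (by rw [Finset.card_univ]; exact hr : (Finset.univ : Finset Ω).card = 3)
    have hs : ∑ ω : Ω, a ω = a ω₁ + a ω₂ + a ω₃ := by
      rw [h1, Finset.sum_insert (by simp [h12, h13]), Finset.sum_pair h23, add_assoc]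
    rw [hr, hs] at hmain
    have hmem : ∀ ω : Ω, ω = ω₁ ∨ ω = ω₂ ∨ ω = ω₃ := by
      intro ω
      have : ω ∈ (Finset.univ : Finset Ω) := Finset.mem_univ _
      rw [h1] at this
      simpa using this
    have harith := arith_three m (a ω₁) (a ω₂) (a ω₃) (e ω₁) (e ω₂) (e ω₃) (by omega) (hae _) (hae _) (hae _)
      (he2 _) (he2 _) (he2 _) (by omega)
    have hindex : ∀ ω, a ω = 2 → ∃ x : X, (stabilizer Γ x).index = 2 := by
      intro ω hω
      refine ⟨(ω.out : Y), ?_⟩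
      rw [Subgroup.index, ← Nat.card_congr (orbitEquivQuotientStabilizer Γ ((ω.out : Y) : X))]
      have h2 := card_orbit_mul_stab (Γ := Γ) ((ω.out : Y) : X)
      have h3 := hae ω
      have h4 : e ω = Nat.card (stabilizer Γ ((ω.out : Y) : X)) := by
        show Nat.card (stabilizer Γ (ω.out : Y)) = _
        rw [hstabY]
      rw [← h4, Nat.card_eq_fintype_card (α := Γ), ← hm, ← h3] at h2
      exact Nat.eq_of_mul_eq_mul_right (he2 ω |> fun h => by omega) (h2.trans (by rw [hω]))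
    have hbound : ∀ x : X, Nat.card (stabilizer Γ x) = 1 ∨ Nat.card (stabilizer Γ x) = e ω₁ ∨
        Nat.card (stabilizer Γ x) = e ω₂ ∨ Nat.card (stabilizer Γ x) = e ω₃ := by
      intro x
      by_cases hx : stabilizer Γ x = ⊥
      · exact Or.inl (hone x hx)
      · obtain ⟨ω, hω⟩ := horb ⟨x, hx⟩
        rcases hmem ω with rfl | rfl | rfl
        · exact Or.inr (Or.inl hω)
        · exact Or.inr (Or.inr (Or.inl hω))
        · exact Or.inr (Or.inr (Or.inr hω))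
    rcases harith with h | ⟨h, h3, h4, h5⟩ | ⟨h, h3, h4, h5⟩ | ⟨h, h3, h4, h5, h6, h7, h8⟩
    · left
      rcases h with h | h | h
      · exact hindex _ h
      · exact hindex _ h
      · exact hindex _ h
    · right; left
      refine ⟨by rw [Nat.card_eq_fintype_card]; exact h, fun x => ?_⟩
      have := hbound x
      omega
    · right; right; left
      refine ⟨by rw [Nat.card_eq_fintype_card]; exact h, fun x => ?_⟩
      have := hbound x
      omega
    · right; right; right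
      refine ⟨by rw [Nat.card_eq_fintype_card]; exact h, fun x => ?_⟩
      have := hbound x
      omega

end Cfsg.Agent.Lib.Zass
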