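import Mathlib

/-!
# Fixed-point-free representations: basic facts
-/

set_option autoImplicit false

namespace Cfsg.Agent.Lib.Zass

open Module

variable {G : Type*} [Group G] {F : Type*} [Field F] {V : Type*} [AddCommGroup V] [Module F V]

/-- A representation in which non-identity elements have no nonzero fixed vectors. -/
def Fpf (ρ : G →* Module.End F V) : Prop := ∀ g, g ≠ 1 → ∀ v, ρ g v = v → v = 0

theorem apply_inv_apply (ρ : G →* Module.End F V) (g : G) (v : V) : ρ g (ρ g⁻¹ v) = v := by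
  have h : ρ g * ρ g⁻¹ = 1 := by rw [← map_mul, mul_inv_cancel, map_one]
  exact LinearMap.congr_fun h v

theorem inv_apply_apply (ρ : G →* Module.End F V) (g : G) (v : V) : ρ g⁻¹ (ρ g v) = v := by
  have h : ρ g⁻¹ * ρ g = 1 := by rw [← map_mul, inv_mul_cancel, map_one]
  exact LinearMap.congr_fun h v

theorem mul_apply' (ρ : G →* Module.End F V) (a b : G) (v : V) : ρ (a * b) v = ρ a (ρ b v) := by
  rw [map_mul]; rfl

theorem Fpf.eq_one {ρ : G →* Module.End F V} (h : Fpf ρ) {g : G} {v : V} (hv : v ≠ 0)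
    (hg : ρ g v = v) : g = 1 := by
  by_contra hne
  exact hv (h g hne v hg)

theorem Fpf.injective [Nontrivial V] {ρ : G →* Module.End F V} (h : Fpf ρ) :
    Function.Injective ρ := by
  intro a b hab
  obtain ⟨v, hv⟩ := exists_ne (0 : V)
  have h1 : ρ (a⁻¹ * b) v = v := by
    rw [mul_apply', ← hab, inv_apply_apply]
  have h2 := h.eq_one hv h1
  rw [inv_mul_eq_one] at h2
  exact h2

theorem Fpf.invol {ρ : G →* Module.End F V} (h : Fpf ρ) {g : G} (hg : g ^ 2 = 1) (hg1 : g ≠ 1) :
    ρ g = -1 := by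
  ext v
  have h1 : ρ g (ρ g v + v) = ρ g v + v := by
    rw [map_add, ← mul_apply', ← pow_two, hg, map_one]
    simp [add_comm]
  have h2 := h g hg1 _ h1
  simp only [LinearMap.neg_apply, Module.End.one_apply]
  exact eq_neg_of_add_eq_zero_left h2

theorem Fpf.invol_unique [Nontrivial V] {ρ : G →* Module.End F V} (h : Fpf ρ) {a b : G}
    (ha : a ^ 2 = 1) (ha1 : a ≠ 1) (hb : b ^ 2 = 1) (hb1 : b ≠ 1) : a = b :=
  h.injective ((h.invol ha ha1).trans (h.invol hb hb1).symm)

theorem Fpf.two_ne_zero [Nontrivial V] {ρ : G →* Module.End F V} (h : Fpf ρ) {g : G}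
    (hg : g ^ 2 = 1) (hg1 : g ≠ 1) : (2 : F) ≠ 0 := by
  intro h2
  obtain ⟨v, hv⟩ := exists_ne (0 : V)
  apply hv
  apply h g hg1
  rw [h.invol hg hg1]
  have h3 : (2 : F) • v = 0 := by rw [h2, zero_smul]
  have h4 : v + v = 0 := by rw [← two_smul F v]; exact h3
  simp only [LinearMap.neg_apply, Module.End.one_apply]
  exact (eq_neg_of_add_eq_zero_left h4).symm

/-- Simultaneous eigenvector for a commuting family. -/
theorem exists_common_eigenvector [IsAlgClosed F] [FiniteDimensional F V] [Nontrivial V]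
    (T : Set (Module.End F V)) (hT : ∀ a ∈ T, ∀ b ∈ T, a * b = b * a) :
    ∃ v : V, v ≠ 0 ∧ ∀ a ∈ T, ∃ c : F, a v = c • v := by
  have key : ∀ n : ℕ, ∀ W : Submodule F V, finrank F W = n → W ≠ ⊥ →
      (∀ a ∈ T, ∀ w ∈ W, a w ∈ W) → ∃ v ∈ W, v ≠ 0 ∧ ∀ a ∈ T, ∃ c : F, a v = c • v := by
    intro n
    induction n using Nat.strong_induction_on with
    | _ n ih =>
    intro W hn hW hinv
    by_cases hall : ∀ a ∈ T, ∃ c : F, ∀ w ∈ W, a w = c • w
    · obtain ⟨w, hw, hw0⟩ := (Submodule.ne_bot_iff W).mp hW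
      refine ⟨w, hw, hw0, fun a ha => ?_⟩
      obtain ⟨c, hc⟩ := hall a ha
      exact ⟨c, hc w hw⟩
    · push Not at hall
      obtain ⟨a, ha, hna⟩ := hall
      haveI : Nontrivial W := Submodule.nontrivial_iff_ne_bot.mpr hW
      let a₀ : Module.End F W := a.restrict (hinv a ha)
      obtain ⟨c, hc⟩ := Module.End.exists_eigenvalue a₀
      obtain ⟨w, hw⟩ := hc.exists_hasEigenvector
      have hwa : a (w : V) = c • (w : V) := by
        have := hw.apply_eq_smul
        exact congrArg Subtype.val this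
      let W' : Submodule F V := W ⊓ Module.End.eigenspace a c
      have hw'0 : W' ≠ ⊥ := by
        refine (Submodule.ne_bot_iff W').mpr ⟨(w : V), ⟨w.2, ?_⟩, ?_⟩
        · exact Module.End.mem_eigenspace_iff.mpr hwa
        · intro h0
          exact hw.2 (Subtype.ext h0)
      have hlt : W' < W := by
        refine lt_of_le_of_ne inf_le_left ?_
        intro he
        obtain ⟨x, hx, hxn⟩ := hna c
        apply hxn
        have hx' : x ∈ W' := he ▸ hx
        exact Module.End.mem_eigenspace_iff.mp hx'.2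
      have hfr : finrank F W' < n := hn ▸ Submodule.finrank_lt_finrank_of_lt hlt
      obtain ⟨v, hv, hv0, hvT⟩ := ih _ hfr W' rfl hw'0 (by
        intro b hb x hx
        refine ⟨hinv b hb x hx.1, ?_⟩
        have h1 : a x = c • x := Module.End.mem_eigenspace_iff.mp hx.2
        apply Module.End.mem_eigenspace_iff.mpr
        have h2 : a (b x) = b (a x) := LinearMap.congr_fun (hT a ha b hb) x
        rw [h2, h1, map_smul])
      exact ⟨v, hv.1, hv0, hvT⟩
  obtain ⟨v, -, hv, hvT⟩ := key _ ⊤ rfl top_ne_bot (fun _ _ _ _ => Submodule.mem_top)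
  exact ⟨v, hv, hvT⟩

/-- Abelian subgroups of a group with a fixed-point-free representation are cyclic. -/
theorem Fpf.isCyclic_of_comm [IsAlgClosed F] [FiniteDimensional F V] [Nontrivial V] [Finite G]
    {ρ : G →* Module.End F V} (h : Fpf ρ) (E : Subgroup G) (hE : IsMulCommutative E) : IsCyclic E := by
  obtain ⟨v, hv, hvT⟩ := exists_common_eigenvector ((fun e : E => ρ e) '' Set.univ) (by
    rintro _ ⟨a, -, rfl⟩ _ ⟨b, -, rfl⟩
    show ρ a * ρ b = ρ b * ρ a
    rw [← map_mul, ← map_mul]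
    congr 1
    have := hE.is_comm.comm a b
    exact congrArg Subtype.val this)
  have hc : ∀ e : E, ∃ c : F, ρ e v = c • v := fun e => hvT _ ⟨e, trivial, rfl⟩
  choose c hc using hc
  have huniq : ∀ (e : E) (d : F), ρ e v = d • v → c e = d := by
    intro e d hd
    have h1 : (c e - d) • v = 0 := by rw [sub_smul, ← hc e, hd, sub_self]
    rcases smul_eq_zero.mp h1 with h2 | h2
    · exact sub_eq_zero.mp h2
    · exact absurd h2 hv
  let χ : E →* F :=
    { toFun := c
      map_one' := huniq 1 1 (by simp)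
      map_mul' := fun a b => by
        apply huniq
        have : ((a * b : E) : G) = a * b := rfl
        rw [this, mul_apply', hc b, map_smul, hc a, smul_smul, mul_comm] }
  have hinj : Function.Injective χ := by
    intro a b hab
    have h1 : c a = c b := hab
    have h2 : ρ ((a : G)⁻¹ * b) v = v := by
      rw [mul_apply', hc b, ← h1, ← hc a, inv_apply_apply]
    have h3 := h.eq_one hv h2
    rw [inv_mul_eq_one] at h3
    exact Subtype.ext h3
  exact isCyclic_of_subgroup_isDomain χ hinj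

/-- The order of the group is invertible in the field. -/
theorem Fpf.natCast_card_ne_zero [IsAlgClosed F] [FiniteDimensional F V] [Nontrivial V] [Finite G]
    {ρ : G →* Module.End F V} (h : Fpf ρ) : (Nat.card G : F) ≠ 0 := by
  intro h0
  obtain ⟨p, hp⟩ := CharP.exists F
  have hd : p ∣ Nat.card G := (CharP.cast_eq_zero_iff F p _).mp h0
  have hpos : 0 < Nat.card G := Nat.card_pos
  have hp0 : p ≠ 0 := by
    rintro rfl
    rw [zero_dvd_iff] at hd
    omega
  have hpp : p.Prime := (CharP.char_is_prime_or_zero F p).resolve_right hp0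
  haveI : Fact p.Prime := ⟨hpp⟩
  obtain ⟨g, hg⟩ := exists_prime_orderOf_dvd_card' p hd
  obtain ⟨c, hc⟩ := Module.End.exists_eigenvalue (ρ g)
  obtain ⟨v, hv⟩ := hc.exists_hasEigenvector
  have hgv : ρ g v = c • v := hv.apply_eq_smul
  have hpow : ∀ n : ℕ, ρ (g ^ n) v = c ^ n • v := by
    intro n
    induction n with
    | zero => simp
    | succ n ih =>
      rw [pow_succ, mul_apply', hgv, map_smul, ih, smul_smul, pow_succ, mul_comm]
  have h1 : c ^ p • v = v := by
    rw [← hpow p, ← hg, pow_orderOf_eq_one, map_one]; rfl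
  have h2 : (c ^ p - 1) • v = 0 := by rw [sub_smul, h1, one_smul, sub_self]
  have h3 : c ^ p - 1 = 0 := (smul_eq_zero.mp h2).resolve_right hv.2
  have h4 : (c - 1) ^ p = 0 := by
    rw [sub_pow_char, one_pow, h3]
  have h5 : c = 1 := sub_eq_zero.mp (pow_eq_zero_iff hpp.ne_zero |>.mp h4)
  have h6 : ρ g v = v := by rw [hgv, h5, one_smul]
  have h7 := h.eq_one hv.2 h6
  rw [h7, orderOf_one] at hg
  exact hpp.one_lt.ne hg

/-- The identity computing an element of order three in terms of the quaternion generators. -/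
theorem lemY {A : Type*} [Ring A] (I J X : A) (hI : I * I = -1) (hJ : J * J = -1)
    (hJI : J * I = -(I * J)) (hX : X * X + X + 1 = 0) (h1 : X * I = J * X)
    (h2 : X * J = I * J * X) : (-2 : A) * X = 1 + I + J + I * J := by
  have ha : I * X * I = I * J * X := by rw [mul_assoc, h1, mul_assoc]
  have hb : I * (X * X) * I = -(J * X * X) := by
    calc I * (X * X) * I = I * X * (X * I) := by simp only [mul_assoc]
      _ = I * X * (J * X) := by rw [h1]
      _ = I * (X * J) * X := by simp only [mul_assoc]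
      _ = I * (I * J * X) * X := by rw [h2]
      _ = (I * I) * J * X * X := by simp only [mul_assoc]
      _ = -(J * X * X) := by rw [hI]; simp
  have hc : -(J * X * X) + I * J * X - 1 = 0 := by
    have h3 : I * (X * X + X + 1) * I = 0 := by rw [hX]; simp
    have h4 : I * (X * X + X + 1) * I = I * (X * X) * I + I * X * I + I * I := by
      noncomm_ring
    rw [h4, hb, ha, hI] at h3
    rw [← h3]; noncomm_ring
  have hXX : X * X = -X - 1 := by
    have h5 : X * X = (X * X + X + 1) - X - 1 := by noncomm_ring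
    rw [h5, hX]; noncomm_ring
  have hd : J * X + J + I * J * X - 1 = 0 := by
    have h6 : J * X * X = J * (X * X) := by rw [mul_assoc]
    rw [h6, hXX] at hc
    rw [← hc]; noncomm_ring
  have hB : (J + I * J) * X = 1 - J := by
    have h7 : (J + I * J) * X - (1 - J) = J * X + J + I * J * X - 1 := by noncomm_ring
    exact sub_eq_zero.mp (h7.trans hd)
  have hJIJ : J * I * J = I := by
    rw [hJI, neg_mul, mul_assoc, hJ]; simp
  have hC : (I - 1) * X = J + 1 := by
    have h8 : J * ((J + I * J) * X) = J * (1 - J) := by rw [hB]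
    have h9 : J * ((J + I * J) * X) = (J * J + J * I * J) * X := by noncomm_ring
    rw [h9, hJ, hJIJ] at h8
    have h10 : J * (1 - J) = J - J * J := by noncomm_ring
    rw [h10, hJ] at h8
    have h11 : (I - 1) * X = (-1 + I) * X := by noncomm_ring
    rw [h11, h8]; noncomm_ring
  have hf : (I + 1) * ((I - 1) * X) = (I + 1) * (J + 1) := by rw [hC]
  have h12 : (I + 1) * ((I - 1) * X) = (I * I - 1) * X := by noncomm_ring
  rw [h12, hI] at hf
  have h13 : (-1 - 1 : A) = -2 := by norm_num
  rw [h13] at hf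
  rw [hf]; noncomm_ring

/-- An element of order three cycling a quaternion pair lies in the span of the pair. -/
theorem Fpf.xform [Nontrivial V] {ρ : G →* Module.End F V} (h : Fpf ρ) {s t x : G}
    (hs4 : s ^ 4 = 1) (hs2 : s ^ 2 ≠ 1) (ht2 : t ^ 2 = s ^ 2) (hts : t * s * t⁻¹ = s⁻¹)
    (hx3 : x ^ 3 = 1) (hx1 : x ≠ 1) (hxs : x * s * x⁻¹ = t)
    (hxt : x * t * x⁻¹ = s * t ∨ x * t * x⁻¹ = s ^ 3 * t) :
    ∃ a b c d : F, ρ x = a • 1 + b • ρ s + c • ρ t + d • (ρ s * ρ t) := by
  have hz2 : (s ^ 2) ^ 2 = 1 := by rw [← pow_mul]; exact hs4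
  have h2F : (2 : F) ≠ 0 := h.two_ne_zero hz2 hs2
  have hρz : ρ (s ^ 2) = -1 := h.invol hz2 hs2
  have hI : ρ s * ρ s = -1 := by rw [← map_mul, ← pow_two, hρz]
  have hJ : ρ t * ρ t = -1 := by rw [← map_mul, ← pow_two, ht2, hρz]
  have hsinv : ρ s⁻¹ = - ρ s := by
    have h1 : s⁻¹ = s ^ 2 * s := by
      rw [inv_eq_iff_mul_eq_one, ← hs4]; group
    rw [h1, map_mul, hρz]; simp
  have hJI : ρ t * ρ s = -(ρ s * ρ t) := by
    have h1 : t * s = s⁻¹ * t := by rw [← hts]; group
    rw [← map_mul, h1, map_mul, hsinv]; simp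
  have hX : ρ x * ρ x + ρ x + 1 = 0 := by
    ext v
    have h1 : ρ x ((ρ x * ρ x + ρ x + 1) v) = (ρ x * ρ x + ρ x + 1) v := by
      have h3 : ρ x * (ρ x * ρ x) = 1 := by
        rw [← map_mul, ← map_mul, ← pow_two, ← pow_succ', hx3, map_one]
      have h4 : ρ x (ρ x (ρ x v)) = v := LinearMap.congr_fun h3 v
      simp only [LinearMap.add_apply, Module.End.mul_apply, Module.End.one_apply, map_add, h4]
      abel
    exact h x hx1 _ h1
  have hXI : ρ x * ρ s = ρ t * ρ x := by
    rw [← hxs, ← map_mul, ← map_mul]; congr 1; group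
  have h2inv : ∀ A : Module.End F V, (-2 : Module.End F V) * ρ x = A →
      ρ x = (-(2 : F)⁻¹) • A := by
    intro A hA
    rw [← hA]
    ext v
    simp only [LinearMap.smul_apply, Module.End.mul_apply]
    have : ((-2 : Module.End F V) (ρ x v)) = (-2 : F) • (ρ x v) := by
      simp [two_smul]
    rw [this, smul_smul]
    have h5 : (-(2 : F)⁻¹) * (-2) = 1 := by field_simp
    rw [h5, one_smul]
  rcases hxt with hxt | hxt
  · have hXJ : ρ x * ρ t = ρ s * ρ t * ρ x := by
      rw [← map_mul, ← map_mul, ← map_mul, ← hxt]; congr 1; group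
    have := lemY (ρ s) (ρ t) (ρ x) hI hJ hJI hX hXI hXJ
    refine ⟨-(2 : F)⁻¹, -(2 : F)⁻¹, -(2 : F)⁻¹, -(2 : F)⁻¹, ?_⟩
    rw [h2inv _ this]
    simp only [smul_add]
  · have hXJ : ρ x * ρ t = -(ρ s * ρ t * ρ x) := by
      have h1 : x * t = s ^ 3 * t * x := by rw [← hxt]; group
      have h3 : ρ (s ^ 3) = - ρ s := by
        rw [pow_succ, map_mul, hρz]; simp
      rw [← map_mul, h1, map_mul, map_mul, h3]; simp
    have := lemY (-ρ s) (-ρ t) (ρ x) (by simp [hI]) (by simp [hJ]) (by simp [hJI])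
      hX (by rw [mul_neg, neg_mul, hXI]) (by
        rw [mul_neg, hXJ]; simp)
    refine ⟨-(2 : F)⁻¹, (2 : F)⁻¹, (2 : F)⁻¹, -(2 : F)⁻¹, ?_⟩
    rw [h2inv _ this]
    simp only [smul_add, neg_mul, mul_neg, neg_neg, smul_neg, neg_smul]

end Cfsg.Agent.Lib.Zass
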