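import Mathlib
import Cfsg.Agent.Lib.Zass.Rep
import Cfsg.Agent.Lib.Zass.Klein

/-!
# Fixed-point-free groups acting on a plane
-/

set_option autoImplicit false

namespace Cfsg.Agent.Lib.Zass

open Module MulAction
open scoped LinearAlgebra.Projectivization

variable {F : Type*} [Field F] {U : Type*} [AddCommGroup U] [Module F U]

/-- Diagonalising a non-scalar element of finite order on a plane. -/
theorem two_eigen [IsAlgClosed F] (hU : finrank F U = 2) (T : Module.End F U) (N : ℕ)
    (hN : T ^ N = 1) (hN0 : (N : F) ≠ 0) (hns : ¬ ∃ c : F, ∀ u, T u = c • u) :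
    ∃ (e₁ e₂ : U) (c₁ c₂ : F), e₁ ≠ 0 ∧ e₂ ≠ 0 ∧ T e₁ = c₁ • e₁ ∧ T e₂ = c₂ • e₂ ∧ c₁ ≠ c₂ ∧
      ∀ u : U, ∃ a b : F, u = a • e₁ + b • e₂ := by
  haveI : FiniteDimensional F U := FiniteDimensional.of_finrank_pos (by omega)
  haveI : Nontrivial U := Module.nontrivial_of_finrank_pos (R := F) (by omega)
  obtain ⟨c, hc⟩ := Module.End.exists_eigenvalue T
  obtain ⟨e₁, he₁⟩ := hc.exists_hasEigenvector
  have hT1 : T e₁ = c • e₁ := he₁.apply_eq_smul
  have he₁0 : e₁ ≠ 0 := he₁.2
  obtain ⟨e, hli⟩ := exists_linearIndependent_pair_of_one_lt_finrank (R := F) (by omega) he₁0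
  have hspan : ∀ u : U, ∃ a b : F, a • e₁ + b • e = u := by
    intro u
    have h1 : Submodule.span F (Set.range ![e₁, e]) = ⊤ :=
      hli.span_eq_top_of_card_eq_finrank' (by simp [hU])
    have h2 : u ∈ Submodule.span F (Set.range ![e₁, e]) := by rw [h1]; trivial
    rw [Matrix.range_cons, Matrix.range_cons, Matrix.range_empty, Set.union_empty,
      Set.singleton_union, Submodule.mem_span_pair] at h2
    exact h2
  have hind : ∀ a b : F, a • e₁ + b • e = 0 → a = 0 ∧ b = 0 := by
    intro a b hab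
    have := LinearIndependent.pair_iff.mp hli a b hab
    exact this
  obtain ⟨a, b, hab⟩ := hspan (T e)
  by_cases hb : b = c
  · subst hb
    exfalso
    have ha0 : a ≠ 0 := by
      rintro rfl
      apply hns
      refine ⟨b, fun u => ?_⟩
      obtain ⟨x, y, rfl⟩ := hspan u
      rw [map_add, map_smul, map_smul, hT1, ← hab]
      simp [smul_add, smul_comm x b, smul_comm y b]
    have hpow : ∀ n : ℕ, ∃ d : F, (T ^ n) e = b ^ n • e + d • e₁ ∧ b * d = n * (b ^ n * a) := by
      intro n
      induction n with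
      | zero => exact ⟨0, by simp, by simp⟩
      | succ n ih =>
        obtain ⟨d, h1, h2⟩ := ih
        refine ⟨b ^ n * a + b * d, ?_, ?_⟩
        · rw [pow_succ', Module.End.mul_apply, h1, map_add, map_smul, map_smul, hT1, ← hab]
          simp only [smul_add, smul_smul, add_smul, pow_succ]
          rw [mul_comm d b]
          abel
        · rw [mul_add, h2]
          push_cast
          ring
    obtain ⟨d, h1, h2⟩ := hpow N
    rw [hN, Module.End.one_apply] at h1
    have h3 : (-d) • e₁ + (1 - b ^ N) • e = 0 := by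
      rw [sub_smul, one_smul, neg_smul]
      nth_rewrite 1 [h1]
      abel
    obtain ⟨h4, h5⟩ := hind _ _ h3
    have h6 : d = 0 := neg_eq_zero.mp h4
    have h7 : b ^ N = 1 := (sub_eq_zero.mp h5).symm
    rw [h6, mul_zero, h7, one_mul] at h2
    exact (mul_ne_zero hN0 ha0) h2.symm
  · have hbc : b - c ≠ 0 := sub_ne_zero.mpr hb
    let q : F := a / (b - c)
    have hq : a + c * q = b * q := by
      simp only [q]
      field_simp
      ring
    refine ⟨e₁, e + q • e₁, c, b, he₁0, ?_, hT1, ?_, fun h => hb h.symm, ?_⟩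
    · intro h0
      have := (hind q 1 (by rw [one_smul, add_comm]; exact h0)).2
      exact one_ne_zero this
    · rw [map_add, map_smul, ← hab, hT1, smul_add, smul_smul, smul_smul, add_comm (a • e₁),
        add_assoc, ← add_smul, mul_comm q c, hq]
    · intro u
      obtain ⟨x, y, rfl⟩ := hspan u
      refine ⟨x - y * q, y, ?_⟩
      rw [smul_add, smul_smul, sub_smul]
      abel

variable {H : Type*} [Group H]

/-- The projective line of the plane, as a set on which the group acts. -/
def PL (_τ : H →* Module.End F U) : Type _ := ℙ F U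

theorem tau_inj (τ : H →* Module.End F U) (h : H) : Function.Injective (τ h) := fun a b e => by
  have h1 := congrArg (τ h⁻¹) e
  rwa [inv_apply_apply, inv_apply_apply] at h1

/-- A point of the projective line from a vector. -/
def plMk (τ : H →* Module.End F U) (v : U) (hv : v ≠ 0) : PL τ := Projectivization.mk F v hv

theorem pl_ind (τ : H →* Module.End F U) (p : PL τ) : ∃ (v : U) (hv : v ≠ 0), p = plMk τ v hv := by
  induction p using Projectivization.ind with
  | h v hv => exact ⟨v, hv, rfl⟩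

theorem tau_ne (τ : H →* Module.End F U) (h : H) {v : U} (hv : v ≠ 0) : τ h v ≠ 0 := fun h0 =>
  hv (tau_inj τ h (by rw [h0, map_zero]))

noncomputable instance plAct (τ : H →* Module.End F U) : MulAction H (PL τ) where
  smul h p := Projectivization.map (τ h) (tau_inj τ h) p
  one_smul p := by
    obtain ⟨v, hv, rfl⟩ := pl_ind τ p
    show Projectivization.map (τ 1) (tau_inj τ 1) (Projectivization.mk F v hv) = _
    rw [Projectivization.map_mk]
    simp only [plMk, map_one, Module.End.one_apply]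
  mul_smul a b p := by
    obtain ⟨v, hv, rfl⟩ := pl_ind τ p
    show Projectivization.map (τ (a * b)) (tau_inj τ (a * b)) (Projectivization.mk F v hv) =
      Projectivization.map (τ a) (tau_inj τ a) (Projectivization.map (τ b) (tau_inj τ b)
        (Projectivization.mk F v hv))
    simp only [Projectivization.map_mk, map_mul, Module.End.mul_apply]

theorem smul_plMk (τ : H →* Module.End F U) (h : H) (v : U) (hv : v ≠ 0) :
    h • plMk τ v hv = plMk τ (τ h v) (tau_ne τ h hv) := by
  show Projectivization.map (τ h) (tau_inj τ h) (Projectivization.mk F v hv) = _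
  rw [Projectivization.map_mk]
  rfl

theorem plMk_eq_iff (τ : H →* Module.End F U) {v w : U} (hv : v ≠ 0) (hw : w ≠ 0) :
    plMk τ v hv = plMk τ w hw ↔ ∃ c : F, c • w = v :=
  Projectivization.mk_eq_mk_iff' F v w hv hw

theorem smul_plMk_eq_iff (τ : H →* Module.End F U) (h : H) (v : U) (hv : v ≠ 0) :
    h • plMk τ v hv = plMk τ v hv ↔ ∃ c : F, τ h v = c • v := by
  rw [smul_plMk, plMk_eq_iff]
  exact ⟨fun ⟨c, hc⟩ => ⟨c, hc.symm⟩, fun ⟨c, hc⟩ => ⟨c, hc.symm⟩⟩

/-- The group of projectivities induced by `H`. -/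
noncomputable abbrev GamT (τ : H →* Module.End F U) : Subgroup (Equiv.Perm (PL τ)) :=
  (MulAction.toPermHom H (PL τ)).range

/-- The map to the group of projectivities. -/
noncomputable abbrev piT (τ : H →* Module.End F U) : H →* GamT τ :=
  (MulAction.toPermHom H (PL τ)).rangeRestrict

theorem piT_smul (τ : H →* Module.End F U) (h : H) (p : PL τ) : piT τ h • p = h • p := rfl

theorem piT_surj (τ : H →* Module.End F U) (γ : GamT τ) : ∃ h, piT τ h = γ :=
  MonoidHom.rangeRestrict_surjective _ γ

theorem piT_eq_one_of_scalar (τ : H →* Module.End F U) {h : H} {c : F} (hc : ∀ u, τ h u = c • u) :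
    piT τ h = 1 := by
  apply Subtype.ext
  ext p
  obtain ⟨v, hv, rfl⟩ := pl_ind τ p
  show h • plMk τ v hv = plMk τ v hv
  exact (smul_plMk_eq_iff τ h v hv).mpr ⟨c, hc v⟩

section Main

variable [Finite H] [IsAlgClosed F] {τ : H →* Module.End F U}

theorem tau_pow_card (τ : H →* Module.End F U) (h : H) : τ h ^ Nat.card H = 1 := by
  rw [← map_pow, pow_card_eq_one', map_one]

/-- A non-identity projectivity is diagonal with two distinct eigenvalues. -/
theorem exists_eig (hτ : Fpf τ) (hU : finrank F U = 2) {h : H} (hh : piT τ h ≠ 1) :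
    ∃ (e₁ e₂ : U) (c₁ c₂ : F), e₁ ≠ 0 ∧ e₂ ≠ 0 ∧ τ h e₁ = c₁ • e₁ ∧ τ h e₂ = c₂ • e₂ ∧ c₁ ≠ c₂ ∧
      ∀ u : U, ∃ a b : F, u = a • e₁ + b • e₂ := by
  haveI : FiniteDimensional F U := FiniteDimensional.of_finrank_pos (by omega)
  haveI : Nontrivial U := Module.nontrivial_of_finrank_pos (R := F) (by omega)
  apply two_eigen hU (τ h) (Nat.card H) (tau_pow_card τ h) hτ.natCast_card_ne_zero
  rintro ⟨c, hc⟩
  exact hh (piT_eq_one_of_scalar τ hc)

theorem scalar_of_piT_eq_one (hτ : Fpf τ) (hU : finrank F U = 2) {h : H} (hh : piT τ h = 1) :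
    ∃ c : F, ∀ u, τ h u = c • u := by
  haveI : FiniteDimensional F U := FiniteDimensional.of_finrank_pos (by omega)
  haveI : Nontrivial U := Module.nontrivial_of_finrank_pos (R := F) (by omega)
  by_contra hns
  obtain ⟨e₁, e₂, c₁, c₂, h1, h2, h3, h4, h5, h6⟩ := two_eigen hU (τ h) (Nat.card H)
    (tau_pow_card τ h) hτ.natCast_card_ne_zero hns
  -- the sum of the eigenvectors is moved
  have h7 : e₁ + e₂ ≠ 0 := by
    intro h0
    have h8 : e₂ = -e₁ := (eq_neg_of_add_eq_zero_right h0)
    rw [h8, map_neg, h3] at h4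
    have h9 : (c₁ - c₂) • e₁ = 0 := by
      rw [sub_smul, sub_eq_zero]
      have h10 : c₂ • -e₁ = -(c₂ • e₁) := smul_neg _ _
      rw [h10] at h4
      exact neg_injective h4
    exact (smul_ne_zero (sub_ne_zero.mpr h5) h1) h9
  have h8 : h • plMk τ (e₁ + e₂) h7 = plMk τ (e₁ + e₂) h7 := by
    have : piT τ h • plMk τ (e₁ + e₂) h7 = plMk τ (e₁ + e₂) h7 := by rw [hh, one_smul]
    exact this
  obtain ⟨c, hc⟩ := (smul_plMk_eq_iff τ h _ h7).mp h8
  rw [map_add, h3, h4, smul_add] at hc
  have h9 : (c₁ - c) • e₁ + (c₂ - c) • e₂ = 0 := by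
    rw [sub_smul, sub_smul]
    have : c₁ • e₁ - c • e₁ + (c₂ • e₂ - c • e₂) = (c₁ • e₁ + c₂ • e₂) - (c • e₁ + c • e₂) := by abel
    rw [this, hc, sub_self]
  -- independence of the eigenvectors
  have hind : ∀ a b : F, a • e₁ + b • e₂ = 0 → a = 0 ∧ b = 0 := by
    intro a b hab
    have h10 : τ h (a • e₁ + b • e₂) = 0 := by rw [hab, map_zero]
    rw [map_add, map_smul, map_smul, h3, h4] at h10
    have h11 : (a * (c₁ - c₂)) • e₁ = 0 := by
      have e1 : (a * (c₁ - c₂)) • e₁ = (a • c₁ • e₁ + b • c₂ • e₂) - c₂ • (a • e₁ + b • e₂) := by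
        simp only [smul_add, smul_smul, mul_sub, sub_smul, mul_comm]
        abel
      rw [e1, h10, hab, smul_zero, sub_self]
    have h12 : a = 0 := by
      rcases smul_eq_zero.mp h11 with h13 | h13
      · exact (mul_eq_zero.mp h13).resolve_right (sub_ne_zero.mpr h5)
      · exact absurd h13 h1
    subst h12
    rw [zero_smul, zero_add] at hab
    exact ⟨rfl, (smul_eq_zero.mp hab).resolve_right h2⟩
  obtain ⟨h10, h11⟩ := hind _ _ h9
  exact h5 ((sub_eq_zero.mp h10).trans (sub_eq_zero.mp h11).symm)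

theorem central_of_scalar (hτ : Fpf τ) (hU : finrank F U = 2) {h : H} {c : F}
    (hc : ∀ u, τ h u = c • u) (g : H) : h * g = g * h := by
  haveI : Nontrivial U := Module.nontrivial_of_finrank_pos (R := F) (by omega)
  apply hτ.injective
  ext u
  rw [mul_apply', mul_apply', hc, hc, map_smul]

theorem comm_of_fix (hτ : Fpf τ) {a b : H} {v : U} (hv : v ≠ 0) {c d : F}
    (ha : τ a v = c • v) (hb : τ b v = d • v) : a * b = b * a := by
  have h1 : τ (b⁻¹ * a⁻¹ * b * a) v = v := by
    have hainv : τ a⁻¹ v = c⁻¹ • v := by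
      have h2 := inv_apply_apply τ a v
      rw [ha, map_smul] at h2
      have hc : c ≠ 0 := by
        rintro rfl
        rw [zero_smul] at ha
        exact tau_ne τ a hv ha
      rw [eq_inv_smul_iff₀ hc]
      exact h2
    have hbinv : τ b⁻¹ v = d⁻¹ • v := by
      have h2 := inv_apply_apply τ b v
      rw [hb, map_smul] at h2
      have hd : d ≠ 0 := by
        rintro rfl
        rw [zero_smul] at hb
        exact tau_ne τ b hv hb
      rw [eq_inv_smul_iff₀ hd]
      exact h2
    simp only [mul_apply', ha, hb, map_smul, hainv, hbinv, smul_smul]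
    have hc : c ≠ 0 := by
      rintro rfl
      rw [zero_smul] at ha
      exact tau_ne τ a hv ha
    have hd : d ≠ 0 := by
      rintro rfl
      rw [zero_smul] at hb
      exact tau_ne τ b hv hb
    have : c * (d * (c⁻¹ * d⁻¹)) = 1 := by field_simp
    rw [this, one_smul]
  have h2 := hτ.eq_one hv h1
  have h3 : b⁻¹ * a⁻¹ * b = a⁻¹ := by
    rw [mul_eq_one_iff_eq_inv] at h2
    exact h2
  have h4 : a⁻¹ * b = b * a⁻¹ := by
    calc a⁻¹ * b = b * (b⁻¹ * a⁻¹ * b) := by group
      _ = b * a⁻¹ := by rw [h3]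
  have h5 : b * a = a * b := by
    calc b * a = a * (a⁻¹ * b) * a := by group
      _ = a * (b * a⁻¹) * a := by rw [h4]
      _ = a * b := by group
  exact h5.symm

/-- Every non-identity projectivity has exactly two fixed points. -/
theorem fixed_count (hτ : Fpf τ) (hU : finrank F U = 2) (γ : GamT τ) (hγ : γ ≠ 1) :
    (fixedBy (PL τ) γ).ncard = 2 := by
  obtain ⟨h, rfl⟩ := piT_surj τ γ
  obtain ⟨e₁, e₂, c₁, c₂, h1, h2, h3, h4, h5, h6⟩ := exists_eig hτ hU hγ
  have hne : plMk τ e₁ h1 ≠ plMk τ e₂ h2 := by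
    intro he
    obtain ⟨c, hc⟩ := (plMk_eq_iff τ h1 h2).mp he
    rw [← hc, map_smul, h4] at h3
    have h7 : (c * c₂) • e₂ = (c₁ * c) • e₂ := by
      rw [← smul_smul, h3, smul_smul]
    have hc0 : c ≠ 0 := by
      rintro rfl
      rw [zero_smul] at hc
      exact h1 hc.symm
    have h8 : (c * c₂ - c₁ * c) • e₂ = 0 := by rw [sub_smul, h7, sub_self]
    have h9 := (smul_eq_zero.mp h8).resolve_right h2
    apply h5
    have h10 : c * (c₂ - c₁) = 0 := by linear_combination h9
    exact (sub_eq_zero.mp ((mul_eq_zero.mp h10).resolve_left hc0)).symm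
  have hset : fixedBy (PL τ) (piT τ h) = {plMk τ e₁ h1, plMk τ e₂ h2} := by
    ext p
    simp only [Set.mem_insert_iff, Set.mem_singleton_iff, mem_fixedBy]
    constructor
    · intro hp
      obtain ⟨v, hv, rfl⟩ := pl_ind τ p
      have hp' : h • plMk τ v hv = plMk τ v hv := hp
      obtain ⟨c, hc⟩ := (smul_plMk_eq_iff τ h v hv).mp hp'
      obtain ⟨a, b, hab⟩ := h6 v
      have hind : ∀ x y : F, x • e₁ + y • e₂ = 0 → x = 0 ∧ y = 0 := by
        intro x y hxy
        have h10 : τ h (x • e₁ + y • e₂) = 0 := by rw [hxy, map_zero]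
        rw [map_add, map_smul, map_smul, h3, h4] at h10
        have h11 : (x * (c₁ - c₂)) • e₁ = 0 := by
          have e1 : (x * (c₁ - c₂)) • e₁ = (x • c₁ • e₁ + y • c₂ • e₂) - c₂ • (x • e₁ + y • e₂) := by
            simp only [smul_add, smul_smul, mul_sub, sub_smul, mul_comm]
            abel
          rw [e1, h10, hxy, smul_zero, sub_self]
        have h12 : x = 0 := by
          rcases smul_eq_zero.mp h11 with h13 | h13
          · exact (mul_eq_zero.mp h13).resolve_right (sub_ne_zero.mpr h5)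
          · exact absurd h13 h1
        subst h12
        rw [zero_smul, zero_add] at hxy
        exact ⟨rfl, (smul_eq_zero.mp hxy).resolve_right h2⟩
      rw [hab, map_add, map_smul, map_smul, h3, h4, smul_add] at hc
      have h12 : (a * (c₁ - c)) • e₁ + (b * (c₂ - c)) • e₂ = 0 := by
        have e1 : (a * (c₁ - c)) • e₁ + (b * (c₂ - c)) • e₂ =
            (a • c₁ • e₁ + b • c₂ • e₂) - (c • a • e₁ + c • b • e₂) := by
          simp only [smul_smul, mul_sub, sub_smul, mul_comm]
          abel
        rw [e1, hc, sub_self]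
      obtain ⟨h13, h14⟩ := hind _ _ h12
      by_cases hb0 : b = 0
      · left
        subst hb0
        rw [zero_smul, add_zero] at hab
        exact (plMk_eq_iff τ hv h1).mpr ⟨a, hab.symm⟩
      · right
        have h15 : c₂ = c := sub_eq_zero.mp ((mul_eq_zero.mp h14).resolve_left hb0)
        have h16 : a = 0 := by
          rcases mul_eq_zero.mp h13 with h17 | h17
          · exact h17
          · exfalso
            exact h5 ((sub_eq_zero.mp h17).trans h15.symm)
        subst h16
        rw [zero_smul, zero_add] at hab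
        exact (plMk_eq_iff τ hv h2).mpr ⟨b, hab.symm⟩
    · rintro (rfl | rfl)
      · exact (smul_plMk_eq_iff τ h e₁ h1).mpr ⟨c₁, h3⟩
      · exact (smul_plMk_eq_iff τ h e₂ h2).mpr ⟨c₂, h4⟩
  rw [hset, Set.ncard_pair hne]

end Main

end Cfsg.Agent.Lib.Zass
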