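import Mathlib
import Cfsg.Agent.Lib.Zass.Two

/-!
# Applications of the count on the projective line
-/

set_option autoImplicit false

namespace Cfsg.Agent.Lib.Zass

open Module MulAction

section Rel

variable {H : Type*} [Group H]

/-- A quaternion pair. -/
structure QP (s t : H) : Prop where
  s4 : s ^ 4 = 1
  s2 : s ^ 2 ≠ 1
  t2 : t ^ 2 = s ^ 2
  ts : t * s * t⁻¹ = s⁻¹

/-- An element cycling a quaternion pair. -/
structure Cyc3 (x s t : H) : Prop where
  x3 : x ^ 3 = 1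
  x1 : x ≠ 1
  xs : x * s * x⁻¹ = t
  xt : x * t * x⁻¹ = s * t ∨ x * t * x⁻¹ = s ^ 3 * t

theorem QP.s_ne_one {s t : H} (h : QP s t) : s ≠ 1 := by
  rintro rfl
  exact h.s2 (one_pow 2)

theorem QP.inv_eq {s t : H} (h : QP s t) : s⁻¹ = s ^ 3 := by
  rw [inv_eq_iff_mul_eq_one, ← h.s4]; group

theorem QP.not_comm {s t : H} (h : QP s t) : t * s ≠ s * t := by
  intro hc
  have h1 : t * s * t⁻¹ = s := by rw [hc]; group
  have h2 := h.ts
  rw [h1] at h2
  apply h.s2
  rw [pow_two]
  nth_rewrite 1 [h2]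
  group

/-- Diagonal conjugation by index-two relations. -/
theorem QP.t_mul_s_mul_t {s t : H} (h : QP s t) : t * s * t = s := by
  have h1 : t * s = s⁻¹ * t := by rw [← h.ts]; group
  rw [h1, mul_assoc, ← pow_two, h.t2]
  group

theorem QP.t_mul_s3_mul_t {s t : H} (h : QP s t) : t * s ^ 3 * t = s ^ 3 := by
  have h1 : t * s ^ 3 = s⁻¹ ^ 3 * t := by
    have h2 : t * s ^ 3 * t⁻¹ = (t * s * t⁻¹) ^ 3 := (conj_pow).symm
    rw [h.ts] at h2
    rw [← h2]; group
  rw [h1, mul_assoc, ← pow_two, h.t2]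
  have h3 := h.s4
  have h4 : s⁻¹ ^ 3 * s ^ 2 = s⁻¹ := by group
  rw [h4, h.inv_eq]

theorem QP.st_ne_t {s t : H} (h : QP s t) : s * t ≠ t := fun he =>
  h.s_ne_one (by simpa using he)

theorem QP.s3_ne_one {s t : H} (h : QP s t) : s ^ 3 ≠ 1 := by
  intro h3
  apply h.s_ne_one
  have : s ^ 4 = s ^ 3 * s := pow_succ s 3
  rw [h.s4, h3, one_mul] at this
  exact this.symm

theorem QP.s3t_ne_t {s t : H} (h : QP s t) : s ^ 3 * t ≠ t := fun he =>
  h.s3_ne_one (by simpa using he)

/-- The product `s t` does not commute with `s`. -/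
theorem QP.st_not_comm {s t : H} (h : QP s t) : s * (s * t) ≠ (s * t) * s := by
  intro hc
  apply h.not_comm
  have h1 : s * t = t * s := by
    have h2 : s⁻¹ * (s * (s * t)) = s⁻¹ * ((s * t) * s) := by rw [hc]
    simpa [mul_assoc] using h2
  exact h1.symm

end Rel

variable {F : Type*} [Field F] {U : Type*} [AddCommGroup U] [Module F U]
variable {H : Type*} [Group H] [Finite H] [IsAlgClosed F] {τ : H →* Module.End F U}

theorem comm_of_stab (hτ : Fpf τ) {p : PL τ} {a b : H} (ha : a • p = p) (hb : b • p = p) :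
    a * b = b * a := by
  obtain ⟨v, hv, rfl⟩ := pl_ind τ p
  obtain ⟨c, hc⟩ := (smul_plMk_eq_iff τ a v hv).mp ha
  obtain ⟨d, hd⟩ := (smul_plMk_eq_iff τ b v hv).mp hb
  exact comm_of_fix hτ hv hc hd

theorem piT_ne_one_of_not_comm (hτ : Fpf τ) (hU : finrank F U = 2) {a b : H} (h : a * b ≠ b * a) :
    piT τ a ≠ 1 := fun h1 => by
  obtain ⟨c, hc⟩ := scalar_of_piT_eq_one hτ hU h1
  exact h (central_of_scalar hτ hU hc b)

theorem piT_eq_one_of_invol (hτ : Fpf τ) (hU : finrank F U = 2) {z : H} (hz : z ^ 2 = 1)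
    (hz1 : z ≠ 1) : piT τ z = 1 := by
  have h1 : ∀ u, τ z u = (-1 : F) • u := by
    intro u
    rw [hτ.invol hz hz1]
    simp
  exact piT_eq_one_of_scalar τ h1

instance finGam (τ : H →* Module.End F U) : Finite (GamT τ) :=
  Finite.of_surjective (piT τ) (fun γ => piT_surj τ γ)

/-- The count of the orders of stabilisers in a group containing a cycled quaternion pair. -/
theorem kh_core (hτ : Fpf τ) (hU : finrank F U = 2) {s t x : H} (hq : QP s t) (hc : Cyc3 x s t) :
    (Nat.card (GamT τ) = 12 ∧ ∀ p : PL τ, Nat.card (stabilizer (GamT τ) p) ≤ 3) ∨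
      (Nat.card (GamT τ) = 24 ∧ ∀ p : PL τ, Nat.card (stabilizer (GamT τ) p) ≤ 4) ∨
      (Nat.card (GamT τ) = 60 ∧ ∀ p : PL τ, Nat.card (stabilizer (GamT τ) p) ≤ 5 ∧
        Nat.card (stabilizer (GamT τ) p) ≠ 4) := by
  have hs1 : piT τ s ≠ 1 := piT_ne_one_of_not_comm hτ hU (a := s) (b := t) (fun h => hq.not_comm h.symm)
  haveI : Nontrivial (GamT τ) := ⟨⟨piT τ s, 1, hs1⟩⟩
  have hmem : ∀ (p : PL τ) (a : H), piT τ a ∈ stabilizer (GamT τ) p → a • p = p := fun p a h => h
  have hx_ne_comm : ∀ b : H, x * b * x⁻¹ ≠ b → x * b ≠ b * x := by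
    intro b hb hc'
    apply hb
    rw [hc']; group
  rcases klein_count (Γ := GamT τ) (X := PL τ) (fixed_count hτ hU) with h | h | h | h | h
  · exfalso
    obtain ⟨p, hp⟩ := h
    have h1 : ∀ a : H, a • p = p := fun a => hmem p a (by rw [hp]; trivial)
    have h2 := comm_of_stab hτ (h1 x) (h1 s)
    apply hx_ne_comm s _ h2
    rw [hc.xs]
    intro he
    rw [he] at hq
    apply hq.s2
    have h3 := hq.ts
    have h4 : s * s * s⁻¹ = s := by group
    rw [h4] at h3
    rw [pow_two]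
    nth_rewrite 1 [h3]
    group
  · exfalso
    obtain ⟨p, hp⟩ := h
    have h1 : ∀ a : H, (piT τ a) ^ 2 ∈ stabilizer (GamT τ) p := fun a =>
      Subgroup.sq_mem_of_index_two hp _
    have hxm : x • p = p := by
      apply hmem
      have h2 : piT τ x = ((piT τ x) ^ 2) ^ 2 := by
        rw [← pow_mul, ← map_pow]
        have : x ^ (2 * 2) = x := by
          have : x ^ 4 = x ^ 3 * x := pow_succ x 3
          rw [hc.x3, one_mul] at this
          exact this
        rw [this]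
      rw [h2]
      exact Subgroup.sq_mem_of_index_two hp _
    have hcomm : ∀ b : H, piT τ b ∈ stabilizer (GamT τ) p → x * b = b * x := fun b hb =>
      comm_of_stab hτ hxm (hmem p b hb)
    have hsn : piT τ s ∉ stabilizer (GamT τ) p := by
      intro hm
      apply hx_ne_comm s _ (hcomm s hm)
      rw [hc.xs]
      intro he
      rw [he] at hq
      apply hq.not_comm
      rfl
    have htn : piT τ t ∉ stabilizer (GamT τ) p := by
      intro hm
      apply hx_ne_comm t _ (hcomm t hm)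
      rcases hc.xt with h | h <;> rw [h]
      · exact hq.st_ne_t
      · exact hq.s3t_ne_t
    have hstm : piT τ (s * t) ∈ stabilizer (GamT τ) p := by
      rw [map_mul, Subgroup.mul_mem_iff_of_index_two hp]
      exact iff_of_false hsn htn
    apply hx_ne_comm (s * t) _ (hcomm _ hstm)
    have h5 : x * (s * t) * x⁻¹ = (x * s * x⁻¹) * (x * t * x⁻¹) := by group
    rw [h5, hc.xs]
    rcases hc.xt with h | h <;> rw [h]
    · have h6 : t * (s * t) = s := by rw [← mul_assoc]; exact hq.t_mul_s_mul_t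
      rw [h6]
      intro he
      have : t = 1 := by simpa using he.symm
      rw [this] at hq
      exact hq.not_comm (by simp)
    · have h6 : t * (s ^ 3 * t) = s ^ 3 := by rw [← mul_assoc]; exact hq.t_mul_s3_mul_t
      rw [h6]
      intro he
      have h7 : s ^ 2 = t := by
        have : s * s ^ 2 = s * t := by rw [← pow_succ']; exact he
        exact mul_left_cancel this
      rw [← h7] at hq
      apply hq.not_comm
      rw [pow_two]; group
  · exact Or.inl h
  · exact Or.inr (Or.inl h)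
  · exact Or.inr (Or.inr h)

theorem card_stab_pos (p : PL τ) : 0 < Nat.card (stabilizer (GamT τ) p) := Nat.card_pos

theorem orderOf_dvd_card_stab {p : PL τ} {γ : GamT τ} (h : γ ∈ stabilizer (GamT τ) p) :
    orderOf γ ∣ Nat.card (stabilizer (GamT τ) p) := by
  have h1 : orderOf (⟨γ, h⟩ : stabilizer (GamT τ) p) = orderOf γ := Subgroup.orderOf_mk γ h
  rw [← h1]
  exact orderOf_dvd_natCard _

/-- An element of odd order commuting with one generator and inverted by the other is trivial. -/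
theorem app1_core (hτ : Fpf τ) (hU : finrank F U = 2) {s t x w : H} (hq : QP s t)
    (hc : Cyc3 x s t) (hws : w * s = s * w) (htw : t * w * t⁻¹ = w⁻¹) (hodd : Odd (orderOf w))
    {v : U} (hv : v ≠ 0) {c d : F} (hsv : τ s v = c • v) (hwv : τ w v = d • v) : w = 1 := by
  by_contra hw1
  have hw_ne : piT τ w ≠ 1 := by
    intro h1
    obtain ⟨e, he⟩ := scalar_of_piT_eq_one hτ hU h1
    have h2 : w⁻¹ = w := by
      rw [← htw, ← central_of_scalar hτ hU he t]
      group
    have h3 : w ^ 2 = 1 := by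
      rw [pow_two]
      nth_rewrite 1 [← h2]
      group
    have h4 : orderOf w ∣ 2 := orderOf_dvd_of_pow_eq_one h3
    have h5 : orderOf w = 1 := by
      rcases (Nat.dvd_prime Nat.prime_two).mp h4 with h6 | h6
      · exact h6
      · rw [h6] at hodd
        exact absurd hodd (by decide)
    exact hw1 (orderOf_eq_one_iff.mp h5)
  have hs1 : piT τ s ≠ 1 := piT_ne_one_of_not_comm hτ hU (a := s) (b := t) (fun h => hq.not_comm h.symm)
  have hs2 : (piT τ s) ^ 2 = 1 := by
    rw [← map_pow]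
    exact piT_eq_one_of_invol hτ hU (by rw [← pow_mul]; exact hq.s4) hq.s2
  have hso : orderOf (piT τ s) = 2 := orderOf_eq_prime hs2 hs1
  let p : PL τ := plMk τ v hv
  have hsm : piT τ s ∈ stabilizer (GamT τ) p := (smul_plMk_eq_iff τ s v hv).mpr ⟨c, hsv⟩
  have hwm : piT τ w ∈ stabilizer (GamT τ) p := (smul_plMk_eq_iff τ w v hv).mpr ⟨d, hwv⟩
  have h1 := orderOf_dvd_card_stab hsm
  have h2 := orderOf_dvd_card_stab hwm
  rw [hso] at h1
  have hwo : Odd (orderOf (piT τ w)) := by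
    have : orderOf (piT τ w) ∣ orderOf w := orderOf_map_dvd _ _
    exact Odd.of_dvd_nat hodd this
  have hwo1 : orderOf (piT τ w) ≠ 1 := fun h => hw_ne (orderOf_eq_one_iff.mp h)
  have hcop : Nat.Coprime 2 (orderOf (piT τ w)) := (Nat.coprime_two_left).mpr hwo
  have h3 : 2 * orderOf (piT τ w) ∣ Nat.card (stabilizer (GamT τ) p) := hcop.mul_dvd_of_dvd_of_dvd h1 h2
  have h4 := Nat.le_of_dvd (card_stab_pos p) h3
  have h5 : 3 ≤ orderOf (piT τ w) := by
    obtain ⟨m, hm⟩ := hwo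
    omega
  have h6 : Nat.card (stabilizer (GamT τ) p) ≤ 5 := by
    rcases kh_core hτ hU hq hc with ⟨-, h⟩ | ⟨-, h⟩ | ⟨-, h⟩
    · have := h p; omega
    · have := h p; omega
    · exact (h p).1
  omega

/-- Order count excluding a pair of overlapping quaternion-cycle configurations. -/
theorem index_ge {Γ : Type*} [Group Γ] [Finite Γ] (y : Γ) {n : ℕ} (c : Fin n → Γ)
    (h : ∀ i j, c i * y * (c i)⁻¹ = c j * y * (c j)⁻¹ → i = j) :
    n ≤ (Subgroup.centralizer ({y} : Set Γ)).index := by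
  have h1 : Function.Injective (fun i : Fin n => (c i : Γ ⧸ Subgroup.centralizer ({y} : Set Γ))) := by
    intro i j hij
    have h2 := QuotientGroup.eq.mp hij
    have h3 : (c i)⁻¹ * c j * y = y * ((c i)⁻¹ * c j) := by
      have := Subgroup.mem_centralizer_iff.mp h2 y (Set.mem_singleton y)
      exact this.symm
    apply h
    have h4 : c j * y = c i * y * ((c i)⁻¹ * c j) := by
      calc c j * y = c i * ((c i)⁻¹ * c j * y) := by group
        _ = _ := by rw [h3]; group
    rw [h4]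
    group
  have h5 := Nat.card_le_card_of_injective _ h1
  simpa [Subgroup.index] using h5

theorem no24 {Γ : Type*} [Group Γ] [Finite Γ] (υ τ' ξ ξ' : Γ) (h4 : υ ^ 4 = 1) (h2 : υ ^ 2 ≠ 1)
    (ht : τ' ^ 2 = 1) (htu : τ' * υ * τ'⁻¹ = υ⁻¹) (h3 : ξ * υ ^ 2 * ξ⁻¹ = τ')
    (h5 : ξ * τ' * ξ⁻¹ = υ ^ 2 * τ') (h6 : ξ' * υ ^ 2 * ξ'⁻¹ = τ' * υ)
    (h7 : ξ' * (τ' * υ) * ξ'⁻¹ = υ ^ 2 * (τ' * υ)) : 40 ≤ Nat.card Γ := by
  have hu1 : υ ≠ 1 := by
    rintro rfl
    exact h2 (one_pow 2)
  have hu3 : υ ^ 3 ≠ 1 := by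
    intro h8
    apply hu1
    have : υ ^ 4 = υ ^ 3 * υ := pow_succ υ 3
    rw [h4, h8, one_mul] at this
    exact this.symm
  have hord : orderOf υ = 4 := by
    have : orderOf υ = 2 ^ (1 + 1) := orderOf_eq_prime_pow (p := 2) (n := 1) (by simpa using h2) (by simpa using h4)
    simpa using this
  have huinj : ∀ i j : Fin 4, υ ^ (i : ℕ) = υ ^ (j : ℕ) → i = j := by
    intro i j hij
    exact Fin.ext (pow_injOn_Iio_orderOf (by rw [hord]; exact i.2) (by rw [hord]; exact j.2) hij)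
  have hnot : ∀ i : ℕ, τ' ≠ υ ^ i := by
    intro i hi
    have h8 : τ' * υ * τ'⁻¹ = υ := by
      rw [hi]
      have : υ ^ i * υ = υ * υ ^ i := (pow_succ υ i).symm.trans (pow_succ' υ i)
      rw [this]; group
    rw [h8] at htu
    apply h2
    rw [pow_two]
    nth_rewrite 1 [htu]
    group
  -- the map giving the normal form
  let nf : Fin 4 × Fin 2 → Γ := fun q => υ ^ (q.1 : ℕ) * τ' ^ (q.2 : ℕ)
  have hnf : Function.Injective nf := by
    rintro ⟨i, a⟩ ⟨j, b⟩ hij
    simp only [nf] at hij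
    have ha : a = b := by
      by_contra hne
      have hab : (a = 0 ∧ b = 1) ∨ (a = 1 ∧ b = 0) := by omega
      rcases hab with ⟨rfl, rfl⟩ | ⟨rfl, rfl⟩
      · simp only [Fin.val_zero, pow_zero, mul_one, Fin.val_one, pow_one] at hij
        apply hnot ((i : ℕ) + (4 - (j : ℕ)))
        have h9 : τ' = (υ ^ (j : ℕ))⁻¹ * υ ^ (i : ℕ) := by rw [hij]; group
        rw [h9]
        have h10 : (υ ^ (j : ℕ))⁻¹ = υ ^ (4 - (j : ℕ)) := by
          rw [inv_eq_iff_mul_eq_one, ← pow_add, Nat.add_sub_cancel' (by omega), h4]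
        rw [h10, ← pow_add, add_comm]
      · simp only [Fin.val_zero, pow_zero, mul_one, Fin.val_one, pow_one] at hij
        apply hnot ((j : ℕ) + (4 - (i : ℕ)))
        have h9 : τ' = (υ ^ (i : ℕ))⁻¹ * υ ^ (j : ℕ) := by rw [← hij]; group
        rw [h9]
        have h10 : (υ ^ (i : ℕ))⁻¹ = υ ^ (4 - (i : ℕ)) := by
          rw [inv_eq_iff_mul_eq_one, ← pow_add, Nat.add_sub_cancel' (by omega), h4]
        rw [h10, ← pow_add, add_comm]
    subst ha
    have h11 := mul_right_cancel hij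
    rw [huinj i j h11]
  -- central elements
  have hcomm : ∀ q : Fin 4 × Fin 2, nf q * υ ^ 2 = υ ^ 2 * nf q := by
    have h8 : τ' * υ ^ 2 = υ ^ 2 * τ' := by
      have h9 : τ' * υ ^ 2 * τ'⁻¹ = (τ' * υ * τ'⁻¹) ^ 2 := (conj_pow).symm
      rw [htu] at h9
      have h10 : υ⁻¹ ^ 2 = υ ^ 2 := by
        rw [inv_pow, inv_eq_iff_mul_eq_one, ← pow_add]
        exact h4
      rw [h10] at h9
      calc τ' * υ ^ 2 = (τ' * υ ^ 2 * τ'⁻¹) * τ' := by group
        _ = _ := by rw [h9]
    rintro ⟨i, a⟩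
    simp only [nf]
    have h12 : τ' ^ (a : ℕ) * υ ^ 2 = υ ^ 2 * τ' ^ (a : ℕ) :=
      ((Commute.pow_left (show Commute τ' (υ ^ 2) from h8) _)).eq
    have h13 : υ ^ (i : ℕ) * υ ^ 2 = υ ^ 2 * υ ^ (i : ℕ) := by
      rw [← pow_add, ← pow_add, add_comm]
    calc υ ^ (i : ℕ) * τ' ^ (a : ℕ) * υ ^ 2 = υ ^ (i : ℕ) * (τ' ^ (a : ℕ) * υ ^ 2) := by group
      _ = (υ ^ (i : ℕ) * υ ^ 2) * τ' ^ (a : ℕ) := by rw [h12]; group
      _ = _ := by rw [h13]; group
  let C := Subgroup.centralizer ({υ ^ 2} : Set Γ)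
  have hC8 : 8 ≤ Nat.card C := by
    let f : Fin 4 × Fin 2 → C := fun q => ⟨nf q, by
      rw [Subgroup.mem_centralizer_iff]
      intro h hh
      rw [Set.mem_singleton_iff] at hh
      subst hh
      exact (hcomm q).symm⟩
    have hf : Function.Injective f := fun a b hab => hnf (congrArg Subtype.val hab)
    have := Nat.card_le_card_of_injective f hf
    simpa using this
  have hidx : 5 ≤ C.index := by
    let c : Fin 5 → Γ := ![1, ξ, ξ * ξ, ξ', ξ' * ξ']
    let n : Fin 5 → Fin 4 × Fin 2 := ![(2, 0), (0, 1), (2, 1), (3, 1), (1, 1)]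
    have hn : Function.Injective n := by decide
    have htu2 : τ' * υ = υ ^ 3 * τ' := by
      have h8 : τ' * υ = υ⁻¹ * τ' := by rw [← htu]; group
      rw [h8]
      congr 1
      rw [inv_eq_iff_mul_eq_one, ← pow_succ']
      exact h4
    have hval : ∀ i, c i * υ ^ 2 * (c i)⁻¹ = nf (n i) := by
      intro i
      fin_cases i
      · simp [c, n, nf]
      · simp [c, n, nf, h3]
      · show ξ * ξ * υ ^ 2 * (ξ * ξ)⁻¹ = υ ^ 2 * τ' ^ 1
        have h8 : ξ * ξ * υ ^ 2 * (ξ * ξ)⁻¹ = ξ * (ξ * υ ^ 2 * ξ⁻¹) * ξ⁻¹ := by group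
        rw [h8, h3, h5, pow_one]
      · show ξ' * υ ^ 2 * ξ'⁻¹ = υ ^ 3 * τ' ^ 1
        rw [h6, htu2, pow_one]
      · show ξ' * ξ' * υ ^ 2 * (ξ' * ξ')⁻¹ = υ ^ 1 * τ' ^ 1
        have h8 : ξ' * ξ' * υ ^ 2 * (ξ' * ξ')⁻¹ = ξ' * (ξ' * υ ^ 2 * ξ'⁻¹) * ξ'⁻¹ := by group
        rw [h8, h6, h7, htu2, pow_one, pow_one, ← mul_assoc, ← pow_add]
        have : υ ^ (2 + 3) = υ := by
          have : υ ^ (2 + 3) = υ ^ 4 * υ := by group
          rw [this, h4, one_mul]
        rw [this]
    apply index_ge (υ ^ 2) c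
    intro i j hij
    rw [hval, hval] at hij
    exact hn (hnf hij)
  have h8 := C.card_mul_index
  have h9 : 8 * 5 ≤ Nat.card C * C.index := Nat.mul_le_mul hC8 hidx
  omega

/-- The combinatorial exclusion on a plane: an element of order eight with an eigenvector cannot
occur when both quaternion subgroups of the generalised quaternion group of order sixteen are
cycled. -/
theorem app2_core (hτ : Fpf τ) (hU : finrank F U = 2) {u t x x' : H} {k : ℕ} (hk : Odd k)
    (hu8 : u ^ 8 = 1) (hu4 : u ^ 4 ≠ 1) (ht2 : t ^ 2 = u ^ 4) (htu : t * u * t⁻¹ = u⁻¹)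
    (hc : Cyc3 x (u ^ 2) t) (hc' : Cyc3 x' (u ^ 2) (t * u ^ k))
    {v : U} (hv : v ≠ 0) {c : F} (huv : τ u v = c • v) : False := by
  have hq : QP (u ^ 2) t := by
    refine ⟨by rw [← pow_mul]; exact hu8, by rw [← pow_mul]; exact hu4, by rw [← pow_mul]; exact ht2, ?_⟩
    have h1 : t * u ^ 2 * t⁻¹ = (t * u * t⁻¹) ^ 2 := (conj_pow).symm
    rw [h1, htu]; group
  have hz : piT τ (u ^ 4) = 1 := piT_eq_one_of_invol hτ hU (by rw [← pow_mul]; exact hu8) hu4
  have hu2 : (piT τ u) ^ 2 ≠ 1 := by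
    rw [← map_pow]
    exact piT_ne_one_of_not_comm hτ hU (a := u ^ 2) (b := t) (fun h => hq.not_comm h.symm)
  have hu4' : (piT τ u) ^ 4 = 1 := by rw [← map_pow, hz]
  have hord : orderOf (piT τ u) = 4 := by
    have : orderOf (piT τ u) = 2 ^ (1 + 1) :=
      orderOf_eq_prime_pow (p := 2) (n := 1) (by simpa using hu2) (by simpa using hu4')
    simpa using this
  let p : PL τ := plMk τ v hv
  have hum : piT τ u ∈ stabilizer (GamT τ) p := (smul_plMk_eq_iff τ u v hv).mpr ⟨c, huv⟩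
  have hdvd : 4 ∣ Nat.card (stabilizer (GamT τ) p) := hord ▸ orderOf_dvd_card_stab hum
  have hpos := card_stab_pos (τ := τ) p
  have hsig : ((piT τ u) ^ 2) ^ 2 = 1 := by rw [← pow_mul]; exact hu4'
  have hk2 : ((piT τ u) ^ k) ^ 2 = (piT τ u) ^ 2 := by
    obtain ⟨m, rfl⟩ := hk
    have : (piT τ u ^ (2 * m + 1)) ^ 2 = ((piT τ u ^ 2) ^ 2) ^ m * piT τ u ^ 2 := by
      rw [← pow_mul, ← pow_mul, ← pow_mul, ← pow_add]
      congr 1
      ring
    rw [this, hsig, one_pow, one_mul]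
  have hs3 : (piT τ u ^ 2) ^ 3 = piT τ u ^ 2 := by
    rw [pow_succ, hsig, one_mul]
  have h40 : 40 ≤ Nat.card (GamT τ) := by
    apply no24 (piT τ u ^ k) (piT τ t) (piT τ x) (piT τ x')
    · rw [← pow_mul, mul_comm, pow_mul, hu4', one_pow]
    · rw [hk2]; exact hu2
    · rw [← map_pow, ht2, hz]
    · rw [← map_pow]
      have h1 : t * u ^ k * t⁻¹ = (u ^ k)⁻¹ := by
        rw [← conj_pow, htu, inv_pow]
      rw [← map_inv, ← map_inv, ← map_mul, ← map_mul, h1]
    · rw [hk2]
      have := congrArg (piT τ) hc.xs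
      simpa only [map_mul, map_inv, map_pow] using this
    · rw [hk2]
      rcases hc.xt with h | h
      · have := congrArg (piT τ) h
        simpa only [map_mul, map_inv, map_pow] using this
      · have := congrArg (piT τ) h
        simp only [map_mul, map_inv, map_pow] at this
        rw [this, ← pow_mul]
        have h9 : (piT τ u) ^ (2 * 3) = (piT τ u) ^ 2 := by
          rw [pow_mul, hs3]
        rw [h9]
    · rw [hk2]
      have := congrArg (piT τ) hc'.xs
      simpa only [map_mul, map_inv, map_pow] using this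
    · rw [hk2]
      rcases hc'.xt with h | h
      · have := congrArg (piT τ) h
        simpa only [map_mul, map_inv, map_pow] using this
      · have := congrArg (piT τ) h
        simp only [map_mul, map_inv, map_pow] at this
        rw [this, ← pow_mul]
        have h9 : (piT τ u) ^ (2 * 3) = (piT τ u) ^ 2 := by
          rw [pow_mul, hs3]
        rw [h9]
  rcases kh_core hτ hU hq hc with ⟨h1, h2⟩ | ⟨h1, h2⟩ | ⟨h1, h2⟩
  · have := h2 p
    have := Nat.le_of_dvd hpos hdvd
    omega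
  · omega
  · obtain ⟨h3, h4⟩ := h2 p
    obtain ⟨m, hm⟩ := hdvd
    have : m = 1 := by omega
    subst this
    omega

end Cfsg.Agent.Lib.Zass
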