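import Mathlib
import Cfsg.Agent.Lib.Zass.App

/-!
# The group-level package extracted from a fixed-point-free representation
-/

set_option autoImplicit false

namespace Cfsg.Agent.Lib.Zass

open Module

/-- What the group-level argument needs from a fixed-point-free representation. -/
structure ZH (G : Type*) [Group G] : Prop where
  ab : ∀ A : Subgroup G, IsMulCommutative A → IsCyclic A
  inv : ∀ a b : G, a ^ 2 = 1 → a ≠ 1 → b ^ 2 = 1 → b ≠ 1 → a = b
  y1 : ∀ {s t x c : G}, QP s t → Cyc3 x s t → c * s = s * c → c * t = t * c → c * x = x * c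
  app1 : ∀ {s t x w : G}, QP s t → Cyc3 x s t → w * s = s * w → t * w * t⁻¹ = w⁻¹ →
    Odd (orderOf w) → w = 1
  app2 : ∀ {u t x x' : G} {k : ℕ}, Odd k → u ^ 8 = 1 → u ^ 4 ≠ 1 → t ^ 2 = u ^ 4 →
    t * u * t⁻¹ = u⁻¹ → Cyc3 x (u ^ 2) t → Cyc3 x' (u ^ 2) (t * u ^ k) → False

variable {G : Type*} [Group G] {F : Type*} [Field F] {V : Type*} [AddCommGroup V] [Module F V]

/-- The subgroup preserving a subspace. -/
def stabSub [Finite G] (ρ : G →* Module.End F V) (U : Submodule F V) : Subgroup G where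
  carrier := {g | ∀ u ∈ U, ρ g u ∈ U}
  one_mem' := fun u hu => by simpa using hu
  mul_mem' := fun {a b} ha hb u hu => by
    rw [mul_apply']
    exact ha _ (hb u hu)
  inv_mem' := fun {g} hg u hu => by
    have hpow : ∀ n : ℕ, ∀ u ∈ U, ρ (g ^ n) u ∈ U := by
      intro n
      induction n with
      | zero => intro u hu; simpa using hu
      | succ n ih =>
        intro u hu
        rw [pow_succ, mul_apply']
        exact ih _ (hg u hu)
    have h1 : g⁻¹ = g ^ (orderOf g - 1) := by
      rw [inv_eq_iff_mul_eq_one, ← pow_succ', Nat.sub_add_cancel (orderOf_pos g), pow_orderOf_eq_one]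
    rw [h1]
    exact hpow _ u hu

theorem mem_stabSub [Finite G] {ρ : G →* Module.End F V} {U : Submodule F V} {g : G} :
    g ∈ stabSub ρ U ↔ ∀ u ∈ U, ρ g u ∈ U := Iff.rfl

/-- The restriction to an invariant subspace. -/
noncomputable def resT [Finite G] (ρ : G →* Module.End F V) (U : Submodule F V) :
    stabSub ρ U →* Module.End F U where
  toFun g := (ρ g).restrict g.2
  map_one' := by
    ext u
    simp
  map_mul' a b := by
    ext u
    show ρ ((a : G) * b) u = ρ a (ρ b u)
    rw [mul_apply']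

theorem resT_apply [Finite G] (ρ : G →* Module.End F V) (U : Submodule F V) (g : stabSub ρ U)
    (u : U) : ((resT ρ U g u : U) : V) = ρ g u := rfl

theorem fpf_resT [Finite G] {ρ : G →* Module.End F V} (h : Fpf ρ) (U : Submodule F V) :
    Fpf (resT ρ U) := by
  intro g hg u hu
  have h1 : ρ g u = u := congrArg Subtype.val hu
  have h2 : (g : G) ≠ 1 := fun h0 => hg (Subtype.ext h0)
  exact Subtype.ext (h _ h2 _ h1)

theorem QP.sub {S : Subgroup G} {s t : G} (h : QP s t) (hs : s ∈ S) (ht : t ∈ S) :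
    QP (⟨s, hs⟩ : S) ⟨t, ht⟩ := by
  refine ⟨Subtype.ext h.s4, fun h0 => h.s2 (congrArg Subtype.val h0), Subtype.ext h.t2,
    Subtype.ext h.ts⟩

theorem Cyc3.sub {S : Subgroup G} {s t x : G} (h : Cyc3 x s t) (hx : x ∈ S) (hs : s ∈ S)
    (ht : t ∈ S) : Cyc3 (⟨x, hx⟩ : S) ⟨s, hs⟩ ⟨t, ht⟩ := by
  refine ⟨Subtype.ext h.x3, fun h0 => h.x1 (congrArg Subtype.val h0), Subtype.ext h.xs, ?_⟩
  rcases h.xt with h1 | h1
  · exact Or.inl (Subtype.ext h1)
  · exact Or.inr (Subtype.ext h1)

section Setup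

variable [Finite G] [IsAlgClosed F] {ρ : G →* Module.End F V}

/-- An element cycling a quaternion pair preserves every subspace preserved by the pair. -/
theorem xform_mem [Nontrivial V] (h : Fpf ρ) {U : Submodule F V} {s t x : G} (hq : QP s t)
    (hc : Cyc3 x s t) (hs : s ∈ stabSub ρ U) (ht : t ∈ stabSub ρ U) : x ∈ stabSub ρ U := by
  obtain ⟨a, b, c, d, hx⟩ := h.xform hq.s4 hq.s2 hq.t2 hq.ts hc.x3 hc.x1 hc.xs hc.xt
  intro u hu
  rw [hx]
  simp only [LinearMap.add_apply, LinearMap.smul_apply, Module.End.one_apply, Module.End.mul_apply]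
  exact U.add_mem (U.add_mem (U.add_mem (U.smul_mem _ hu) (U.smul_mem _ (hs u hu)))
    (U.smul_mem _ (ht u hu))) (U.smul_mem _ (hs _ (ht u hu)))

theorem rho_s_sq [Nontrivial V] (h : Fpf ρ) {s t : G} (hq : QP s t) : ρ (s ^ 2) = -1 :=
  h.invol (by rw [← pow_mul]; exact hq.s4) hq.s2

/-- A second vector independent of an eigenvector of `s`. -/
theorem indep_of_eig (h : Fpf ρ) {s t : G} (hq : QP s t) {v : V} (hv : v ≠ 0) {c : F}
    (hsv : ρ s v = c • v) : ∀ a b : F, a • v + b • ρ t v = 0 → a = 0 ∧ b = 0 := by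
  intro a b hab
  have hb : b = 0 := by
    by_contra hb
    have h1 : ρ t v = (-(a / b)) • v := by
      have h2 : b • ρ t v = -(a • v) := eq_neg_of_add_eq_zero_right hab
      have h3 : ρ t v = b⁻¹ • b • ρ t v := by
        rw [smul_smul, inv_mul_cancel₀ hb, one_smul]
      rw [h3, h2, smul_neg, smul_smul, neg_smul]
      congr 2
      field_simp
    have h2 := comm_of_fix h hv h1 hsv
    exact hq.not_comm h2
  subst hb
  rw [zero_smul, add_zero] at hab
  exact ⟨(smul_eq_zero.mp hab).resolve_right hv, rfl⟩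

/-- Invariance criterion for the span of two vectors. -/
theorem mem_stab_pair {v w : V} {g : G} (h1 : ρ g v ∈ Submodule.span F {v, w})
    (h2 : ρ g w ∈ Submodule.span F {v, w}) : g ∈ stabSub ρ (Submodule.span F {v, w}) := by
  intro u hu
  obtain ⟨a, b, rfl⟩ := Submodule.mem_span_pair.mp hu
  rw [map_add, map_smul, map_smul]
  exact Submodule.add_mem _ (Submodule.smul_mem _ _ h1) (Submodule.smul_mem _ _ h2)

theorem finrank_pair {v w : V} (hi : ∀ a b : F, a • v + b • w = 0 → a = 0 ∧ b = 0) :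
    finrank F (Submodule.span F {v, w}) = 2 := by
  have h1 : LinearIndependent F ![v, w] := LinearIndependent.pair_iff.mpr hi
  have h2 := finrank_span_eq_card h1
  have h3 : Set.range ![v, w] = {v, w} := by
    rw [Matrix.range_cons, Matrix.range_cons, Matrix.range_empty, Set.union_empty,
      Set.singleton_union]
  rw [h3] at h2
  simpa using h2

/-- The element `t` always preserves the plane spanned by `v` and `t v`. -/
theorem t_mem [Nontrivial V] (h : Fpf ρ) {s t : G} (hq : QP s t) (v : V) :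
    t ∈ stabSub ρ (Submodule.span F {v, ρ t v}) := by
  apply mem_stab_pair
  · exact Submodule.subset_span (by simp)
  · have h1 : ρ t (ρ t v) = -v := by
      rw [← mul_apply', ← pow_two, hq.t2, rho_s_sq h hq]
      simp
    rw [h1]
    exact Submodule.neg_mem _ (Submodule.subset_span (by simp))

/-- An eigenvector of an element inverted by `t` gives invariance of the plane. -/
theorem w_mem {t w : G} (htw : t * w * t⁻¹ = w⁻¹) {v : V} {c : F} (hv : v ≠ 0)
    (hwv : ρ w v = c • v) : w ∈ stabSub ρ (Submodule.span F {v, ρ t v}) := by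
  apply mem_stab_pair
  · rw [hwv]
    exact Submodule.smul_mem _ _ (Submodule.subset_span (by simp))
  · have hc : c ≠ 0 := by
      rintro rfl
      rw [zero_smul] at hwv
      exact tau_ne ρ w hv hwv
    have hinv : ρ w⁻¹ v = c⁻¹ • v := by
      have h2 := inv_apply_apply ρ w v
      rw [hwv, map_smul] at h2
      rw [eq_inv_smul_iff₀ hc]
      exact h2
    have h3 : w * t = t * w⁻¹ := by
      have h4 : t⁻¹ * w * t = w⁻¹ := by
        have h5 : t * w⁻¹ * t⁻¹ = w := by
          have : t * w⁻¹ * t⁻¹ = (t * w * t⁻¹)⁻¹ := by group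
          rw [this, htw, inv_inv]
        calc t⁻¹ * w * t = t⁻¹ * (t * w⁻¹ * t⁻¹) * t := by rw [h5]
          _ = w⁻¹ := by group
      calc w * t = t * (t⁻¹ * w * t) := by group
        _ = t * w⁻¹ := by rw [h4]
    rw [← mul_apply', h3, mul_apply', hinv, map_smul]
    exact Submodule.smul_mem _ _ (Submodule.subset_span (by simp))

end Setup

/-- The group-level package. -/
theorem zh_of_fpf [Finite G] [IsAlgClosed F] [FiniteDimensional F V] [Nontrivial V]
    {ρ : G →* Module.End F V} (h : Fpf ρ) : ZH G := by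
  refine ⟨fun A hA => h.isCyclic_of_comm A hA, ?_, ?_, ?_, ?_⟩
  · intro a b ha ha1 hb hb1
    exact h.invol_unique ha ha1 hb hb1
  · intro s t x c hq hc hcs hct
    apply h.injective
    obtain ⟨a, b, e, d, hx⟩ := h.xform hq.s4 hq.s2 hq.t2 hq.ts hc.x3 hc.x1 hc.xs hc.xt
    have h1 : ρ c * ρ s = ρ s * ρ c := by rw [← map_mul, ← map_mul, hcs]
    have h2 : ρ c * ρ t = ρ t * ρ c := by rw [← map_mul, ← map_mul, hct]
    rw [map_mul, map_mul, hx]
    ext u
    simp only [LinearMap.add_apply, LinearMap.smul_apply, Module.End.one_apply,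
      Module.End.mul_apply, map_add, map_smul]
    have h3 : ∀ y, ρ c (ρ s y) = ρ s (ρ c y) := fun y => LinearMap.congr_fun h1 y
    have h4 : ∀ y, ρ c (ρ t y) = ρ t (ρ c y) := fun y => LinearMap.congr_fun h2 y
    rw [h3, h3, h4]
  · intro s t x w hq hc hws htw hodd
    obtain ⟨v, hv, hvT⟩ := exists_common_eigenvector {ρ s, ρ w} (by
      have h1 : ρ s * ρ w = ρ w * ρ s := by rw [← map_mul, ← map_mul, hws]
      rintro a (rfl | rfl) b (rfl | rfl)
      · rfl
      · exact h1
      · exact h1.symm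
      · rfl)
    obtain ⟨c, hsv⟩ := hvT (ρ s) (by simp)
    obtain ⟨d, hwv⟩ := hvT (ρ w) (by simp)
    let U := Submodule.span F {v, ρ t v}
    have hs : s ∈ stabSub ρ U := w_mem hq.ts hv hsv
    have ht : t ∈ stabSub ρ U := t_mem h hq v
    have hw : w ∈ stabSub ρ U := w_mem htw hv hwv
    have hx : x ∈ stabSub ρ U := xform_mem h hq hc hs ht
    have hU : finrank F U = 2 := finrank_pair (indep_of_eig h hq hv hsv)
    have hvU : v ∈ U := Submodule.subset_span (by simp)
    let v' : U := ⟨v, hvU⟩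
    have hv' : v' ≠ 0 := fun h0 => hv (congrArg Subtype.val h0)
    have hord : orderOf (⟨w, hw⟩ : stabSub ρ U) = orderOf w := Subgroup.orderOf_mk w hw
    have := app1_core (fpf_resT h U) hU (hq.sub hs ht) (hc.sub hx hs ht) (w := ⟨w, hw⟩)
      (Subtype.ext hws) (Subtype.ext htw) (by rw [hord]; exact hodd) hv' (c := c) (d := d)
      (Subtype.ext hsv) (Subtype.ext hwv)
    exact congrArg Subtype.val this
  · intro u t x x' k hk hu8 hu4 ht2 htu hc hc'
    haveI : Nontrivial V := inferInstance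
    obtain ⟨c, hcc⟩ := Module.End.exists_eigenvalue (ρ u)
    obtain ⟨v, hv⟩ := hcc.exists_hasEigenvector
    have huv : ρ u v = c • v := hv.apply_eq_smul
    have hv0 : v ≠ 0 := hv.2
    have hq : QP (u ^ 2) t := by
      refine ⟨by rw [← pow_mul]; exact hu8, by rw [← pow_mul]; exact hu4,
        by rw [← pow_mul]; exact ht2, ?_⟩
      have h1 : t * u ^ 2 * t⁻¹ = (t * u * t⁻¹) ^ 2 := (conj_pow).symm
      rw [h1, htu]; group
    let U := Submodule.span F {v, ρ t v}
    have ht : t ∈ stabSub ρ U := t_mem h hq v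
    have hu : u ∈ stabSub ρ U := w_mem htu hv0 huv
    have hs : u ^ 2 ∈ stabSub ρ U := Subgroup.pow_mem _ hu 2
    have hg : t * u ^ k ∈ stabSub ρ U := Subgroup.mul_mem _ ht (Subgroup.pow_mem _ hu k)
    have hq' : QP (u ^ 2) (t * u ^ k) := by
      have hcomm : ∀ n : ℕ, t * u ^ n * t⁻¹ = (u⁻¹) ^ n := fun n => by
        rw [← conj_pow, htu]
      refine ⟨hq.s4, hq.s2, ?_, ?_⟩
      · have e1 : (t * u ^ k) ^ 2 = (t * u ^ k * t⁻¹) * t ^ 2 * u ^ k := by
          rw [pow_two, pow_two]; group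
        rw [e1, hcomm k, ht2, ← pow_mul]
        group
      · have e2 : t * u ^ k * u ^ 2 * (t * u ^ k)⁻¹ = t * u ^ 2 * t⁻¹ := by group
        rw [e2, hcomm 2, inv_pow]
    have hx : x ∈ stabSub ρ U := xform_mem h hq hc hs ht
    have hx' : x' ∈ stabSub ρ U := xform_mem h hq' hc' hs hg
    have hU : finrank F U = 2 := finrank_pair (indep_of_eig h hq hv0 (c := c ^ 2) (by
      rw [pow_two, mul_apply', huv, map_smul, huv, smul_smul, pow_two]))
    have hvU : v ∈ U := Submodule.subset_span (by simp)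
    let v' : U := ⟨v, hvU⟩
    have hv' : v' ≠ 0 := fun h0 => hv0 (congrArg Subtype.val h0)
    exact app2_core (fpf_resT h U) hU (u := ⟨u, hu⟩) (t := ⟨t, ht⟩) (x := ⟨x, hx⟩) (x' := ⟨x', hx'⟩)
      (k := k) hk (Subtype.ext hu8) (fun h0 => hu4 (congrArg Subtype.val h0)) (Subtype.ext ht2)
      (Subtype.ext htu) (hc.sub hx hs ht) (hc'.sub hx' hs hg) hv' (c := c) (Subtype.ext huv)

end Cfsg.Agent.Lib.Zass
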