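import Mathlib
import Cfsg.Agent.Lib.Zass.Iface
import Cfsg.Agent.Lib.Classical.QuatHom

/-!
# Subgroups isomorphic to the quaternion group of order eight
-/

set_option autoImplicit false

namespace Cfsg.Agent.Lib.Zass

open Subgroup

abbrev X8 := QuaternionGroup 2

theorem d0 : ∀ a : X8, a ^ 4 = 1 := by decide +kernel

theorem d1 : ∀ a b : X8, a ^ 2 ≠ 1 → (∀ i : Fin 4, b ≠ a ^ (i : ℕ)) →
    b ^ 2 = a ^ 2 ∧ b * a * b⁻¹ = a⁻¹ ∧
      ∀ q : X8, ∃ (i : Fin 4) (j : Fin 2), q = a ^ (i : ℕ) * b ^ (j : ℕ) := by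
  decide +kernel

theorem d2 : ∀ a : X8, a ^ 2 ≠ 1 → ∃ b : X8, ∀ i : Fin 4, b ≠ a ^ (i : ℕ) := by
  decide +kernel

theorem d3 : ∃ a : X8, a ^ 2 ≠ 1 := by decide +kernel

theorem d4 : ∀ a b : X8, a ^ 2 ≠ 1 → (∀ i : Fin 4, b ≠ a ^ (i : ℕ)) → ∀ c : X8, c ^ 2 ≠ 1 →
    c = a ∨ c = a⁻¹ ∨ c = b ∨ c = b⁻¹ ∨ c = a * b ∨ c = (a * b)⁻¹ := by
  decide +kernel

theorem d5 : ∀ a b c : X8, a ^ 2 ≠ 1 → (∀ i : Fin 4, b ≠ a ^ (i : ℕ)) →
    (∀ i : Fin 4, c ≠ a ^ (i : ℕ)) → (∀ i : Fin 4, c ≠ b ^ (i : ℕ)) → c = a * b ∨ c = a ^ 3 * b := by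
  decide +kernel

theorem d6 : ∀ a : X8, a ^ 2 = 1 → a = 1 ∨ ∀ c : X8, c ^ 2 ≠ 1 → c ^ 2 = a := by
  decide +kernel

theorem d7 : ∀ a c : X8, a * c = c * a → a ^ 2 ≠ 1 → ∃ i : Fin 4, c = a ^ (i : ℕ) := by
  decide +kernel

variable {G : Type*} [Group G]

/-- Elements of the cyclic group generated by an element whose fourth power is trivial. -/
theorem mem_zp4 {a x : G} (ha : a ^ 4 = 1) (hx : x ∈ zpowers a) : ∃ i : Fin 4, x = a ^ (i : ℕ) := by
  obtain ⟨k, rfl⟩ := mem_zpowers_iff.mp hx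
  rw [zpow_eq_zpow_emod' k ha]
  have hcases : k % ((4 : ℕ) : ℤ) = 0 ∨ k % ((4 : ℕ) : ℤ) = 1 ∨ k % ((4 : ℕ) : ℤ) = 2 ∨
      k % ((4 : ℕ) : ℤ) = 3 := by omega
  rcases hcases with h | h | h | h <;> rw [h]
  · exact ⟨0, by simp⟩
  · exact ⟨1, by simp⟩
  · exact ⟨2, by simp [zpow_ofNat]⟩
  · exact ⟨3, by simp [zpow_ofNat]⟩

theorem QP.t_notin {s t : G} (h : QP s t) : t ∉ zpowers s := by
  intro hm
  obtain ⟨k, rfl⟩ := mem_zpowers_iff.mp hm
  apply h.not_comm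
  exact (Commute.zpow_left (Commute.refl s) k).eq

theorem not_mem_zp_iff {s t : G} (hs : s ^ 4 = 1) : t ∉ zpowers s ↔ ∀ i : Fin 4, t ≠ s ^ (i : ℕ) := by
  constructor
  · rintro h i rfl
    exact h (pow_mem (mem_zpowers s) _)
  · intro h hm
    obtain ⟨i, hi⟩ := mem_zp4 hs hm
    exact h i hi

/-- The subgroup is isomorphic to the quaternion group of order eight. -/
def IsQ8 (Q : Subgroup G) : Prop := Nonempty (Q ≃* QuaternionGroup 2)

theorem IsQ8.card {Q : Subgroup G} (h : IsQ8 Q) : Nat.card Q = 8 := by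
  obtain ⟨e⟩ := h
  rw [Nat.card_congr e.toEquiv, Nat.card_eq_fintype_card, QuaternionGroup.card]

theorem IsQ8.finite {Q : Subgroup G} (h : IsQ8 Q) : Finite Q := by
  obtain ⟨e⟩ := h
  exact Finite.of_equiv _ e.symm.toEquiv

theorem IsQ8.isPGroup {Q : Subgroup G} (h : IsQ8 Q) : IsPGroup 2 Q := by
  apply IsPGroup.of_card (n := 3)
  rw [h.card]; norm_num

section Elements

variable {Q : Subgroup G} (h : IsQ8 Q)
include h

theorem IsQ8.pow_four {s : G} (hs : s ∈ Q) : s ^ 4 = 1 := by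
  obtain ⟨e⟩ := h
  have h1 : (⟨s, hs⟩ : Q) ^ 4 = 1 := by
    apply e.injective
    rw [map_pow, map_one, d0]
  exact congrArg Subtype.val h1

theorem IsQ8.exists_not_sq : ∃ s ∈ Q, s ^ 2 ≠ 1 := by
  obtain ⟨e⟩ := h
  obtain ⟨a, ha⟩ := d3
  refine ⟨(e.symm a : Q), (e.symm a).2, fun h0 => ha ?_⟩
  have h1 : (e.symm a) ^ 2 = 1 := Subtype.ext h0
  have h2 := congrArg e h1
  simpa using h2

theorem IsQ8.exists_other {s : G} (hs : s ∈ Q) (hs2 : s ^ 2 ≠ 1) : ∃ t ∈ Q, t ∉ zpowers s := by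
  have hs4 := h.pow_four hs
  obtain ⟨e⟩ := h
  have ha : (e ⟨s, hs⟩) ^ 2 ≠ 1 := by
    rw [← map_pow]
    intro h0
    have h1 := e.injective (h0.trans (map_one e).symm)
    exact hs2 (congrArg Subtype.val h1)
  obtain ⟨b, hb⟩ := d2 _ ha
  refine ⟨(e.symm b : Q), (e.symm b).2, ?_⟩
  rw [not_mem_zp_iff hs4]
  intro i hi
  apply hb i
  have h1 : e.symm b = (⟨s, hs⟩ : Q) ^ (i : ℕ) := Subtype.ext hi
  rw [← map_pow, ← h1, e.apply_symm_apply]

theorem IsQ8.pair {s t : G} (hs : s ∈ Q) (hs2 : s ^ 2 ≠ 1) (ht : t ∈ Q) (htn : t ∉ zpowers s) :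
    QP s t ∧ ∀ q ∈ Q, ∃ (i : Fin 4) (j : Fin 2), q = s ^ (i : ℕ) * t ^ (j : ℕ) := by
  have hs4 := h.pow_four hs
  obtain ⟨e⟩ := h
  have ha : (e ⟨s, hs⟩) ^ 2 ≠ 1 := by
    rw [← map_pow]
    intro h0
    have h1 := e.injective (h0.trans (map_one e).symm)
    exact hs2 (congrArg Subtype.val h1)
  have hb : ∀ i : Fin 4, e ⟨t, ht⟩ ≠ (e ⟨s, hs⟩) ^ (i : ℕ) := by
    intro i hi
    rw [← map_pow] at hi
    have h1 := e.injective hi
    exact (not_mem_zp_iff hs4).mp htn i (congrArg Subtype.val h1)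
  obtain ⟨h1, h2, h3⟩ := d1 _ _ ha hb
  refine ⟨⟨hs4, hs2, ?_, ?_⟩, ?_⟩
  · rw [← map_pow, ← map_pow] at h1
    exact congrArg Subtype.val (e.injective h1)
  · rw [← map_mul, ← map_inv, ← map_mul, ← map_inv] at h2
    exact congrArg Subtype.val (e.injective h2)
  · intro q hq
    obtain ⟨i, j, hij⟩ := h3 (e ⟨q, hq⟩)
    refine ⟨i, j, ?_⟩
    rw [← map_pow, ← map_pow, ← map_mul] at hij
    exact congrArg Subtype.val (e.injective hij)

theorem IsQ8.cases_sq {s t c : G} (hs : s ∈ Q) (hs2 : s ^ 2 ≠ 1) (ht : t ∈ Q) (htn : t ∉ zpowers s)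
    (hc : c ∈ Q) (hc2 : c ^ 2 ≠ 1) :
    c = s ∨ c = s⁻¹ ∨ c = t ∨ c = t⁻¹ ∨ c = s * t ∨ c = (s * t)⁻¹ := by
  have hs4 := h.pow_four hs
  obtain ⟨e⟩ := h
  have hne : ∀ x : Q, (x : G) ^ 2 ≠ 1 → (e x) ^ 2 ≠ 1 := by
    intro x hx
    rw [← map_pow]
    intro h0
    have h1 := e.injective (h0.trans (map_one e).symm)
    exact hx (congrArg Subtype.val h1)
  have hb : ∀ i : Fin 4, e ⟨t, ht⟩ ≠ (e ⟨s, hs⟩) ^ (i : ℕ) := by
    intro i hi
    rw [← map_pow] at hi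
    have h1 := e.injective hi
    exact (not_mem_zp_iff hs4).mp htn i (congrArg Subtype.val h1)
  have hinj : ∀ x y : Q, e x = e y → (x : G) = y := fun x y hxy => congrArg Subtype.val (e.injective hxy)
  rcases d4 _ _ (hne ⟨s, hs⟩ hs2) hb (e ⟨c, hc⟩) (hne ⟨c, hc⟩ hc2) with h1 | h1 | h1 | h1 | h1 | h1
  · exact Or.inl (hinj ⟨c, hc⟩ ⟨s, hs⟩ h1)
  · rw [← map_inv] at h1
    exact Or.inr (Or.inl (hinj ⟨c, hc⟩ _ h1))
  · exact Or.inr (Or.inr (Or.inl (hinj ⟨c, hc⟩ ⟨t, ht⟩ h1)))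
  · rw [← map_inv] at h1
    exact Or.inr (Or.inr (Or.inr (Or.inl (hinj ⟨c, hc⟩ _ h1))))
  · rw [← map_mul] at h1
    exact Or.inr (Or.inr (Or.inr (Or.inr (Or.inl (hinj ⟨c, hc⟩ _ h1)))))
  · rw [← map_mul, ← map_inv] at h1
    exact Or.inr (Or.inr (Or.inr (Or.inr (Or.inr (hinj ⟨c, hc⟩ _ h1)))))

theorem IsQ8.third {s t c : G} (hs : s ∈ Q) (hs2 : s ^ 2 ≠ 1) (ht : t ∈ Q) (htn : t ∉ zpowers s)
    (hc : c ∈ Q) (hcs : c ∉ zpowers s) (hct : c ∉ zpowers t) : c = s * t ∨ c = s ^ 3 * t := by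
  have hs4 := h.pow_four hs
  have ht4 := h.pow_four ht
  obtain ⟨e⟩ := h
  have hne : ∀ x : Q, (x : G) ^ 2 ≠ 1 → (e x) ^ 2 ≠ 1 := by
    intro x hx
    rw [← map_pow]
    intro h0
    have h1 := e.injective (h0.trans (map_one e).symm)
    exact hx (congrArg Subtype.val h1)
  have hb : ∀ {x y : G} (hx : x ∈ Q) (hy : y ∈ Q), x ^ 4 = 1 → y ∉ zpowers x →
      ∀ i : Fin 4, e ⟨y, hy⟩ ≠ (e ⟨x, hx⟩) ^ (i : ℕ) := by
    intro x y hx hy hx4 hyn i hi
    rw [← map_pow] at hi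
    have h1 := e.injective hi
    exact (not_mem_zp_iff hx4).mp hyn i (congrArg Subtype.val h1)
  have hinj : ∀ x y : Q, e x = e y → (x : G) = y := fun x y hxy => congrArg Subtype.val (e.injective hxy)
  rcases d5 _ _ _ (hne ⟨s, hs⟩ hs2) (hb hs ht hs4 htn) (hb hs hc hs4 hcs) (hb ht hc ht4 hct) with h1 | h1
  · rw [← map_mul] at h1
    exact Or.inl (hinj ⟨c, hc⟩ _ h1)
  · rw [← map_pow, ← map_mul] at h1
    exact Or.inr (hinj ⟨c, hc⟩ _ h1)

theorem IsQ8.central_sq {a c : G} (ha : a ∈ Q) (ha2 : a ^ 2 = 1) (hc : c ∈ Q) (hc2 : c ^ 2 ≠ 1) :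
    a = 1 ∨ c ^ 2 = a := by
  obtain ⟨e⟩ := h
  have hne : ∀ x : Q, (x : G) ^ 2 ≠ 1 → (e x) ^ 2 ≠ 1 := by
    intro x hx
    rw [← map_pow]
    intro h0
    have h1 := e.injective (h0.trans (map_one e).symm)
    exact hx (congrArg Subtype.val h1)
  have hinj : ∀ x y : Q, e x = e y → (x : G) = y := fun x y hxy => congrArg Subtype.val (e.injective hxy)
  have h1 : (e ⟨a, ha⟩) ^ 2 = 1 := by
    rw [← map_pow]
    have : (⟨a, ha⟩ : Q) ^ 2 = 1 := Subtype.ext ha2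
    rw [this, map_one]
  rcases d6 _ h1 with h2 | h2
  · left
    exact hinj ⟨a, ha⟩ 1 (h2.trans (map_one e).symm)
  · right
    have h3 := h2 (e ⟨c, hc⟩) (hne ⟨c, hc⟩ hc2)
    rw [← map_pow] at h3
    exact hinj _ _ h3

theorem IsQ8.comm_zpowers {a c : G} (ha : a ∈ Q) (hc : c ∈ Q) (hac : a * c = c * a)
    (ha2 : a ^ 2 ≠ 1) : c ∈ zpowers a := by
  obtain ⟨e⟩ := h
  have hne : ∀ x : Q, (x : G) ^ 2 ≠ 1 → (e x) ^ 2 ≠ 1 := by
    intro x hx
    rw [← map_pow]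
    intro h0
    have h1 := e.injective (h0.trans (map_one e).symm)
    exact hx (congrArg Subtype.val h1)
  have hinj : ∀ x y : Q, e x = e y → (x : G) = y := fun x y hxy => congrArg Subtype.val (e.injective hxy)
  have h1 : e ⟨a, ha⟩ * e ⟨c, hc⟩ = e ⟨c, hc⟩ * e ⟨a, ha⟩ := by
    rw [← map_mul, ← map_mul]
    congr 1
    exact Subtype.ext hac
  obtain ⟨i, hi⟩ := d7 _ _ h1 (hne ⟨a, ha⟩ ha2)
  rw [← map_pow] at hi
  have h2 : c = a ^ (i : ℕ) := hinj _ _ hi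
  rw [h2]
  exact pow_mem (mem_zpowers a) _

end Elements

/-- A quaternion pair generates a copy of the quaternion group. -/
theorem QP.orderOf_s {s t : G} (hq : QP s t) : orderOf s = 4 := by
  have : orderOf s = 2 ^ (1 + 1) :=
    orderOf_eq_prime_pow (p := 2) (n := 1) (by simpa using hq.s2) (by simpa using hq.s4)
  simpa using this

theorem isQ8_closure {s t : G} (hq : QP s t) : IsQ8 (closure {s, t}) := by
  have ht : s ^ (2 * 2) = 1 := hq.s4
  have hw : t ^ 2 = s ^ 2 := hq.t2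
  have hwt : t * s * t⁻¹ = s⁻¹ := hq.ts
  have hinj := Classical.Quat.quatHom_injective (n := 2) s t ht hw hwt hq.orderOf_s (le_refl 2)
  let f := Classical.Quat.quatHom (n := 2) s t ht hw hwt
  have hr : f.range = closure {s, t} := by
    apply le_antisymm
    · rintro _ ⟨x, rfl⟩
      have hs : s ∈ closure ({s, t} : Set G) := subset_closure (by simp)
      have ht' : t ∈ closure ({s, t} : Set G) := subset_closure (by simp)
      cases x with
      | a i =>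
        show s ^ i.val ∈ _
        exact pow_mem hs _
      | xa i =>
        show t * s ^ i.val ∈ _
        exact mul_mem ht' (pow_mem hs _)
    · rw [closure_le]
      rintro x (rfl | rfl)
      · refine ⟨QuaternionGroup.a 1, ?_⟩
        show x ^ (1 : ZMod (2 * 2)).val = x
        have : (1 : ZMod (2 * 2)).val = 1 := rfl
        rw [this, pow_one]
      · refine ⟨QuaternionGroup.xa 0, ?_⟩
        show x * s ^ (0 : ZMod (2 * 2)).val = x
        have : (0 : ZMod (2 * 2)).val = 0 := rfl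
        rw [this, pow_zero, mul_one]
  have e := MonoidHom.ofInjective hinj
  rw [← hr]
  exact ⟨e.symm⟩

theorem IsQ8.eq_closure [Finite G] {Q : Subgroup G} (h : IsQ8 Q) {s t : G} (hq : QP s t) (hs : s ∈ Q)
    (ht : t ∈ Q) : closure {s, t} = Q := by
  apply eq_of_le_of_card_ge
  · rw [closure_le]
    rintro x (rfl | rfl)
    · exact hs
    · exact ht
  · rw [h.card, (isQ8_closure hq).card]

/-- Membership in the subgroup generated by a quaternion pair. -/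
theorem mem_closure_QP {s t : G} (hq : QP s t) {q : G} :
    q ∈ closure ({s, t} : Set G) ↔ ∃ (i : Fin 4) (j : Fin 2), q = s ^ (i : ℕ) * t ^ (j : ℕ) := by
  constructor
  · intro hm
    have hs : s ∈ closure ({s, t} : Set G) := subset_closure (by simp)
    have ht : t ∈ closure ({s, t} : Set G) := subset_closure (by simp)
    exact ((isQ8_closure hq).pair hs hq.s2 ht hq.t_notin).2 q hm
  · rintro ⟨i, j, rfl⟩
    have hs : s ∈ closure ({s, t} : Set G) := subset_closure (by simp)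
    have ht : t ∈ closure ({s, t} : Set G) := subset_closure (by simp)
    exact mul_mem (pow_mem hs _) (pow_mem ht _)

/-- Conjugate of a subgroup. -/
def cj (g : G) (H : Subgroup G) : Subgroup G := H.map (MulAut.conj g).toMonoidHom

theorem mem_cj {g : G} {H : Subgroup G} {x : G} : x ∈ cj g H ↔ g⁻¹ * x * g ∈ H := by
  constructor
  · rintro ⟨y, hy, rfl⟩
    have : g⁻¹ * (MulAut.conj g).toMonoidHom y * g = y := by
      show g⁻¹ * (g * y * g⁻¹) * g = y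
      group
    rw [this]
    exact hy
  · intro h
    refine ⟨_, h, ?_⟩
    show g * (g⁻¹ * x * g) * g⁻¹ = x
    group

theorem conj_mem_cj {g : G} {H : Subgroup G} {x : G} (hx : x ∈ H) : g * x * g⁻¹ ∈ cj g H := by
  rw [mem_cj]
  have : g⁻¹ * (g * x * g⁻¹) * g = x := by group
  rwa [this]

theorem cj_mul (a b : G) (H : Subgroup G) : cj (a * b) H = cj a (cj b H) := by
  ext x
  simp only [mem_cj]
  have : (a * b)⁻¹ * x * (a * b) = b⁻¹ * (a⁻¹ * x * a) * b := by group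
  rw [this]

theorem cj_one (H : Subgroup G) : cj 1 H = H := by
  ext x
  simp [mem_cj]

theorem cj_zpowers (g a : G) : cj g (zpowers a) = zpowers (g * a * g⁻¹) := by
  have := MonoidHom.map_zpowers (MulAut.conj g).toMonoidHom a
  exact this

theorem cj_eq_of_normalizer {g : G} {H : Subgroup G} (hg : g ∈ normalizer (H : Set G)) : cj g H = H := by
  ext x
  rw [mem_cj]
  have h1 := (mem_normalizer_iff.mp hg (g⁻¹ * x * g))
  have h2 : g * (g⁻¹ * x * g) * g⁻¹ = x := by group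
  rw [h2] at h1
  exact h1

theorem normalizer_of_cj_eq {g : G} {H : Subgroup G} (hg : cj g H = H) : g ∈ normalizer (H : Set G) := by
  rw [mem_normalizer_iff]
  intro x
  constructor
  · intro hx
    rw [← hg]
    exact conj_mem_cj hx
  · intro hx
    rw [← hg, mem_cj] at hx
    have : g⁻¹ * (g * x * g⁻¹) * g = x := by group
    rwa [this] at hx

theorem IsQ8.cj {Q : Subgroup G} (h : IsQ8 Q) (g : G) : IsQ8 (cj g Q) := by
  obtain ⟨e⟩ := h
  exact ⟨(Q.equivMapOfInjective _ (MulAut.conj g).injective).symm.trans e⟩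

theorem card_cj (g : G) (H : Subgroup G) : Nat.card (cj g H) = Nat.card H :=
  Subgroup.card_map_of_injective (MulAut.conj g).injective

end Cfsg.Agent.Lib.Zass
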