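import Mathlib
import Cfsg.Agent.Lib.Zass.Q8

/-!
# The action of the normaliser of a quaternion subgroup on its three cyclic subgroups of order four
-/

set_option autoImplicit false

namespace Cfsg.Agent.Lib.Zass

open Subgroup Equiv

section S3

theorem dec_a : ∀ σ : Perm (Fin 3), (∀ p, σ p ≠ p) ∨ σ * σ = 1 := by decide +kernel

theorem dec_b : ∀ σ τ : Perm (Fin 3), (∀ p, σ p ≠ p) → τ * τ = 1 → τ ≠ 1 →
    ∀ p, (τ * σ * τ⁻¹ * σ⁻¹) p ≠ p := by decide +kernel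

set_option synthInstance.maxSize 1000 in
set_option synthInstance.maxHeartbeats 400000 in
theorem dec_c : ∀ (σ τ : Perm (Fin 3)) (p₀ p₁ : Fin 3), τ * τ = 1 → τ ≠ 1 → τ p₀ = p₀ → σ p₁ = p₀ →
    p₁ ≠ p₀ → (∀ p, σ p ≠ p) ∨ (∀ p, (τ * σ) p ≠ p) := by decide +kernel

theorem dec_d : ∀ σ : Perm (Fin 3), (∀ p, σ p ≠ p) → σ ^ 3 = 1 ∧ ∀ p, (σ * σ) p ≠ p := by decide +kernel

variable {X : Type*} [Finite X] (hX : Nat.card X = 3)
include hX

theorem s3_a (σ : Perm X) : (∀ p, σ p ≠ p) ∨ σ * σ = 1 := by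
  let e : X ≃ Fin 3 := Finite.equivFinOfCardEq hX
  let φ : Perm X ≃* Perm (Fin 3) := e.permCongrHom
  have hfix : ∀ (ρ : Perm X) (p : X), φ ρ (e p) = e p → ρ p = p := by
    intro ρ p h
    have h1 : φ ρ (e p) = e (ρ (e.symm (e p))) := rfl
    rw [h1, e.symm_apply_apply] at h
    exact e.injective h
  rcases dec_a (φ σ) with h | h
  · left
    intro p hp
    apply h (e p)
    have h1 : φ σ (e p) = e (σ (e.symm (e p))) := rfl
    rw [h1, e.symm_apply_apply, hp]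
  · right
    apply φ.injective
    rw [map_mul, h, map_one]

theorem s3_b (σ τ : Perm X) (hσ : ∀ p, σ p ≠ p) (hτ : τ * τ = 1) (hτ1 : τ ≠ 1) (p : X) :
    (τ * σ * τ⁻¹ * σ⁻¹) p ≠ p := by
  let e : X ≃ Fin 3 := Finite.equivFinOfCardEq hX
  let φ : Perm X ≃* Perm (Fin 3) := e.permCongrHom
  have hsymm : ∀ (ρ : Perm X) (q : Fin 3), ρ (e.symm q) = e.symm q → φ ρ q = q := by
    intro ρ q h
    have h1 : φ ρ q = e (ρ (e.symm q)) := rfl
    rw [h1, h, e.apply_symm_apply]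
  have hfix : ∀ (ρ : Perm X) (q : X), ρ q = q → φ ρ (e q) = e q := by
    intro ρ q h
    have h1 : φ ρ (e q) = e (ρ (e.symm (e q))) := rfl
    rw [h1, e.symm_apply_apply, h]
  have h1 := dec_b (φ σ) (φ τ) (fun q hq => by
    apply hσ (e.symm q)
    have h1 : φ σ q = e (σ (e.symm q)) := rfl
    rw [h1] at hq
    apply e.injective
    rw [e.apply_symm_apply]
    exact hq) (by rw [← map_mul, hτ, map_one]) (fun h0 =>
      hτ1 (φ.injective (h0.trans (map_one φ).symm)))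
  intro hp
  apply h1 (e p)
  have h2 := hfix _ p hp
  simpa only [map_mul, map_inv] using h2

theorem s3_c (σ τ : Perm X) (p₀ p₁ : X) (hτ : τ * τ = 1) (hτ1 : τ ≠ 1) (h0 : τ p₀ = p₀)
    (h1 : σ p₁ = p₀) (hne : p₁ ≠ p₀) : (∀ p, σ p ≠ p) ∨ (∀ p, (τ * σ) p ≠ p) := by
  let e : X ≃ Fin 3 := Finite.equivFinOfCardEq hX
  let φ : Perm X ≃* Perm (Fin 3) := e.permCongrHom
  have hfix : ∀ (ρ : Perm X) (q : X), φ ρ (e q) = e (ρ q) := by
    intro ρ q
    have h1 : φ ρ (e q) = e (ρ (e.symm (e q))) := rfl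
    rw [h1, e.symm_apply_apply]
  rcases dec_c (φ σ) (φ τ) (e p₀) (e p₁) (by rw [← map_mul, hτ, map_one]) (fun h0 =>
      hτ1 (φ.injective (h0.trans (map_one φ).symm))) (by rw [hfix, h0]) (by rw [hfix, h1])
      (fun h => hne (e.injective h)) with h | h
  · left
    intro p hp
    apply h (e p)
    rw [hfix, hp]
  · right
    intro p hp
    apply h (e p)
    rw [← map_mul, hfix, hp]

theorem s3_d (σ : Perm X) (hσ : ∀ p, σ p ≠ p) : σ ^ 3 = 1 ∧ ∀ p, (σ * σ) p ≠ p := by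
  let e : X ≃ Fin 3 := Finite.equivFinOfCardEq hX
  let φ : Perm X ≃* Perm (Fin 3) := e.permCongrHom
  have hfix : ∀ (ρ : Perm X) (q : X), φ ρ (e q) = e (ρ q) := by
    intro ρ q
    have h1 : φ ρ (e q) = e (ρ (e.symm (e q))) := rfl
    rw [h1, e.symm_apply_apply]
  have h1 := dec_d (φ σ) (fun q hq => by
    apply hσ (e.symm q)
    have h1 : φ σ q = e (σ (e.symm q)) := rfl
    rw [h1] at hq
    apply e.injective
    rw [e.apply_symm_apply]
    exact hq)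
  constructor
  · apply φ.injective
    rw [map_pow, h1.1, map_one]
  · intro p hp
    apply h1.2 (e p)
    rw [← map_mul, hfix, hp]

end S3

variable {G : Type*} [Group G]

/-- The cyclic subgroups of order four of a subgroup. -/
def Pairs (Q : Subgroup G) : Type _ := {A : Subgroup G // ∃ a ∈ Q, a ^ 2 ≠ 1 ∧ A = zpowers a}

/-- The cyclic subgroup generated by an element of order four. -/
def mkP {Q : Subgroup G} {a : G} (ha : a ∈ Q) (h2 : a ^ 2 ≠ 1) : Pairs Q := ⟨zpowers a, a, ha, h2, rfl⟩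

theorem conj_mem_N {Q : Subgroup G} {e a : G} (he : e ∈ normalizer (Q : Set G)) (ha : a ∈ Q) :
    e * a * e⁻¹ ∈ Q := (mem_normalizer_iff.mp he a).mp ha

theorem conj_sq_ne {e a : G} (h2 : a ^ 2 ≠ 1) : (e * a * e⁻¹) ^ 2 ≠ 1 := by
  rw [conj_pow]
  intro h0
  apply h2
  have : a ^ 2 = e⁻¹ * (e * a ^ 2 * e⁻¹) * e := by group
  rw [this, h0]
  group

noncomputable instance pairsAct (Q : Subgroup G) : MulAction (normalizer (Q : Set G)) (Pairs Q) where
  smul e A := ⟨cj (e : G) A.1, by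
    obtain ⟨a, ha, h2, h⟩ := A.2
    exact ⟨(e : G) * a * (e : G)⁻¹, conj_mem_N e.2 ha, conj_sq_ne h2, by rw [h, cj_zpowers]⟩⟩
  one_smul A := Subtype.ext (cj_one _)
  mul_smul a b A := Subtype.ext (cj_mul _ _ _)

/-- The homomorphism to the permutations of the pairs. -/
noncomputable def pr (Q : Subgroup G) : normalizer (Q : Set G) →* Perm (Pairs Q) :=
  MulAction.toPermHom _ _

theorem pr_apply (Q : Subgroup G) (e : normalizer (Q : Set G)) (p : Pairs Q) : pr Q e p = e • p := rfl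

theorem pr_mkP {Q : Subgroup G} {e : G} (he : e ∈ normalizer (Q : Set G)) {a : G} (ha : a ∈ Q)
    (h2 : a ^ 2 ≠ 1) : pr Q ⟨e, he⟩ (mkP ha h2) = mkP (conj_mem_N he ha) (conj_sq_ne h2) :=
  Subtype.ext (cj_zpowers _ _)

section Main

variable {Q : Subgroup G} (hQ : IsQ8 Q)
include hQ

theorem mkP_eq_iff {a b : G} (ha : a ∈ Q) (ha2 : a ^ 2 ≠ 1) (hb : b ∈ Q) (hb2 : b ^ 2 ≠ 1) :
    mkP ha ha2 = mkP hb hb2 ↔ b ∈ zpowers a := by
  constructor
  · intro h
    have h1 : zpowers a = zpowers b := congrArg Subtype.val h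
    rw [h1]
    exact mem_zpowers b
  · intro h
    apply Subtype.ext
    show zpowers a = zpowers b
    have ha4 := hQ.pow_four ha
    obtain ⟨i, rfl⟩ := mem_zp4 ha4 h
    fin_cases i
    · exact absurd (by simp) hb2
    · simp
    · exfalso
      apply hb2
      show (a ^ 2) ^ 2 = 1
      rw [← pow_mul]
      exact ha4
    · have h3 : a ^ 3 = a⁻¹ := by
        rw [eq_inv_iff_mul_eq_one, ← pow_succ]
        exact ha4
      show zpowers a = zpowers (a ^ 3)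
      rw [h3, zpowers_inv]

theorem st_sq_ne {s t : G} (hq : QP s t) : (s * t) ^ 2 ≠ 1 := by
  have : (s * t) ^ 2 = s * (t * s * t⁻¹) * t ^ 2 := by
    rw [pow_two, pow_two]; group
  rw [this, hq.ts, hq.t2]
  simpa using hq.s2

theorem card_pairs : Nat.card (Pairs Q) = 3 := by
  obtain ⟨s, hs, hs2⟩ := hQ.exists_not_sq
  obtain ⟨t, ht, htn⟩ := hQ.exists_other hs hs2
  have hq := (hQ.pair hs hs2 ht htn).1
  have hst : s * t ∈ Q := mul_mem hs ht
  have hst2 := st_sq_ne hQ hq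
  have ht2 : t ^ 2 ≠ 1 := by rw [hq.t2]; exact hq.s2
  have h12 : mkP hs hs2 ≠ mkP ht ht2 := fun h => htn ((mkP_eq_iff hQ hs hs2 ht ht2).mp h)
  have h13 : mkP hs hs2 ≠ mkP hst hst2 := fun h => by
    have h1 := (mkP_eq_iff hQ hs hs2 hst hst2).mp h
    apply htn
    have h2 : t = s⁻¹ * (s * t) := by group
    rw [h2]
    exact mul_mem (inv_mem (mem_zpowers s)) h1
  have h23 : mkP ht ht2 ≠ mkP hst hst2 := fun h => by
    have h1 := (mkP_eq_iff hQ ht ht2 hst hst2).mp h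
    apply htn
    have h3 : s ∈ zpowers t := by
      have h2 : s = (s * t) * t⁻¹ := by group
      rw [h2]
      exact mul_mem h1 (inv_mem (mem_zpowers t))
    have h4 : s * t = t * s := by
      obtain ⟨k, rfl⟩ := mem_zpowers_iff.mp h3
      exact (Commute.zpow_left (Commute.refl t) k).eq
    exact absurd h4.symm hq.not_comm
  let f : Fin 3 → Pairs Q := ![mkP hs hs2, mkP ht ht2, mkP hst hst2]
  have hf : Function.Bijective f := by
    constructor
    · intro i j hij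
      fin_cases i <;> fin_cases j <;> first
        | rfl
        | exact absurd hij h12
        | exact absurd hij h13
        | exact absurd hij h23
        | exact absurd hij.symm h12
        | exact absurd hij.symm h13
        | exact absurd hij.symm h23
    · rintro ⟨A, a, ha, ha2, rfl⟩
      have hmk : (⟨zpowers a, a, ha, ha2, rfl⟩ : Pairs Q) = mkP ha ha2 := rfl
      rw [hmk]
      have hinv : ∀ {c : G} (hc : c ∈ Q) (hc2 : c ^ 2 ≠ 1) (hci : c⁻¹ ∈ Q) (hci2 : (c⁻¹) ^ 2 ≠ 1),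
          mkP hci hci2 = mkP hc hc2 := by
        intro c hc hc2 hci hci2
        exact Subtype.ext zpowers_inv
      rcases hQ.cases_sq hs hs2 ht htn ha ha2 with h | h | h | h | h | h
      · subst h; exact ⟨0, rfl⟩
      · subst h
        refine ⟨0, ?_⟩
        exact (hinv hs hs2 ha ha2).symm
      · subst h; exact ⟨1, rfl⟩
      · subst h
        refine ⟨1, ?_⟩
        exact (hinv ht ht2 ha ha2).symm
      · subst h; exact ⟨2, rfl⟩
      · subst h
        refine ⟨2, ?_⟩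
        exact (hinv hst hst2 ha ha2).symm
  rw [← Nat.card_congr (Equiv.ofBijective f hf)]
  simp

theorem pairs_finite : Finite (Pairs Q) :=
  Nat.finite_of_card_ne_zero (by rw [card_pairs hQ]; norm_num)

end Main

/-- An element permuting the three cyclic subgroups of order four without fixed subgroups. -/
def Tri (Q : Subgroup G) (y : G) : Prop :=
  y ∈ normalizer (Q : Set G) ∧ ∀ a ∈ Q, a ^ 2 ≠ 1 → y * a * y⁻¹ ∉ zpowers a

section Main2

variable {Q : Subgroup G} (hQ : IsQ8 Q)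
include hQ

theorem tri_iff {y : G} (hy : y ∈ normalizer (Q : Set G)) :
    Tri Q y ↔ ∀ p : Pairs Q, pr Q ⟨y, hy⟩ p ≠ p := by
  constructor
  · rintro ⟨-, h⟩ ⟨A, a, ha, ha2, rfl⟩
    have hmk : (⟨zpowers a, a, ha, ha2, rfl⟩ : Pairs Q) = mkP ha ha2 := rfl
    rw [hmk, pr_mkP hy ha ha2]
    intro he
    exact h a ha ha2 ((mkP_eq_iff hQ ha ha2 (conj_mem_N hy ha) (conj_sq_ne ha2)).mp he.symm)
  · intro h
    refine ⟨hy, fun a ha ha2 hm => h (mkP ha ha2) ?_⟩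
    rw [pr_mkP hy ha ha2]
    exact ((mkP_eq_iff hQ ha ha2 (conj_mem_N hy ha) (conj_sq_ne ha2)).mpr hm).symm

theorem tri_pow {y : G} (hT : Tri Q y) {k : ℕ} (hk : ¬ 3 ∣ k) : Tri Q (y ^ k) := by
  have hy := hT.1
  have hyk : y ^ k ∈ normalizer (Q : Set G) := pow_mem hy k
  rw [tri_iff hQ hyk]
  have h1 := (tri_iff hQ hy).mp hT
  haveI := pairs_finite hQ
  obtain ⟨h3, h2⟩ := s3_d (card_pairs hQ) _ h1
  have h4 : pr Q ⟨y ^ k, hyk⟩ = (pr Q ⟨y, hy⟩) ^ k := by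
    rw [← map_pow]
    rfl
  rw [h4]
  have h5 : (pr Q ⟨y, hy⟩) ^ k = (pr Q ⟨y, hy⟩) ^ (k % 3) := pow_eq_pow_mod k h3
  rw [h5]
  have h6 : k % 3 = 1 ∨ k % 3 = 2 := by omega
  rcases h6 with h6 | h6 <;> rw [h6]
  · simpa using h1
  · simpa [pow_two] using h2

theorem three_dvd {y : G} (hT : Tri Q y) : 3 ∣ orderOf y := by
  by_contra hn
  have h1 := tri_pow hQ hT hn
  rw [pow_orderOf_eq_one] at h1
  obtain ⟨s, hs, hs2⟩ := hQ.exists_not_sq
  apply h1.2 s hs hs2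
  simp [mem_zpowers s]

theorem odd_fix_comm {y a : G} (ha4 : a ^ 4 = 1) (ha2 : a ^ 2 ≠ 1) (hm : y * a * y⁻¹ ∈ zpowers a)
    (hodd : Odd (orderOf y)) : y * a * y⁻¹ = a := by
  obtain ⟨i, hi⟩ := mem_zp4 ha4 hm
  fin_cases i
  · exfalso
    simp only [Fin.zero_eta, Fin.val_zero, pow_zero] at hi
    apply ha2
    have : a = 1 := by
      have h1 : a = y⁻¹ * (y * a * y⁻¹) * y := by group
      rw [h1, hi]; group
    rw [this]; simp
  · simpa using hi
  · exfalso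
    apply ha2
    have h1 : y * a ^ 2 * y⁻¹ = 1 := by
      rw [← conj_pow]
      simp only [Fin.mk_one] at hi
      have h2 : y * a * y⁻¹ = a ^ 2 := hi
      rw [h2, ← pow_mul]
      exact ha4
    have h3 : a ^ 2 = y⁻¹ * (y * a ^ 2 * y⁻¹) * y := by group
    rw [h3, h1]; group
  · exfalso
    have h1 : y * a * y⁻¹ = a⁻¹ := by
      have h2 : y * a * y⁻¹ = a ^ 3 := hi
      rw [h2, eq_inv_iff_mul_eq_one, ← pow_succ]
      exact ha4
    have h2 : ∀ m : ℕ, y ^ (2 * m + 1) * a * (y ^ (2 * m + 1))⁻¹ = a⁻¹ := by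
      intro m
      induction m with
      | zero => simpa using h1
      | succ m ih =>
        have e1 : y ^ (2 * (m + 1) + 1) * a * (y ^ (2 * (m + 1) + 1))⁻¹ =
            y * (y * (y ^ (2 * m + 1) * a * (y ^ (2 * m + 1))⁻¹) * y⁻¹) * y⁻¹ := by
          have : 2 * (m + 1) + 1 = 1 + (1 + (2 * m + 1)) := by ring
          rw [this, pow_add, pow_add, pow_one]
          group
        rw [e1, ih]
        have e2 : y * a⁻¹ * y⁻¹ = (y * a * y⁻¹)⁻¹ := by group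
        rw [e2, h1, inv_inv, h1]
    obtain ⟨m, hm'⟩ := hodd
    have h3 := h2 m
    rw [← hm', pow_orderOf_eq_one] at h3
    apply ha2
    have h4 : a = a⁻¹ := by simpa using h3
    rw [pow_two]
    nth_rewrite 1 [h4]
    group

theorem comm_of_fix_all {y : G} (hy : y ∈ normalizer (Q : Set G)) (hodd : Odd (orderOf y))
    (hfix : pr Q ⟨y, hy⟩ = 1) : y ∈ centralizer (Q : Set G) := by
  obtain ⟨s, hs, hs2⟩ := hQ.exists_not_sq
  obtain ⟨t, ht, htn⟩ := hQ.exists_other hs hs2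
  have hq := (hQ.pair hs hs2 ht htn).1
  have ht2 : t ^ 2 ≠ 1 := by rw [hq.t2]; exact hq.s2
  have hcomm : ∀ {a : G} (ha : a ∈ Q) (ha2 : a ^ 2 ≠ 1), Commute y a := by
    intro a ha ha2
    have h1 : pr Q ⟨y, hy⟩ (mkP ha ha2) = mkP ha ha2 := by rw [hfix]; rfl
    rw [pr_mkP hy ha ha2] at h1
    have h2 := (mkP_eq_iff hQ ha ha2 (conj_mem_N hy ha) (conj_sq_ne ha2)).mp h1.symm
    have h3 := odd_fix_comm hQ (hQ.pow_four ha) ha2 h2 hodd
    show y * a = a * y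
    calc y * a = (y * a * y⁻¹) * y := by group
      _ = a * y := by rw [h3]
  rw [mem_centralizer_iff]
  intro q hq'
  obtain ⟨i, j, rfl⟩ := (hQ.pair hs hs2 ht htn).2 q hq'
  exact ((Commute.pow_right (hcomm hs hs2) _).mul_right (Commute.pow_right (hcomm ht ht2) _)).eq.symm

theorem tri_of_odd {y : G} (hy : y ∈ normalizer (Q : Set G)) (hodd : Odd (orderOf y))
    (hc : y ∉ centralizer (Q : Set G)) : Tri Q y := by
  rw [tri_iff hQ hy]
  haveI := pairs_finite hQ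
  rcases s3_a (card_pairs hQ) (pr Q ⟨y, hy⟩) with h | h
  · exact h
  · exfalso
    apply hc
    apply comm_of_fix_all hQ hy hodd
    have h1 : (pr Q ⟨y, hy⟩) ^ 2 = 1 := by rw [pow_two, h]
    have h2 : (pr Q ⟨y, hy⟩) ^ (orderOf y) = 1 := by
      rw [← map_pow]
      have : (⟨y, hy⟩ : normalizer (Q : Set G)) ^ orderOf y = 1 := by
        apply Subtype.ext
        exact pow_orderOf_eq_one y
      rw [this, map_one]
    obtain ⟨m, hm⟩ := hodd
    rw [hm, pow_succ, pow_mul, h1, one_pow, one_mul] at h2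
    exact h2

theorem tri_cube {y : G} (hT : Tri Q y) (hodd : Odd (orderOf y)) : y ^ 3 ∈ centralizer (Q : Set G) := by
  have hy := hT.1
  have h3 : y ^ 3 ∈ normalizer (Q : Set G) := pow_mem hy 3
  apply comm_of_fix_all hQ h3 (Odd.of_dvd_nat hodd (orderOf_pow_dvd 3))
  have h1 := (tri_iff hQ hy).mp hT
  haveI := pairs_finite hQ
  obtain ⟨h4, -⟩ := s3_d (card_pairs hQ) _ h1
  rw [← h4, ← map_pow]
  rfl

theorem cyc_rel {y s : G} (hT : Tri Q y) (hs : s ∈ Q) (hs2 : s ^ 2 ≠ 1) :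
    QP s (y * s * y⁻¹) ∧ (y * (y * s * y⁻¹) * y⁻¹ = s * (y * s * y⁻¹) ∨
      y * (y * s * y⁻¹) * y⁻¹ = s ^ 3 * (y * s * y⁻¹)) := by
  have hy := hT.1
  have ht := conj_mem_N hy hs
  have ht2 := conj_sq_ne (e := y) hs2
  have hc := conj_mem_N hy ht
  have htn := hT.2 s hs hs2
  refine ⟨(hQ.pair hs hs2 ht htn).1, hQ.third hs hs2 ht htn hc ?_ (hT.2 _ ht ht2)⟩
  intro hm
  have h1 := (tri_iff hQ hy).mp hT
  haveI := pairs_finite hQ
  obtain ⟨-, h2⟩ := s3_d (card_pairs hQ) _ h1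
  apply h2 (mkP hs hs2)
  rw [Perm.mul_apply, pr_mkP hy hs hs2, pr_mkP hy ht ht2]
  exact ((mkP_eq_iff hQ hs hs2 hc (conj_sq_ne ht2)).mpr hm).symm

theorem cyc3_of_tri {y s : G} (hT : Tri Q y) (hy3 : y ^ 3 = 1) (hs : s ∈ Q) (hs2 : s ^ 2 ≠ 1) :
    Cyc3 y s (y * s * y⁻¹) := by
  refine ⟨hy3, ?_, rfl, (cyc_rel hQ hT hs hs2).2⟩
  rintro rfl
  apply hT.2 s hs hs2
  simp [mem_zpowers s]

theorem pr_of_mem {q : G} (hq : q ∈ Q) : pr Q ⟨q, le_normalizer hq⟩ = 1 := by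
  ext1 p
  obtain ⟨A, a, ha, ha2, rfl⟩ := p
  have hmk : (⟨zpowers a, a, ha, ha2, rfl⟩ : Pairs Q) = mkP ha ha2 := rfl
  rw [hmk, pr_mkP (le_normalizer hq) ha ha2]
  show _ = mkP ha ha2
  symm
  rw [mkP_eq_iff hQ ha ha2 (conj_mem_N (le_normalizer hq) ha) (conj_sq_ne ha2)]
  by_cases hm : q ∈ zpowers a
  · obtain ⟨k, rfl⟩ := mem_zpowers_iff.mp hm
    have : a ^ k * a * (a ^ k)⁻¹ = a := by
      rw [(Commute.zpow_left (Commute.refl a) k).eq]
      group
    rw [this]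
    exact mem_zpowers a
  · have h1 := (hQ.pair ha ha2 hq hm).1
    rw [h1.ts]
    exact inv_mem (mem_zpowers a)

/-- The commutator with an element interchanging two of the pairs is again cycling. -/
theorem tri_comm {y u : G} (hT : Tri Q y) (hu : u ∈ normalizer (Q : Set G)) (huu : u * u ∈ Q)
    {a : G} (ha : a ∈ Q) (ha2 : a ^ 2 ≠ 1) (hua : u * a * u⁻¹ ∉ zpowers a) :
    Tri Q (u * y * u⁻¹ * y⁻¹) := by
  have hy := hT.1
  have h0 : u * y * u⁻¹ * y⁻¹ ∈ normalizer (Q : Set G) :=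
    mul_mem (mul_mem (mul_mem hu hy) (inv_mem hu)) (inv_mem hy)
  rw [tri_iff hQ h0]
  intro p
  have h1 := (tri_iff hQ hy).mp hT
  have h2 : pr Q ⟨u, hu⟩ * pr Q ⟨u, hu⟩ = 1 := by
    rw [← map_mul]
    exact pr_of_mem hQ huu
  have h3 : pr Q ⟨u, hu⟩ ≠ 1 := by
    intro h4
    have h5 : pr Q ⟨u, hu⟩ (mkP ha ha2) = mkP ha ha2 := by rw [h4]; rfl
    rw [pr_mkP hu ha ha2] at h5
    exact hua ((mkP_eq_iff hQ ha ha2 (conj_mem_N hu ha) (conj_sq_ne ha2)).mp h5.symm)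
  haveI := pairs_finite hQ
  have h4 := s3_b (card_pairs hQ) _ _ h1 h2 h3 p
  have h5 : pr Q ⟨u * y * u⁻¹ * y⁻¹, h0⟩ = pr Q ⟨u, hu⟩ * pr Q ⟨y, hy⟩ * (pr Q ⟨u, hu⟩)⁻¹ * (pr Q ⟨y, hy⟩)⁻¹ := by
    rw [← map_mul, ← map_inv, ← map_mul, ← map_inv, ← map_mul]
    rfl
  rw [h5]
  exact h4

/-- Moving a pair to a pair fixed by an interchanging element gives a cycling element. -/
theorem tri_move {g u a b : G} (hg : g ∈ normalizer (Q : Set G)) (hu : u ∈ normalizer (Q : Set G))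
    (huu : u * u ∈ Q) (ha : a ∈ Q) (ha2 : a ^ 2 ≠ 1) (hb : b ∈ Q) (hb2 : b ^ 2 ≠ 1)
    (hua : u * a * u⁻¹ ∈ zpowers a) (hub : u * b * u⁻¹ ∉ zpowers b) (hgb : g * b * g⁻¹ ∈ zpowers a)
    (hab : b ∉ zpowers a) : Tri Q g ∨ Tri Q (u * g) := by
  have h2 : pr Q ⟨u, hu⟩ * pr Q ⟨u, hu⟩ = 1 := by
    rw [← map_mul]
    exact pr_of_mem hQ huu
  have h3 : pr Q ⟨u, hu⟩ ≠ 1 := by
    intro h4
    have h5 : pr Q ⟨u, hu⟩ (mkP hb hb2) = mkP hb hb2 := by rw [h4]; rfl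
    rw [pr_mkP hu hb hb2] at h5
    exact hub ((mkP_eq_iff hQ hb hb2 (conj_mem_N hu hb) (conj_sq_ne hb2)).mp h5.symm)
  have h4 : pr Q ⟨u, hu⟩ (mkP ha ha2) = mkP ha ha2 := by
    rw [pr_mkP hu ha ha2]
    exact ((mkP_eq_iff hQ ha ha2 (conj_mem_N hu ha) (conj_sq_ne ha2)).mpr hua).symm
  have h5 : pr Q ⟨g, hg⟩ (mkP hb hb2) = mkP ha ha2 := by
    rw [pr_mkP hg hb hb2]
    exact ((mkP_eq_iff hQ ha ha2 (conj_mem_N hg hb) (conj_sq_ne hb2)).mpr hgb).symm
  have h6 : mkP hb hb2 ≠ mkP ha ha2 := fun h =>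
    hab ((mkP_eq_iff hQ ha ha2 hb hb2).mp h.symm)
  haveI := pairs_finite hQ
  rcases s3_c (card_pairs hQ) _ _ _ _ h2 h3 h4 h5 h6 with h | h
  · exact Or.inl ((tri_iff hQ hg).mpr h)
  · right
    have h0 : u * g ∈ normalizer (Q : Set G) := mul_mem hu hg
    rw [tri_iff hQ h0]
    have h7 : pr Q ⟨u * g, h0⟩ = pr Q ⟨u, hu⟩ * pr Q ⟨g, hg⟩ := by
      rw [← map_mul]
      rfl
    rw [h7]
    exact h

end Main2

theorem Tri.cj {Q : Subgroup G} {y : G} (h : Tri Q y) (g : G) : Tri (cj g Q) (g * y * g⁻¹) := by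
  constructor
  · apply normalizer_of_cj_eq
    rw [← cj_mul, show g * y * g⁻¹ * g = g * y by group, cj_mul, cj_eq_of_normalizer h.1]
  · intro a ha ha2
    rw [mem_cj] at ha
    have hb2 : (g⁻¹ * a * g) ^ 2 ≠ 1 := by
      have := conj_sq_ne (e := g⁻¹) ha2
      simpa using this
    have h1 := h.2 _ ha hb2
    intro hm
    apply h1
    obtain ⟨k, hk⟩ := mem_zpowers_iff.mp hm
    refine mem_zpowers_iff.mpr ⟨k, ?_⟩
    have h2 : (g⁻¹ * a * g) ^ k = g⁻¹ * a ^ k * g := by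
      have := conj_zpow (a := g⁻¹) (b := a) (i := k)
      simpa using this
    rw [h2, hk]
    group

end Cfsg.Agent.Lib.Zass
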