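import Mathlib
import Cfsg.Agent.Lib.Zass.Tri
import Cfsg.Agent.S0016
import Cfsg.Agent.Lib.Hall.FrobSylow
import Cfsg.Agent.Lib.Coprime.Elem
import Cfsg.Agent.Lib.PGroup.Sylow
import Cfsg.Agent.Lib.Transfer.Frobenius
import Cfsg.Agent.Lib.Transfer.QuatSection
import Cfsg.Agent.Lib.CycSylow.Basic

/-!
# General tools for the group-level argument
-/

set_option autoImplicit false

namespace Cfsg.Agent.Lib.Zass

open Subgroup
open scoped commutatorElement

variable {G : Type*} [Group G] [Finite G]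

section Tools

theorem orderOf_conj' (g x : G) : orderOf (g * x * g⁻¹) = orderOf x :=
  MulEquiv.orderOf_eq (MulAut.conj g) x

/-- Conjugacy of `p`-subgroups into a maximal `p`-subgroup, inside a subgroup. -/
theorem sylow_conj_in (H : Subgroup G) (p : ℕ) [Fact p.Prime] {A B : Subgroup G} (hAH : A ≤ H)
    (hBH : B ≤ H) (pA : IsPGroup p A) (pB : IsPGroup p B)
    (hmax : ∀ C : Subgroup G, C ≤ H → IsPGroup p C → A ≤ C → C = A) : ∃ n ∈ H, cj n B ≤ A := by
  have pA' : IsPGroup p (A.subgroupOf H) :=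
    pA.of_equiv (Subgroup.subgroupOfEquivOfLe hAH).symm
  have pB' : IsPGroup p (B.subgroupOf H) :=
    pB.of_equiv (Subgroup.subgroupOfEquivOfLe hBH).symm
  obtain ⟨S₁, hS₁⟩ := pA'.exists_le_sylow
  obtain ⟨S₂, hS₂⟩ := pB'.exists_le_sylow
  have hS₁A : (S₁ : Subgroup H).map H.subtype = A := by
    apply hmax
    · exact map_subtype_le _
    · exact S₁.isPGroup'.map _
    · intro a ha
      exact ⟨⟨a, hAH ha⟩, hS₁ ha, rfl⟩
  obtain ⟨n, hn⟩ := MulAction.exists_smul_eq H S₂ S₁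
  refine ⟨n, n.2, ?_⟩
  intro x hx
  rw [mem_cj] at hx
  have hb : ((n : G)⁻¹ * x * n) ∈ H := hBH hx
  have h1 : (⟨(n : G)⁻¹ * x * n, hb⟩ : H) ∈ (S₂ : Subgroup H) := hS₂ hx
  have h2 : n * ⟨(n : G)⁻¹ * x * n, hb⟩ * n⁻¹ ∈ (S₁ : Subgroup H) := by
    rw [← hn, Sylow.coe_subgroup_smul]
    exact Subgroup.smul_mem_pointwise_smul _ (MulAut.conj n) _ h1
  rw [← hS₁A]
  refine ⟨_, h2, ?_⟩
  show (n : G) * ((n : G)⁻¹ * x * n) * (n : G)⁻¹ = x
  group

/-- A `p`-element normalizing a `p`-subgroup generates with it a `p`-subgroup. -/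
theorem isPGroup_sup_zpowers {p : ℕ} [Fact p.Prime] {Q : Subgroup G} (hQ : IsPGroup p Q) {v : G}
    (hv : v ∈ normalizer (Q : Set G)) (hvp : ∃ k, v ^ (p ^ k) = 1) :
    IsPGroup p (Q ⊔ zpowers v : Subgroup G) := by
  apply hQ.to_sup_of_normal_left'
  · obtain ⟨k, hk⟩ := hvp
    have h1 : orderOf v ∣ p ^ k := orderOf_dvd_of_pow_eq_one hk
    obtain ⟨j, -, hj⟩ := (Nat.dvd_prime_pow (Fact.out)).mp h1
    apply IsPGroup.of_card (n := j)
    rw [Nat.card_zpowers, hj]
  · exact zpowers_le.mpr hv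

/-- Decomposition of an element into a power with order a power of `p`. -/
theorem exists_p_part (g : G) (p : ℕ) (hp : p.Prime) :
    ∃ (a m : ℕ), orderOf g = p ^ a * m ∧ ¬ p ∣ m ∧ 0 < m ∧ (g ^ m) ^ (p ^ a) = 1 ∧
      orderOf (g ^ m) = p ^ a := by
  obtain ⟨a, m, hnd, ham⟩ := Nat.exists_eq_pow_mul_and_not_dvd (orderOf_pos g).ne' p hp.ne_one
  have hm : 0 < m := Nat.pos_of_ne_zero (by rintro rfl; simp at hnd)
  refine ⟨a, m, ham, hnd, hm, ?_, ?_⟩
  · rw [← pow_mul, mul_comm, ← ham, pow_orderOf_eq_one]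
  · rw [orderOf_pow' g hm.ne', ham, Nat.gcd_eq_right (Dvd.intro_left _ rfl)]
    exact Nat.mul_div_cancel _ hm

/-- An element of a group and its `2`-part. -/
theorem exists_two_part (g : G) : ∃ m : ℕ, Odd m ∧ ∃ k, (g ^ m) ^ (2 ^ k) = 1 := by
  obtain ⟨a, m, -, hnd, -, h, -⟩ := exists_p_part g 2 Nat.prime_two
  exact ⟨m, Nat.odd_iff.mpr (by omega), a, h⟩

/-- Inversion passes to odd powers. -/
theorem inv_of_odd_pow {g x : G} (h : g * x * g⁻¹ = x⁻¹) {m : ℕ} (hm : Odd m) :
    g ^ m * x * (g ^ m)⁻¹ = x⁻¹ := by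
  obtain ⟨k, rfl⟩ := hm
  induction k with
  | zero => simpa using h
  | succ k ih =>
    have e1 : g ^ (2 * (k + 1) + 1) * x * (g ^ (2 * (k + 1) + 1))⁻¹ =
        g * (g * (g ^ (2 * k + 1) * x * (g ^ (2 * k + 1))⁻¹) * g⁻¹) * g⁻¹ := by
      have : 2 * (k + 1) + 1 = 1 + (1 + (2 * k + 1)) := by ring
      rw [this, pow_add, pow_add, pow_one]
      group
    rw [e1, ih]
    have e2 : g * x⁻¹ * g⁻¹ = (g * x * g⁻¹)⁻¹ := by group
    rw [e2, h, inv_inv, h]

/-- An element of odd order cannot invert a nontrivial element of odd order. -/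
theorem not_inv_of_odd {g x : G} (h : g * x * g⁻¹ = x⁻¹) (hg : Odd (orderOf g)) (hx : x ^ 2 ≠ 1) :
    False := by
  have h1 := inv_of_odd_pow h hg
  rw [pow_orderOf_eq_one] at h1
  apply hx
  have h2 : x = x⁻¹ := by simpa using h1
  rw [pow_two]
  nth_rewrite 1 [h2]
  group

/-- A perfect group has no nontrivial Sylow subgroup in the centre of its normaliser. -/
theorem perfect_not_le {p : ℕ} [Fact p.Prime] (hperf : _root_.commutator G = ⊤) (P : Sylow p G)
    (hne : (P : Subgroup G) ≠ ⊥) :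
    ¬ normalizer ((P : Subgroup G) : Set G) ≤ centralizer ((P : Subgroup G) : Set G) := by
  intro hP
  haveI : IsMulCommutative (P : Subgroup G) :=
    ⟨⟨fun a b => Subtype.ext (hP (le_normalizer b.2) a a.2)⟩⟩
  have hc := MonoidHom.ker_transferSylow_isComplement' P hP
  have h1 : (MonoidHom.transferSylow P hP).ker = ⊤ := by
    rw [eq_top_iff, ← hperf]
    rw [_root_.commutator_eq_closure, closure_le]
    rintro _ ⟨a, b, rfl⟩
    show MonoidHom.transferSylow P hP ⁅a, b⁆ = 1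
    rw [map_commutatorElement]
    apply commutatorElement_eq_one_iff_mul_comm.mpr
    exact mul_comm' _ _
  rw [h1] at hc
  have h2 := hc.card_mul
  rw [Subgroup.card_top] at h2
  have h3 : Nat.card (P : Subgroup G) = 1 := by
    have h4 : 0 < Nat.card G := Nat.card_pos
    nlinarith
  exact hne (Subgroup.card_eq_one.mp h3)

/-- An element normalizing an abelian Sylow subgroup and fixing all elements of order `p`
centralizes it. -/
theorem centr_of_fix_omega {p : ℕ} [hp : Fact p.Prime] (P : Sylow p G)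
    (hpc : ∀ x ∈ (P : Subgroup G), ∀ y ∈ (P : Subgroup G), x * y = y * x) {g : G}
    (hg : g ∈ normalizer ((P : Subgroup G) : Set G))
    (hfix : ∀ x ∈ (P : Subgroup G), x ^ p = 1 → g * x = x * g) :
    g ∈ centralizer ((P : Subgroup G) : Set G) := by
  have hordpos : orderOf g ≠ 0 := (orderOf_pos g).ne'
  obtain ⟨a, r, hnd, har⟩ := Nat.exists_eq_pow_mul_and_not_dvd hordpos p hp.out.ne_one
  have hr : r.Coprime p := (Nat.Prime.coprime_iff_not_dvd hp.out).2 hnd |>.symm
  have hrpos : 0 < r := Nat.pos_of_ne_zero (by rintro rfl; simp at hnd)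
  have hy : g ^ r ∈ (P : Subgroup G) := by
    apply Invol.mem_sylow_of_normalizes P (Subgroup.pow_mem _ hg r)
    refine ⟨a, ?_⟩
    rw [orderOf_pow' g hrpos.ne', har]
    rw [Nat.gcd_eq_right (Dvd.intro_left _ rfl)]
    exact Nat.mul_div_cancel _ hrpos
  have := Cfsg.Agent.Lib.CycSylow.centralizes_of_fixes_omega P.isPGroup' hpc hg hr hy (fun x hx hx2 => by
    rw [hfix x hx hx2]; group)
  rw [Subgroup.mem_centralizer_iff]
  intro x hx
  have h2 := this x hx
  exact (mul_inv_eq_iff_eq_mul.1 h2).symm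

end Tools

namespace ZH

variable (hZ : ZH G)
include hZ

theorem cyc_or_quat {p : ℕ} [Fact p.Prime] (R : Subgroup G) (hR : IsPGroup p R) :
    IsCyclic R ∨ (p = 2 ∧ ∃ n : ℕ, Nonempty (R ≃* QuaternionGroup (2 ^ n))) := by
  apply Cfsg.Agent.S0016.result p hR
  apply Cfsg.Agent.Lib.Hall.unique_subgroup_of_abelian_cyclic hR
  intro E hE
  let f : R →* G := R.subtype
  have hf : Function.Injective f := R.subtype_injective
  have hE'c : IsMulCommutative (E.map f) := Subgroup.map_isMulCommutative _ _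
  have h1 := hZ.ab (E.map f) hE'c
  exact isCyclic_of_injective (E.equivMapOfInjective f hf).toMonoidHom (E.equivMapOfInjective f hf).injective

theorem odd_cyclic {p : ℕ} [Fact p.Prime] (hp2 : p ≠ 2) (R : Subgroup G) (hR : IsPGroup p R) :
    IsCyclic R := by
  rcases hZ.cyc_or_quat R hR with h | ⟨h, -⟩
  · exact h
  · exact absurd h hp2

theorem comm_mem {u w : G} (huw : u * w = w * u) (hd : orderOf u ∣ orderOf w) : u ∈ zpowers w := by
  let C : Subgroup G := closure {u, w}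
  have hCab : IsMulCommutative C := by
    apply Subgroup.isMulCommutative_closure
    intro x hx y hy
    rcases hx with rfl | rfl <;> rcases hy with rfl | rfl
    · rfl
    · exact huw
    · exact huw.symm
    · rfl
  haveI : IsCyclic C := hZ.ab C hCab
  have hu : u ∈ C := subset_closure (by simp)
  have hw : w ∈ C := subset_closure (by simp)
  have h1 := Cfsg.Agent.Lib.Coprime.mem_zpowers_of_orderOf_dvd (G := C) (x := ⟨u, hu⟩)
    (y := ⟨w, hw⟩) (by simpa [Subgroup.orderOf_mk] using hd)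
  obtain ⟨k, hk⟩ := mem_zpowers_iff.mp h1
  exact mem_zpowers_iff.mpr ⟨k, by simpa using congrArg Subtype.val hk⟩

/-- An involution is central. -/
theorem invol_central {z : G} (hz : z ^ 2 = 1) (hz1 : z ≠ 1) (g : G) : g * z = z * g := by
  have h1 : g * z * g⁻¹ = z := by
    apply hZ.inv
    · rw [conj_pow, hz]; group
    · intro h0
      apply hz1
      have : z = g⁻¹ * (g * z * g⁻¹) * g := by group
      rw [this, h0]; group
    · exact hz
    · exact hz1
  calc g * z = (g * z * g⁻¹) * g := by group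
    _ = z * g := by rw [h1]

/-- Two elements of prime order in a subgroup of prime power order generate the same subgroup. -/
theorem zp_eq {p : ℕ} [hp : Fact p.Prime] (R : Subgroup G) (hR : IsPGroup p R) {a b : G}
    (ha : a ∈ R) (hb : b ∈ R) (hoa : orderOf a = p) (hob : orderOf b = p) :
    zpowers a = zpowers b := by
  have huniq := Cfsg.Agent.Lib.Hall.unique_subgroup_of_abelian_cyclic hR (by
    intro E hE
    let f : R →* G := R.subtype
    have hf : Function.Injective f := R.subtype_injective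
    have hE'c : IsMulCommutative (E.map f) := Subgroup.map_isMulCommutative _ _
    have h1 := hZ.ab (E.map f) hE'c
    exact isCyclic_of_injective (E.equivMapOfInjective f hf).toMonoidHom
      (E.equivMapOfInjective f hf).injective)
  let a' : R := ⟨a, ha⟩
  let b' : R := ⟨b, hb⟩
  have h1 : Nat.card (zpowers a') = p := by
    rw [Nat.card_zpowers, Subgroup.orderOf_mk, hoa]
  have h2 : Nat.card (zpowers b') = p := by
    rw [Nat.card_zpowers, Subgroup.orderOf_mk, hob]
  have h3 := huniq _ _ h1 h2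
  have h4 := congrArg (Subgroup.map R.subtype) h3
  rw [MonoidHom.map_zpowers, MonoidHom.map_zpowers] at h4
  exact h4

/-- Conjugacy of elements of prime order inside a subgroup. -/
theorem conj_prime {p : ℕ} [hp : Fact p.Prime] (M : Subgroup G) {x₀ x₁ : G} (h0 : x₀ ∈ M)
    (h1 : x₁ ∈ M) (ho0 : orderOf x₀ = p) (ho1 : orderOf x₁ = p) : ∃ m ∈ M, m * x₀ * m⁻¹ ∈ zpowers x₁ := by
  let x₀' : M := ⟨x₀, h0⟩
  let x₁' : M := ⟨x₁, h1⟩
  have hp0 : IsPGroup p (zpowers x₀') := by
    apply IsPGroup.of_card (n := 1)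
    rw [Nat.card_zpowers, Subgroup.orderOf_mk, ho0, pow_one]
  have hp1 : IsPGroup p (zpowers x₁') := by
    apply IsPGroup.of_card (n := 1)
    rw [Nat.card_zpowers, Subgroup.orderOf_mk, ho1, pow_one]
  obtain ⟨S₀, hS₀⟩ := hp0.exists_le_sylow
  obtain ⟨S₁, hS₁⟩ := hp1.exists_le_sylow
  obtain ⟨n, hn⟩ := MulAction.exists_smul_eq M S₀ S₁
  refine ⟨n, n.2, ?_⟩
  have hx0 : x₀' ∈ (S₀ : Subgroup M) := hS₀ (mem_zpowers x₀')
  have hx1 : x₁' ∈ (S₁ : Subgroup M) := hS₁ (mem_zpowers x₁')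
  have h2 : n * x₀' * n⁻¹ ∈ (S₁ : Subgroup M) := by
    rw [← hn, Sylow.coe_subgroup_smul]
    exact Subgroup.smul_mem_pointwise_smul _ (MulAut.conj n) _ hx0
  let R : Subgroup G := (S₁ : Subgroup M).map M.subtype
  have hR : IsPGroup p R := S₁.isPGroup'.map _
  have h3 : (n : G) * x₀ * (n : G)⁻¹ ∈ R := ⟨_, h2, rfl⟩
  have h4 : x₁ ∈ R := ⟨_, hx1, rfl⟩
  have h5 : orderOf ((n : G) * x₀ * (n : G)⁻¹) = p := by
    rw [← ho0]
    exact orderOf_conj' _ _
  have h6 := hZ.zp_eq R hR h3 h4 h5 ho1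
  rw [← h6]
  exact mem_zpowers _

end ZH

end Cfsg.Agent.Lib.Zass
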