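import Mathlib
import Cfsg.Agent.Lib.Zass.Base

/-!
# The generalised quaternion group of order sixteen inside a group
-/

set_option autoImplicit false

namespace Cfsg.Agent.Lib.Zass

open Subgroup
open scoped commutatorElement

abbrev X16 := QuaternionGroup 4

theorem d16a : ∀ t : X16, t ^ 4 = 1 →
    (∀ k : Fin 4, t ≠ ((QuaternionGroup.a 1 : X16) ^ 2) ^ (k : ℕ)) →
    t ^ 2 = (QuaternionGroup.a 1 : X16) ^ 4 ∧
      t * (QuaternionGroup.a 1 : X16) * t⁻¹ = (QuaternionGroup.a 1 : X16)⁻¹ := by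
  decide +kernel

theorem d16b : (QuaternionGroup.a 1 : X16) ^ 8 = 1 ∧ (QuaternionGroup.a 1 : X16) ^ 4 ≠ 1 := by
  decide +kernel

variable {G : Type*} [Group G]

/-- The relations of the generalised quaternion group of order sixteen. -/
structure Cfg (u t : G) : Prop where
  u8 : u ^ 8 = 1
  u4 : u ^ 4 ≠ 1
  t2 : t ^ 2 = u ^ 4
  tu : t * u * t⁻¹ = u⁻¹

section CfgLemmas

variable {u t : G} (h : Cfg u t)
include h

theorem Cfg.tk_conj (k : ℕ) : t * u ^ k * t⁻¹ = (u⁻¹) ^ k := by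
  rw [← conj_pow, h.tu]

theorem Cfg.qp : QP (u ^ 2) t := by
  refine ⟨by rw [← pow_mul]; exact h.u8, by rw [← pow_mul]; exact h.u4,
    by rw [← pow_mul]; exact h.t2, ?_⟩
  rw [h.tk_conj 2, inv_pow]

theorem Cfg.tk (k : ℕ) : Cfg u (t * u ^ k) := by
  refine ⟨h.u8, h.u4, ?_, ?_⟩
  · have e1 : (t * u ^ k) ^ 2 = (t * u ^ k * t⁻¹) * t ^ 2 * u ^ k := by
      rw [pow_two, pow_two]; group
    rw [e1, h.tk_conj k, h.t2, inv_pow]
    group
  · have e2 : t * u ^ k * u * (t * u ^ k)⁻¹ = t * u * t⁻¹ := by group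
    rw [e2, h.tu]

theorem Cfg.conj_u : u * t * u⁻¹ = u ^ 2 * t := by
  have h1 : u * t = t * u⁻¹ := by
    have h2 : t * u⁻¹ * t⁻¹ = u := by
      have : t * u⁻¹ * t⁻¹ = (t * u * t⁻¹)⁻¹ := by group
      rw [this, h.tu, inv_inv]
    calc u * t = (t * u⁻¹ * t⁻¹) * t := by rw [h2]
      _ = t * u⁻¹ := by group
  have h3 : t * u⁻¹ * u⁻¹ = u ^ 2 * t := by
    have h4 : t * (u⁻¹ * u⁻¹) * t⁻¹ = u * u := by
      have : t * (u⁻¹ * u⁻¹) * t⁻¹ = (t * u * t⁻¹)⁻¹ * (t * u * t⁻¹)⁻¹ := by group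
      rw [this, h.tu, inv_inv]
    calc t * u⁻¹ * u⁻¹ = (t * (u⁻¹ * u⁻¹) * t⁻¹) * t := by group
      _ = u ^ 2 * t := by rw [h4, pow_two]
  rw [h1, h3]

theorem Cfg.orderOf_u : orderOf u = 8 := by
  have : orderOf u = 2 ^ (2 + 1) :=
    orderOf_eq_prime_pow (p := 2) (n := 2) (by simpa using h.u4) (by simpa using h.u8)
  simpa using this

end CfgLemmas

/-- A subgroup of order eight attached to the relations. -/
def Qq (u t : G) : Subgroup G := closure {u ^ 2, t}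

/-- The subgroup of order sixteen attached to the relations. -/
def R16 (u t : G) : Subgroup G := closure {u, t}

section Struct

variable {u t : G} (h : Cfg u t)
include h

theorem Cfg.isQ8 : IsQ8 (Qq u t) := isQ8_closure h.qp

theorem Cfg.s_mem : u ^ 2 ∈ Qq u t := subset_closure (by simp)

theorem Cfg.t_mem : t ∈ Qq u t := subset_closure (by simp)

theorem Cfg.u_mem_R : u ∈ R16 u t := subset_closure (by simp)

theorem Cfg.t_mem_R : t ∈ R16 u t := subset_closure (by simp)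

theorem Cfg.mem_R16 {q : G} : q ∈ R16 u t ↔ ∃ k : ℕ, q = u ^ k ∨ q = t * u ^ k := by
  constructor
  · intro hq
    have ht : u ^ (2 * 4) = 1 := h.u8
    have hw : t ^ 2 = u ^ 4 := h.t2
    let f := Classical.Quat.quatHom (n := 4) u t ht hw h.tu
    have hle : R16 u t ≤ f.range := by
      rw [R16, closure_le]
      rintro x (rfl | rfl)
      · refine ⟨QuaternionGroup.a 1, ?_⟩
        show x ^ (1 : ZMod (2 * 4)).val = x
        have : (1 : ZMod (2 * 4)).val = 1 := rfl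
        rw [this, pow_one]
      · refine ⟨QuaternionGroup.xa 0, ?_⟩
        show x * u ^ (0 : ZMod (2 * 4)).val = x
        have : (0 : ZMod (2 * 4)).val = 0 := rfl
        rw [this, pow_zero, mul_one]
    obtain ⟨x, rfl⟩ := hle hq
    cases x with
    | a i => exact ⟨i.val, Or.inl rfl⟩
    | xa i => exact ⟨i.val, Or.inr rfl⟩
  · rintro ⟨k, rfl | rfl⟩
    · exact pow_mem h.u_mem_R _
    · exact mul_mem h.t_mem_R (pow_mem h.u_mem_R _)

theorem Cfg.card_R16 : Nat.card (R16 u t) = 16 := by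
  have ht : u ^ (2 * 4) = 1 := h.u8
  have hw : t ^ 2 = u ^ 4 := h.t2
  have hinj := Classical.Quat.quatHom_injective (n := 4) u t ht hw h.tu h.orderOf_u (by norm_num)
  let f := Classical.Quat.quatHom (n := 4) u t ht hw h.tu
  have hr : f.range = R16 u t := by
    apply le_antisymm
    · rintro _ ⟨x, rfl⟩
      cases x with
      | a i =>
        show u ^ i.val ∈ _
        exact pow_mem h.u_mem_R _
      | xa i =>
        show t * u ^ i.val ∈ _
        exact mul_mem h.t_mem_R (pow_mem h.u_mem_R _)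
    · rw [R16, closure_le]
      rintro x (rfl | rfl)
      · refine ⟨QuaternionGroup.a 1, ?_⟩
        show x ^ (1 : ZMod (2 * 4)).val = x
        have : (1 : ZMod (2 * 4)).val = 1 := rfl
        rw [this, pow_one]
      · refine ⟨QuaternionGroup.xa 0, ?_⟩
        show x * u ^ (0 : ZMod (2 * 4)).val = x
        have : (0 : ZMod (2 * 4)).val = 0 := rfl
        rw [this, pow_zero, mul_one]
  have e := MonoidHom.ofInjective hinj
  rw [← hr, ← Nat.card_congr e.toEquiv, Classical.Quat.card_quaternion]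

theorem Cfg.isPGroup_R16 : IsPGroup 2 (R16 u t) := by
  apply IsPGroup.of_card (n := 4)
  rw [h.card_R16]; norm_num

theorem Cfg.finite_R16 : Finite (R16 u t) :=
  Nat.finite_of_card_ne_zero (by rw [h.card_R16]; norm_num)

theorem Cfg.Qq_le : Qq u t ≤ R16 u t := by
  rw [Qq, closure_le]
  rintro x (rfl | rfl)
  · exact pow_mem h.u_mem_R 2
  · exact h.t_mem_R

/-- Elements of the first subgroup of order eight: even powers only. -/
theorem Cfg.mem_Qq {q : G} : q ∈ Qq u t ↔ ∃ k : ℕ, Even k ∧ (q = u ^ k ∨ q = t * u ^ k) := by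
  constructor
  · intro hq
    obtain ⟨i, j, rfl⟩ := (mem_closure_QP h.qp).mp hq
    have hpow : ∀ i : ℕ, (u ^ 2) ^ i = u ^ (2 * i) := fun i => (pow_mul u 2 i).symm
    fin_cases j
    · refine ⟨2 * i, even_two_mul _, Or.inl ?_⟩
      simp [hpow]
    · refine ⟨2 * (4 * 2 - (i : ℕ)), even_two_mul _, Or.inr ?_⟩
      have h1 : u ^ (2 * (i : ℕ)) * t = t * u ^ (2 * (4 * 2 - (i : ℕ))) := by
        have h2 : t * u ^ (2 * (4 * 2 - (i : ℕ))) * t⁻¹ = u ^ (2 * (i : ℕ)) := by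
          rw [h.tk_conj, inv_pow, inv_eq_iff_mul_eq_one, ← pow_add]
          have hi := i.2
          have : 2 * (4 * 2 - (i : ℕ)) + 2 * (i : ℕ) = 8 * 2 := by omega
          rw [this, pow_mul, h.u8, one_pow]
        rw [← h2]; group
      simp only [Fin.mk_one, Fin.val_one, pow_one, hpow]
      exact h1
  · rintro ⟨k, ⟨m, rfl⟩, rfl | rfl⟩
    · rw [← two_mul, pow_mul]
      exact pow_mem h.s_mem _
    · rw [← two_mul, pow_mul]
      exact mul_mem h.t_mem (pow_mem h.s_mem _)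

theorem Cfg.mem_Qq_t {q : G} (hq : q ∈ Qq u t) (hn : q ∉ zpowers (u ^ 2)) :
    ∃ k : ℕ, k < 8 ∧ Even k ∧ q = t * u ^ k := by
  obtain ⟨k, hk, h1 | h1⟩ := h.mem_Qq.mp hq
  · exfalso
    apply hn
    obtain ⟨m, rfl⟩ := hk
    rw [h1, ← two_mul, pow_mul]
    exact pow_mem (mem_zpowers _) _
  · refine ⟨k % 8, Nat.mod_lt _ (by norm_num), ?_, ?_⟩
    · obtain ⟨m, rfl⟩ := hk
      exact Nat.even_iff.mpr (by omega)
    · rw [h1, ← pow_mod_orderOf u k, h.orderOf_u]

theorem Cfg.t_mul_mem {k : ℕ} (hk : Even k) : t * u ^ k ∈ Qq u t :=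
  h.mem_Qq.mpr ⟨k, hk, Or.inr rfl⟩

theorem Cfg.u_pow_mem {k : ℕ} (hk : Even k) : u ^ k ∈ Qq u t :=
  h.mem_Qq.mpr ⟨k, hk, Or.inl rfl⟩

/-- The odd powers of `u` are not in the subgroup: all its elements have fourth power one. -/
theorem Cfg.odd_pow4 {k : ℕ} (hk : Odd k) : (u ^ k) ^ 4 ≠ 1 := by
  intro h0
  rw [← pow_mul] at h0
  have h1 := orderOf_dvd_of_pow_eq_one h0
  rw [h.orderOf_u] at h1
  obtain ⟨m, rfl⟩ := hk
  have h2 : (2 : ℕ) ∣ (2 * m + 1) := by
    have h3 : (8 : ℕ) ∣ (2 * m + 1) * 4 := h1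
    omega
  omega

theorem Cfg.u_odd_not_mem {k : ℕ} (hk : Odd k) : u ^ k ∉ Qq u t := fun hm =>
  h.odd_pow4 hk (h.isQ8.pow_four hm)

/-- The element `t u^k` lies in the subgroup only for even `k`. -/
theorem Cfg.t_odd_not_mem {k : ℕ} (hk : Odd k) : t * u ^ k ∉ Qq u t := by
  intro hm
  have h1 : u ^ k = t⁻¹ * (t * u ^ k) := by group
  apply h.u_odd_not_mem hk
  rw [h1]
  exact mul_mem (inv_mem h.t_mem) hm

theorem Cfg.u_conj_mem {q : G} (hq : q ∈ Qq u t) : u * q * u⁻¹ ∈ Qq u t := by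
  obtain ⟨k, hk, rfl | rfl⟩ := h.mem_Qq.mp hq
  · have h1 : u * u ^ k * u⁻¹ = u ^ k := by
      rw [(pow_succ' u k).symm.trans (pow_succ u k)]
      group
    rw [h1]
    exact h.u_pow_mem hk
  · have h1 : u * (t * u ^ k) * u⁻¹ = u ^ 2 * (t * u ^ k) := by
      have h2 : u ^ k * u⁻¹ = u⁻¹ * u ^ k := by
        rw [← zpow_natCast, ← zpow_neg_one, (Commute.zpow_zpow_self u _ _).eq]
      calc u * (t * u ^ k) * u⁻¹ = u * t * (u ^ k * u⁻¹) := by group
        _ = u * t * u⁻¹ * u ^ k := by rw [h2]; group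
        _ = _ := by rw [h.conj_u]; group
    rw [h1]
    exact mul_mem h.s_mem (h.t_mul_mem hk)

theorem Cfg.u_mem_N [Finite G] : u ∈ normalizer ((Qq u t : Subgroup G) : Set G) := by
  apply normalizer_of_cj_eq
  apply eq_of_le_of_card_ge
  · intro x hx
    obtain ⟨y, hy, rfl⟩ := hx
    exact h.u_conj_mem hy
  · rw [card_cj]

theorem Cfg.R16_le_N [Finite G] : R16 u t ≤ normalizer ((Qq u t : Subgroup G) : Set G) := by
  rw [R16, closure_le]
  rintro x (rfl | rfl)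
  · exact h.u_mem_N
  · exact le_normalizer h.t_mem

/-- All quaternion subgroups of the group of order sixteen. -/
theorem Cfg.q8_in_R16 [Finite G] {D : Subgroup G} (hD : IsQ8 D) (hle : D ≤ R16 u t) :
    D = Qq u t ∨ D = Qq u (t * u) := by
  haveI : Finite (R16 u t) := h.finite_R16
  -- index two in the group of order sixteen
  have hidx : (D.subgroupOf (R16 u t)).index = 2 := by
    have h1 := (D.subgroupOf (R16 u t)).card_mul_index
    rw [h.card_R16, Nat.card_congr (Subgroup.subgroupOfEquivOfLe hle).toEquiv, hD.card] at h1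
    omega
  have hsq : u ^ 2 ∈ D := by
    have h1 := Subgroup.sq_mem_of_index_two hidx (⟨u, h.u_mem_R⟩ : R16 u t)
    exact h1
  obtain ⟨d, hd, hdn⟩ := hD.exists_other hsq h.qp.s2
  obtain ⟨k, hk⟩ := h.mem_R16.mp (hle hd)
  have hmem : ∀ m : ℕ, Even m → u ^ m ∈ D := by
    rintro m ⟨c, rfl⟩
    rw [← two_mul, pow_mul]
    exact pow_mem hsq _
  have hQeq : ∀ {t' : G}, Cfg u t' → t' ∈ D → D = Qq u t' := by
    intro t' ht' hm
    exact (hD.eq_closure ht'.qp hsq hm).symm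
  rcases hk with rfl | rfl
  · exfalso
    rcases Nat.even_or_odd k with hev | hodd
    · apply hdn
      obtain ⟨c, rfl⟩ := hev
      rw [← two_mul, pow_mul]
      exact pow_mem (mem_zpowers _) _
    · exact h.odd_pow4 hodd (hD.pow_four hd)
  · rcases Nat.even_or_odd k with hev | hodd
    · left
      apply hQeq h
      have h1 : t = (t * u ^ k) * (u ^ k)⁻¹ := by group
      rw [h1]
      exact mul_mem hd (inv_mem (hmem k hev))
    · right
      apply hQeq (h.tk 1 |> fun h' => by simpa using h')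
      obtain ⟨c, rfl⟩ := hodd
      have h1 : t * u = (t * u ^ (2 * c + 1)) * (u ^ (2 * c))⁻¹ := by
        rw [pow_succ]
        group
      rw [h1]
      exact mul_mem hd (inv_mem (hmem _ (even_two_mul c)))

end Struct

variable [Finite G]

/-- The square of the generator lies in a non-commutative normal subgroup. -/
theorem u2_mem {Q T : Subgroup G} (hQ : IsQ8 Q) (hQT : Q ≤ T) (hN : T ≤ normalizer (Q : Set G))
    {N : ℕ} [NeZero N] (e : T ≃* QuaternionGroup N) :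
    ((e.symm (QuaternionGroup.a 1) : T) : G) ^ 2 ∈ Q := by
  obtain ⟨s, hs, hs2⟩ := hQ.exists_not_sq
  obtain ⟨t₁, ht₁, ht₁n⟩ := hQ.exists_other hs hs2
  have hq := (hQ.pair hs hs2 ht₁ ht₁n).1
  set u : G := ((e.symm (QuaternionGroup.a 1) : T) : G) with hu
  have huT : u ∈ T := (e.symm (QuaternionGroup.a 1)).2
  have heu : e ⟨u, huT⟩ = QuaternionGroup.a 1 := e.apply_symm_apply _
  have hmul : ∀ (x y : G) (hx : x ∈ T) (hy : y ∈ T),
      e ⟨x * y, mul_mem hx hy⟩ = e ⟨x, hx⟩ * e ⟨y, hy⟩ := by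
    intro x y hx hy
    rw [← map_mul]
    rfl
  have hinvT : ∀ (x : G) (hx : x ∈ T), e ⟨x⁻¹, inv_mem hx⟩ = (e ⟨x, hx⟩)⁻¹ := by
    intro x hx
    rw [← map_inv]
    rfl
  have hex : ∃ (t₀ : G) (ht₀ : t₀ ∈ Q) (i : ZMod (2 * N)),
      e ⟨t₀, hQT ht₀⟩ = QuaternionGroup.xa i := by
    by_contra hno
    push Not at hno
    have hform : ∀ (x : G) (hx : x ∈ Q), ∃ j, e ⟨x, hQT hx⟩ = QuaternionGroup.a j := by
      intro x hx
      cases hy : e ⟨x, hQT hx⟩ with
      | a j => exact ⟨j, rfl⟩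
      | xa i => exact absurd hy (hno x hx i)
    obtain ⟨j1, hj1⟩ := hform s hs
    obtain ⟨j2, hj2⟩ := hform t₁ ht₁
    apply hq.not_comm
    have h1 : e ⟨t₁ * s, mul_mem (hQT ht₁) (hQT hs)⟩ = e ⟨s * t₁, mul_mem (hQT hs) (hQT ht₁)⟩ := by
      rw [hmul _ _ (hQT ht₁) (hQT hs), hmul _ _ (hQT hs) (hQT ht₁), hj1, hj2,
        QuaternionGroup.a_mul_a, QuaternionGroup.a_mul_a, add_comm]
    exact congrArg Subtype.val (e.injective h1)
  obtain ⟨t₀, ht₀, i, hi⟩ := hex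
  have hc : t₀⁻¹ * (u * t₀ * u⁻¹) ∈ Q := mul_mem (inv_mem ht₀) (conj_mem_N (hN huT) ht₀)
  have h2 : (t₀⁻¹ * (u * t₀ * u⁻¹))⁻¹ = u ^ 2 := by
    have h3 : e ⟨(t₀⁻¹ * (u * t₀ * u⁻¹))⁻¹, hQT (inv_mem hc)⟩ = e ⟨u ^ 2, pow_mem huT 2⟩ := by
      have hu2 : (⟨u ^ 2, pow_mem huT 2⟩ : T) = (⟨u, huT⟩ : T) ^ 2 := rfl
      rw [hu2, map_pow, heu, QuaternionGroup.a_one_pow]
      rw [hinvT _ (hQT hc), hmul _ _ (inv_mem (hQT ht₀)) (hN huT |> fun _ =>
        mul_mem (mul_mem huT (hQT ht₀)) (inv_mem huT)), hinvT _ (hQT ht₀),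
        hmul _ _ (mul_mem huT (hQT ht₀)) (inv_mem huT), hmul _ _ huT (hQT ht₀), hinvT _ huT, heu, hi]
      have ha_inv : ∀ i : ZMod (2 * N), (QuaternionGroup.a i : QuaternionGroup N)⁻¹ =
          QuaternionGroup.a (-i) := fun _ => rfl
      have hxa_inv : ∀ i : ZMod (2 * N), (QuaternionGroup.xa i : QuaternionGroup N)⁻¹ =
          QuaternionGroup.xa ((N : ZMod (2 * N)) + i) := fun _ => rfl
      simp only [ha_inv, hxa_inv, QuaternionGroup.a_mul_xa,
        QuaternionGroup.xa_mul_a, QuaternionGroup.xa_mul_xa]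
      congr 1
      push_cast
      ring
    exact congrArg Subtype.val (e.injective h3)
  rw [← h2]
  exact inv_mem hc

/-- The order of a group of quaternion type containing properly a normal quaternion subgroup. -/
theorem quat_exp {Q T : Subgroup G} (hQ : IsQ8 Q) (hQT : Q ≤ T) (hne : Q ≠ T)
    (hN : T ≤ normalizer (Q : Set G)) {n : ℕ} (e : T ≃* QuaternionGroup (2 ^ n)) : n = 2 := by
  haveI : NeZero (2 ^ n) := ⟨by positivity⟩
  haveI : NeZero (2 * 2 ^ n) := ⟨by positivity⟩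
  have h1 := u2_mem hQ hQT hN e
  have h2 := hQ.pow_four h1
  rw [← pow_mul] at h2
  have h3 : orderOf ((e.symm (QuaternionGroup.a 1) : T) : G) = 2 * 2 ^ n := by
    rw [Subgroup.orderOf_coe, MulEquiv.orderOf_eq, QuaternionGroup.orderOf_a_one]
  have h4 := orderOf_dvd_of_pow_eq_one h2
  rw [h3] at h4
  have h5 : 2 ^ n ∣ 2 ^ 2 := by
    have h6 : 2 * 2 ^ n ∣ 2 * 2 ^ 2 := h4
    exact Nat.dvd_of_mul_dvd_mul_left (by norm_num) h6
  have h6 : n ≤ 2 := (Nat.pow_dvd_pow_iff_le_right (by norm_num)).mp h5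
  have hcard : Nat.card T = 4 * 2 ^ n := by
    rw [Nat.card_congr e.toEquiv, Classical.Quat.card_quaternion]
  have hQc := hQ.card
  have hlt : Nat.card Q < Nat.card T := by
    apply lt_of_le_of_ne (Subgroup.card_le_of_le hQT)
    exact fun h => hne (eq_of_le_of_card_ge hQT h.ge)
  interval_cases n
  · omega
  · omega
  · rfl

/-- The structure of a `2`-subgroup in which a quaternion subgroup is properly normal. -/
theorem L_quat (hZ : ZH G) {Q T : Subgroup G} (hQ : IsQ8 Q) (hT : IsPGroup 2 T) (hQT : Q ≤ T)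
    (hne : Q ≠ T) (hN : T ≤ normalizer (Q : Set G)) :
    ∃ u ∈ T, u ∉ Q ∧ u ^ 2 ∈ Q ∧ u ^ 8 = 1 ∧ u ^ 4 ≠ 1 ∧ (∀ t ∈ Q, t ∉ zpowers (u ^ 2) → Cfg u t) ∧
      Nat.card T = 16 ∧ ∀ v ∈ T, v ∉ Q → u * v⁻¹ ∈ Q := by
  rcases hZ.cyc_or_quat T hT with hc | ⟨-, n, ⟨e⟩⟩
  · exfalso
    obtain ⟨s, hs, hs2⟩ := hQ.exists_not_sq
    obtain ⟨t₁, ht₁, ht₁n⟩ := hQ.exists_other hs hs2
    have hq := (hQ.pair hs hs2 ht₁ ht₁n).1
    have h1 : (⟨t₁, hQT ht₁⟩ : T) * ⟨s, hQT hs⟩ = ⟨s, hQT hs⟩ * ⟨t₁, hQT ht₁⟩ :=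
      (IsCyclic.commutative).is_comm.comm _ _
    exact hq.not_comm (congrArg Subtype.val h1)
  obtain rfl := quat_exp hQ hQT hne hN e
  let e' : T ≃* X16 := e
  haveI : NeZero 4 := ⟨by norm_num⟩
  have hu2Q : ((e'.symm (QuaternionGroup.a 1) : T) : G) ^ 2 ∈ Q := u2_mem hQ hQT hN e'
  set u : G := ((e'.symm (QuaternionGroup.a 1) : T) : G) with hu
  have huT : u ∈ T := (e'.symm (QuaternionGroup.a 1)).2
  have heu : e' ⟨u, huT⟩ = QuaternionGroup.a 1 := e'.apply_symm_apply _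
  have hinj : ∀ x y : T, e' x = e' y → (x : G) = y := fun x y h => congrArg Subtype.val (e'.injective h)
  have hu8 : u ^ 8 = 1 := by
    have h1 : ((⟨u, huT⟩ : T) ^ 8) = 1 := by
      apply e'.injective
      rw [map_pow, heu, map_one]
      exact d16b.1
    exact congrArg Subtype.val h1
  have hu4 : u ^ 4 ≠ 1 := by
    intro h0
    have h1 : ((⟨u, huT⟩ : T) ^ 4) = 1 := Subtype.ext h0
    have h2 := congrArg e' h1
    rw [map_pow, heu, map_one] at h2
    exact d16b.2 h2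
  have hcard : Nat.card T = 16 := by
    rw [Nat.card_congr e'.toEquiv, Classical.Quat.card_quaternion]
  refine ⟨u, huT, fun h0 => hu4 (hQ.pow_four h0), hu2Q, hu8, hu4, ?_, hcard, ?_⟩
  · intro t ht htn
    have h4 := hQ.pow_four ht
    have htT := hQT ht
    have h5 : (e' ⟨t, htT⟩) ^ 4 = 1 := by
      rw [← map_pow]
      have : (⟨t, htT⟩ : T) ^ 4 = 1 := Subtype.ext h4
      rw [this, map_one]
    have h6 : ∀ k : Fin 4, e' ⟨t, htT⟩ ≠ ((QuaternionGroup.a 1 : X16) ^ 2) ^ (k : ℕ) := by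
      intro k hk
      apply htn
      rw [← heu, ← map_pow, ← map_pow] at hk
      have := hinj _ _ hk
      have h7 : t = (u ^ 2) ^ (k : ℕ) := this
      rw [h7]
      exact pow_mem (mem_zpowers _) _
    obtain ⟨h7, h8⟩ := d16a _ h5 h6
    refine ⟨hu8, hu4, ?_, ?_⟩
    · rw [← heu, ← map_pow, ← map_pow] at h7
      exact hinj _ _ h7
    · rw [← heu, ← map_inv, ← map_inv, ← map_mul, ← map_mul] at h8
      exact hinj _ _ h8
  · intro v hv hvQ
    have hidx : (Q.subgroupOf T).index = 2 := by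
      have h1 := (Q.subgroupOf T).card_mul_index
      rw [hcard, Nat.card_congr (Subgroup.subgroupOfEquivOfLe hQT).toEquiv, hQ.card] at h1
      omega
    have h1 := (Subgroup.mul_mem_iff_of_index_two hidx (a := ⟨u, huT⟩) (b := (⟨v, hv⟩ : T)⁻¹))
    have huQ : u ∉ Q := fun h0 => hu4 (hQ.pow_four h0)
    have h2 : (⟨u, huT⟩ : T) ∉ Q.subgroupOf T := huQ
    have h3 : (⟨v, hv⟩ : T)⁻¹ ∉ Q.subgroupOf T := by
      intro h4
      exact hvQ (by simpa [Subgroup.mem_subgroupOf] using h4)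
    exact h1.mpr (iff_of_false h2 h3)

end Cfsg.Agent.Lib.Zass
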