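import Mathlib
import Cfsg.Agent.Lib.Zass.Cfg

/-!
# Producing a quaternion subgroup with an element of odd order acting nontrivially
-/

set_option autoImplicit false

namespace Cfsg.Agent.Lib.Zass

open Subgroup Cfsg.Agent.Lib.Transfer
open scoped commutatorElement

variable {G : Type*} [Group G] [Finite G]

/-- A subgroup of a group of generalised quaternion type with a nontrivial odd action has order 8. -/
theorem quat_core' {T : Subgroup G} (hT : IsPGroup 2 T) {n : ℕ} (e : T ≃* QuaternionGroup (2 ^ n))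
    {Q : Subgroup G} (hQT : Q ≤ T) {g : G} (hg : g ∈ normalizer (Q : Set G))
    (hodd : Odd (orderOf g)) (hgQ : g ∉ centralizer (Q : Set G)) : Nat.card Q = 8 := by
  classical
  set N : ℕ := 2 ^ n with hN
  haveI : NeZero N := ⟨by positivity⟩
  haveI : NeZero (2 * N) := ⟨by have := NeZero.ne N; omega⟩
  let A1 : QuaternionGroup N := QuaternionGroup.a 1
  let AN : QuaternionGroup N := QuaternionGroup.a (N : ZMod (2 * N))
  let x₀ : G := ((e.symm A1 : T) : G)
  let z : G := ((e.symm AN : T) : G)
  set C : Subgroup G := zpowers x₀ with hC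
  have hx₀T : x₀ ∈ (T : Subgroup G) := (e.symm A1).2
  have hCT : C ≤ (T : Subgroup G) := zpowers_le.mpr hx₀T
  have hform : ∀ t : QuaternionGroup N, (∃ j, t = QuaternionGroup.a j) ∨ (∃ i, t = QuaternionGroup.xa i) := by
    intro t
    cases t with
    | a j => exact Or.inl ⟨j, rfl⟩
    | xa i => exact Or.inr ⟨i, rfl⟩
  have hCiff : ∀ t (ht : t ∈ (T : Subgroup G)), t ∈ C ↔ ∃ j, e ⟨t, ht⟩ = QuaternionGroup.a j := by
    intro t ht
    constructor
    · intro htC
      obtain ⟨k, rfl⟩ := (mem_powers_iff_mem_zpowers.mpr htC)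
      refine ⟨(k : ZMod (2 * N)), ?_⟩
      have h1 : (⟨x₀ ^ k, ht⟩ : (T : Subgroup G)) = (e.symm A1) ^ k := Subtype.ext (by simp [x₀])
      rw [h1, map_pow, MulEquiv.apply_symm_apply]
      exact QuaternionGroup.a_one_pow k
    · rintro ⟨j, hj⟩
      have h1 : QuaternionGroup.a j = A1 ^ j.val := by
        rw [QuaternionGroup.a_one_pow, ZMod.natCast_zmod_val]
      have h2 : (⟨t, ht⟩ : (T : Subgroup G)) = (e.symm A1) ^ j.val := by
        apply e.injective
        rw [hj, h1, map_pow, MulEquiv.apply_symm_apply]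
      have h3 : t = x₀ ^ j.val := by
        have := congrArg (fun s : (T : Subgroup G) => (s : G)) h2
        simpa [x₀] using this
      rw [h3]
      exact Subgroup.pow_mem _ (mem_zpowers x₀) _
  have hnotC : ∀ t (ht : t ∈ (T : Subgroup G)), t ∉ C → ∃ i, e ⟨t, ht⟩ = QuaternionGroup.xa i := by
    intro t ht htC
    rcases hform (e ⟨t, ht⟩) with h | h
    · exact absurd ((hCiff t ht).mpr h) htC
    · exact h
  have hzT : z ∈ (T : Subgroup G) := (e.symm AN).2
  have hez : e ⟨z, hzT⟩ = AN := by
    have : (⟨z, hzT⟩ : (T : Subgroup G)) = e.symm AN := rfl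
    rw [this, MulEquiv.apply_symm_apply]
  have hmulT : ∀ (s t : G) (hs : s ∈ (T : Subgroup G)) (ht : t ∈ (T : Subgroup G)),
      e ⟨s * t, (T : Subgroup G).mul_mem hs ht⟩ = e ⟨s, hs⟩ * e ⟨t, ht⟩ := by
    intro s t hs ht
    rw [← map_mul]
    rfl
  have hextT : ∀ (s t : G) (hs : s ∈ (T : Subgroup G)) (ht : t ∈ (T : Subgroup G)),
      e ⟨s, hs⟩ = e ⟨t, ht⟩ → s = t := by
    intro s t hs ht h
    have := e.injective h
    exact congrArg Subtype.val this
  have he1 : e ⟨1, (T : Subgroup G).one_mem⟩ = 1 := by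
    have : (⟨1, (T : Subgroup G).one_mem⟩ : (T : Subgroup G)) = 1 := rfl
    rw [this, map_one]
  have hz1 : z ≠ 1 := by
    intro h
    have h1 : e ⟨z, hzT⟩ = e ⟨1, (T : Subgroup G).one_mem⟩ := by
      congr 2
    rw [hez, he1] at h1
    exact quat_an_ne_one N h1
  have hzz : z * z = 1 := by
    apply hextT _ _ ((T : Subgroup G).mul_mem hzT hzT) (T : Subgroup G).one_mem
    rw [hmulT z z hzT hzT, hez, he1]
    exact quat_an_sq N
  have hzC : z ∈ C := (hCiff z hzT).mpr ⟨(N : ZMod (2 * N)), hez⟩
  have hsq : ∀ t ∈ (T : Subgroup G), t ∉ C → t * t = z := by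
    intro t ht htC
    obtain ⟨i, hi⟩ := hnotC t ht htC
    apply hextT _ _ ((T : Subgroup G).mul_mem ht ht) hzT
    rw [hmulT t t ht ht, hi, hez, QuaternionGroup.xa_mul_xa]
    congr 1
    ring
  have hinv : ∀ t ∈ (T : Subgroup G), t ∉ C → ∀ u ∈ C, t * u * t⁻¹ = u⁻¹ := by
    intro t ht htC u hu
    obtain ⟨i, hi⟩ := hnotC t ht htC
    obtain ⟨j, hj⟩ := (hCiff u (hCT hu)).mp hu
    have h1 : u * (t * u) = t := by
      apply hextT _ _ ((T : Subgroup G).mul_mem (hCT hu) ((T : Subgroup G).mul_mem ht (hCT hu))) ht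
      rw [hmulT u (t * u) (hCT hu) ((T : Subgroup G).mul_mem ht (hCT hu)), hmulT t u ht (hCT hu), hi, hj,
        QuaternionGroup.xa_mul_a, QuaternionGroup.a_mul_xa]
      congr 1
      ring
    have h2 : t * u = u⁻¹ * t := by
      rw [eq_inv_mul_iff_mul_eq]
      exact h1
    rw [h2]; group
  have hmul : ∀ s ∈ (T : Subgroup G), ∀ t ∈ (T : Subgroup G), s ∉ C → t ∉ C → s * t ∈ C := by
    intro s hs t ht hsC htC
    obtain ⟨i, hi⟩ := hnotC s hs hsC
    obtain ⟨j, hj⟩ := hnotC t ht htC
    refine (hCiff _ ((T : Subgroup G).mul_mem hs ht)).mpr ⟨(N : ZMod (2 * N)) + j - i, ?_⟩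
    rw [hmulT s t hs ht, hi, hj, QuaternionGroup.xa_mul_xa]
  have hinvol : ∀ t ∈ (T : Subgroup G), t * t = 1 → t = 1 ∨ t = z := by
    intro t ht h1
    have h2 : e ⟨t, ht⟩ * e ⟨t, ht⟩ = 1 := by
      rw [← hmulT t t ht ht, ← he1]
      congr 2
    rcases quat_invol N _ h2 with h3 | h3
    · left
      apply hextT _ _ ht (T : Subgroup G).one_mem
      rw [h3, he1]
    · right
      apply hextT _ _ ht hzT
      rw [h3, hez]
  obtain ⟨hzQ, hQ8, hsqQ⟩ := quat_core (T : Subgroup G) C hT hCT z hzC hz1 hzz hsq hinv hmul hinvol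
    hQT hg hodd hgQ
  exact hQ8

/-- A perfect group has no nontrivial solvable quotient. -/
theorem perfect_quot_trivial (hperf : _root_.commutator G = ⊤) {H : Type*} [Group H]
    (f : G →* H) (hf : Function.Surjective f) [Group.IsSolvable H] : Subsingleton H := by
  by_contra hnt
  rw [not_subsingleton_iff_nontrivial] at hnt
  have h1 := Group.IsSolvable.commutator_lt_top_of_nontrivial H
  apply h1.ne
  have h2 : (⊤ : Subgroup G).map f = ⊤ := by
    rw [← MonoidHom.range_eq_map]
    exact MonoidHom.range_eq_top.mpr hf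
  rw [_root_.commutator_def] at hperf ⊢
  rw [← h2, ← Subgroup.map_commutator, hperf, h2]

theorem quat_to_q8 (hZ : ZH G) (hperf : _root_.commutator G = ⊤) (hne : Nontrivial G) :
    ∃ Q : Subgroup G, IsQ8 Q ∧ ∃ y ∈ normalizer (Q : Set G), Odd (orderOf y) ∧
      y ∉ centralizer (Q : Set G) := by
  classical
  -- the order is even
  have heven : 2 ∣ Nat.card G := by
    by_contra hodd
    have hZG : IsZGroup G := by
      rw [isZGroup_iff]
      intro p hp P
      haveI : Fact p.Prime := ⟨hp⟩
      by_cases hp2 : p = 2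
      · subst hp2
        have h1 : Nat.card (P : Subgroup G) = 1 := by
          obtain ⟨k, hk⟩ := IsPGroup.iff_card.mp P.isPGroup'
          rw [hk]
          rcases k with _ | k
          · rfl
          · exfalso
            apply hodd
            have h2 := Subgroup.card_subgroup_dvd_card (P : Subgroup G)
            rw [hk] at h2
            exact (dvd_pow_self 2 (Nat.succ_ne_zero k)).trans h2
        exact isCyclic_of_card_dvd_prime (p := 2) (by rw [h1]; simp) |> fun h => h
      · exact hZ.odd_cyclic hp2 P P.isPGroup'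
    have := IsZGroup.commutator_lt (G := G)
    exact this.ne hperf
  haveI : Fact (Nat.Prime 2) := ⟨Nat.prime_two⟩
  obtain ⟨P⟩ : Nonempty (Sylow 2 G) := inferInstance
  have hPne : Nat.card (P : Subgroup G) ≠ 1 := by
    intro h1
    have h2 := P.card_eq_multiplicity
    rw [h1] at h2
    have h3 : (Nat.card G).factorization 2 = 0 := by
      have h4 : 2 ^ (Nat.card G).factorization 2 = 2 ^ 0 := by simpa using h2.symm
      exact Nat.pow_right_injective (le_refl 2) h4
    have h5 := (Nat.Prime.dvd_iff_one_le_factorization Nat.prime_two Nat.card_pos.ne').mp heven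
    omega
  by_cases hF : FrobeniusHyp 2 (P : Subgroup G)
  · exfalso
    obtain ⟨N, hN, hc⟩ := frobenius P hF
    -- the quotient by the complement is a group of prime power order, hence trivial
    have hqP : IsPGroup 2 (G ⧸ N) := by
      apply IsPGroup.of_card (n := (Nat.card (P : Subgroup G)).factorization 2)
      have h1 := hc.card_mul
      have h2 := Subgroup.card_eq_card_quotient_mul_card_subgroup N
      have h3 : Nat.card (G ⧸ N) = Nat.card (P : Subgroup G) := by
        have hpos : 0 < Nat.card N := Nat.card_pos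
        nlinarith [Nat.eq_of_mul_eq_mul_right hpos (by linarith : Nat.card (G ⧸ N) * Nat.card N =
          Nat.card (P : Subgroup G) * Nat.card N)]
      rw [h3]
      obtain ⟨k, hk⟩ := IsPGroup.iff_card.mp P.isPGroup'
      rw [hk, Nat.Prime.factorization_pow Nat.prime_two]
      simp
    haveI : Group.IsNilpotent (G ⧸ N) := hqP.isNilpotent
    have hss := perfect_quot_trivial hperf (QuotientGroup.mk' N) (QuotientGroup.mk'_surjective N)
    have h1 := hc.card_mul
    have h2 := Subgroup.card_eq_card_quotient_mul_card_subgroup N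
    have h3 : Nat.card (G ⧸ N) = 1 := Nat.card_of_subsingleton 1
    have h4 : Nat.card (P : Subgroup G) = 1 := by
      rw [h3, one_mul] at h2
      have hpos : 0 < Nat.card N := Nat.card_pos
      nlinarith
    exact hPne h4
  · unfold FrobeniusHyp at hF
    push Not at hF
    obtain ⟨R, hRP, g, hg, hco, hgR⟩ := hF
    have hodd : Odd (orderOf g) := Nat.coprime_two_right.mp hco
    have hR : IsPGroup 2 R := P.isPGroup'.to_le hRP
    refine ⟨R, ?_, g, hg, hodd, hgR⟩
    rcases hZ.cyc_or_quat R hR with hc | ⟨-, n, ⟨e⟩⟩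
    · exact absurd (mem_centralizer_of_cyclic_two hR hg hodd) hgR
    · have h8 := quat_core' hR e le_rfl hg hodd hgR
      have hcard : Nat.card R = 4 * 2 ^ n := by
        rw [Nat.card_congr e.toEquiv, Classical.Quat.card_quaternion]
      have hn : n = 1 := by
        rw [h8] at hcard
        have h5 : 2 ^ n = 2 ^ 1 := by omega
        exact Nat.pow_right_injective (le_refl 2) h5
      subst hn
      exact ⟨e⟩

/-- A quaternion subgroup with a cycling element. -/
def Active (Q : Subgroup G) : Prop := ∃ y, Tri Q y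

theorem Active.cj {Q : Subgroup G} (h : Active Q) (g : G) : Active (cj g Q) := by
  obtain ⟨y, hy⟩ := h
  exact ⟨_, hy.cj g⟩

/-- An active subgroup has an element of order a power of three cycling it. -/
theorem Active.three {Q : Subgroup G} (hQ : IsQ8 Q) (h : Active Q) :
    ∃ (y : G) (a : ℕ), Tri Q y ∧ orderOf y = 3 ^ (a + 1) := by
  obtain ⟨e, he⟩ := h
  obtain ⟨a, m, ham, hnd, hm, -, ho⟩ := exists_p_part e 3 Nat.prime_three
  have h1 := tri_pow hQ he hnd
  have h2 := three_dvd hQ h1
  rw [ho] at h2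
  rcases a with _ | a
  · exfalso
    simp at h2
  · exact ⟨_, a, h1, ho⟩

/-- An element cycling a subgroup can be replaced by one of odd order. -/
theorem Tri.exists_odd {Q : Subgroup G} (hQ : IsQ8 Q) {e : G} (he : Tri Q e) : Active Q := ⟨e, he⟩

theorem exists_active (hZ : ZH G) (hperf : _root_.commutator G = ⊤) (hne : Nontrivial G) :
    ∃ Q : Subgroup G, IsQ8 Q ∧ Active Q := by
  obtain ⟨Q, hQ, y, hy, hodd, hyc⟩ := quat_to_q8 hZ hperf hne
  exact ⟨Q, hQ, y, tri_of_odd hQ hy hodd hyc⟩

end Cfsg.Agent.Lib.Zass
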