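import Mathlib
import Cfsg.Agent.Lib.Zass.Active

/-!
# The partner of an active quaternion subgroup is active
-/

set_option autoImplicit false

namespace Cfsg.Agent.Lib.Zass

open Subgroup Equiv
open scoped commutatorElement

variable {G : Type*} [Group G] [Finite G]

theorem dec_e : ∀ σ : Perm (Fin 3), (∀ p, σ p ≠ p) → ∀ p q, q = p ∨ q = σ p ∨ q = σ (σ p) := by
  decide +kernel

theorem s3_e {X : Type*} [Finite X] (hX : Nat.card X = 3) (σ : Perm X) (hσ : ∀ p, σ p ≠ p) (p q : X) :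
    q = p ∨ q = σ p ∨ q = σ (σ p) := by
  let e : X ≃ Fin 3 := Finite.equivFinOfCardEq hX
  let φ : Perm X ≃* Perm (Fin 3) := e.permCongrHom
  have hfix : ∀ (ρ : Perm X) (q : X), φ ρ (e q) = e (ρ q) := by
    intro ρ q
    have h1 : φ ρ (e q) = e (ρ (e.symm (e q))) := rfl
    rw [h1, e.symm_apply_apply]
  have h1 := dec_e (φ σ) (fun q hq => by
    apply hσ (e.symm q)
    have h1 : φ σ q = e (σ (e.symm q)) := rfl
    rw [h1] at hq
    apply e.injective
    rw [e.apply_symm_apply]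
    exact hq) (e p) (e q)
  rcases h1 with h | h | h
  · exact Or.inl (e.injective h)
  · rw [hfix] at h
    exact Or.inr (Or.inl (e.injective h))
  · rw [hfix, hfix] at h
    exact Or.inr (Or.inr (e.injective h))

theorem tri_trans {Q : Subgroup G} (hQ : IsQ8 Q) {y : G} (hT : Tri Q y) {a b : G} (ha : a ∈ Q)
    (ha2 : a ^ 2 ≠ 1) (hb : b ∈ Q) (hb2 : b ^ 2 ≠ 1) :
    ∃ n ∈ normalizer (Q : Set G), n * a * n⁻¹ ∈ zpowers b := by
  have hy := hT.1
  haveI := pairs_finite hQ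
  have h1 := (tri_iff hQ hy).mp hT
  rcases s3_e (card_pairs hQ) _ h1 (mkP ha ha2) (mkP hb hb2) with h | h | h
  · refine ⟨1, one_mem _, ?_⟩
    have h2 := (mkP_eq_iff hQ hb hb2 ha ha2).mp h
    simpa using h2
  · refine ⟨y, hy, ?_⟩
    rw [pr_mkP hy ha ha2] at h
    exact (mkP_eq_iff hQ hb hb2 (conj_mem_N hy ha) (conj_sq_ne ha2)).mp h
  · refine ⟨y * y, mul_mem hy hy, ?_⟩
    rw [pr_mkP hy ha ha2, pr_mkP hy (conj_mem_N hy ha) (conj_sq_ne ha2)] at h
    have h2 := (mkP_eq_iff hQ hb hb2 _ _).mp h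
    have e1 : y * (y * a * y⁻¹) * y⁻¹ = y * y * a * (y * y)⁻¹ := by group
    rwa [e1] at h2

theorem hA_cj {Q : Subgroup G} (h : Active Q) (g : G) : Active (cj g Q) := Active.cj h g

omit [Finite G] in
theorem zp_cases {s a : G} (hs : s ^ 4 = 1) (hm : a ∈ zpowers s) (ha2 : a ^ 2 ≠ 1) :
    a = s ∨ a = s⁻¹ := by
  obtain ⟨i, rfl⟩ := mem_zp4 hs hm
  fin_cases i
  · exact absurd (by simp) ha2
  · left; simp
  · exfalso
    apply ha2
    show (s ^ 2) ^ 2 = 1
    rw [← pow_mul]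
    exact hs
  · right
    show s ^ 3 = s⁻¹
    rw [eq_inv_iff_mul_eq_one, ← pow_succ]
    exact hs

omit [Finite G] in
theorem mem_N_zp {s q : G} (h : q * s * q⁻¹ = s ∨ q * s * q⁻¹ = s⁻¹) :
    q ∈ normalizer ((zpowers s : Subgroup G) : Set G) := by
  apply normalizer_of_cj_eq
  rw [cj_zpowers]
  rcases h with h | h <;> rw [h]
  exact zpowers_inv

/-- Elements of a quaternion subgroup normalise the cyclic subgroups of order four. -/
theorem q_mem_N_zp {Q : Subgroup G} (hQ : IsQ8 Q) {s q : G} (hs : s ∈ Q) (hs2 : s ^ 2 ≠ 1) (hq : q ∈ Q) :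
    q ∈ normalizer ((zpowers s : Subgroup G) : Set G) := by
  apply mem_N_zp
  by_cases hm : q ∈ zpowers s
  · left
    obtain ⟨k, rfl⟩ := mem_zpowers_iff.mp hm
    rw [(Commute.zpow_left (Commute.refl s) k).eq]
    group
  · right
    exact (hQ.pair hs hs2 hq hm).1.ts

/-- Existence of a conjugate pair across the index-two subgroup from the focal subgroup. -/
theorem focal_pair (hperf : _root_.commutator G = ⊤) (S : Sylow 2 G) {Q : Subgroup G} (hQS : Q ≤ S)
    (hidx : (Q.subgroupOf S).index = 2) :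
    ∃ a₁ ∈ Q, ∃ a₂ ∈ (S : Subgroup G), a₂ ∉ Q ∧ ∃ g₀ : G, g₀ * a₂ * g₀⁻¹ = a₁ := by
  haveI : Fact (Nat.Prime 2) := ⟨Nat.prime_two⟩
  have h1 := Subgroup.commutator_inf_eq_focalSubgroup S
  rw [hperf, top_inf_eq] at h1
  have h2 : ¬ Subgroup.focalSubgroup (S : Subgroup G) ≤ Q := by
    rw [← h1]
    intro hle
    have h3 : Q = S := le_antisymm hQS hle
    have h4 : (Q.subgroupOf S).index = 1 := by
      rw [Subgroup.index_eq_one, Subgroup.subgroupOf_eq_top]
      exact h3.ge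
    omega
  rw [Subgroup.focalSubgroup_def, closure_le] at h2
  rw [Set.not_subset] at h2
  obtain ⟨g, ⟨hgS, x, hx, w, rfl⟩, hgQ⟩ := h2
  have hx' : w * x⁻¹ * w⁻¹ ∈ (S : Subgroup G) := by
    have e1 : w * x⁻¹ * w⁻¹ = x⁻¹ * ⁅x, w⁆ := by
      rw [commutatorElement_def]; group
    rw [e1]
    exact mul_mem (inv_mem hx) hgS
  have hmul : x * (w * x⁻¹ * w⁻¹) ∉ Q := by
    have e1 : x * (w * x⁻¹ * w⁻¹) = ⁅x, w⁆ := by
      rw [commutatorElement_def]; group
    rw [e1]
    exact hgQ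
  have hiff := Subgroup.mul_mem_iff_of_index_two hidx (a := (⟨x, hx⟩ : S)) (b := ⟨_, hx'⟩)
  have hnot : ¬ ((⟨x, hx⟩ : S) ∈ Q.subgroupOf S ↔ (⟨_, hx'⟩ : S) ∈ Q.subgroupOf S) := by
    rw [← hiff]
    exact hmul
  by_cases hxQ : x ∈ Q
  · have hx'Q : w * x⁻¹ * w⁻¹ ∉ Q := by
      intro h3
      exact hnot (iff_of_true hxQ h3)
    exact ⟨x⁻¹, inv_mem hxQ, _, hx', hx'Q, w⁻¹, by group⟩
  · have hx'Q : w * x⁻¹ * w⁻¹ ∈ Q := by
      by_contra h3
      exact hnot (iff_of_false hxQ h3)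
    refine ⟨_, hx'Q, x⁻¹, inv_mem hx, fun h3 => hxQ (by simpa using inv_mem h3), w, rfl⟩

/-- The partner of an active quaternion subgroup in the group of order sixteen is active. -/
theorem partner_active (hZ : ZH G) (hperf : _root_.commutator G = ⊤) {u t : G} (h : Cfg u t)
    (hA : Active (Qq u t)) : Active (Qq u (t * u)) := by
  have h' : Cfg u (t * u) := by simpa using h.tk 1
  have hQ := h.isQ8
  have hQ' := h'.isQ8
  have hR := h.isPGroup_R16
  have hQ'R : Qq u (t * u) ≤ R16 u t := by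
    rw [Qq, closure_le]
    rintro x (rfl | rfl)
    · exact pow_mem h.u_mem_R 2
    · exact mul_mem h.t_mem_R h.u_mem_R
  haveI : Fact (Nat.Prime 2) := ⟨Nat.prime_two⟩
  obtain ⟨S, hS⟩ := hR.exists_le_sylow
  by_cases hSR : (S : Subgroup G) = R16 u t
  · -- the Sylow case
    have hQS : Qq u t ≤ S := hSR ▸ h.Qq_le
    have hidx : ((Qq u t).subgroupOf (S : Subgroup G)).index = 2 := by
      have h1 := ((Qq u t).subgroupOf (S : Subgroup G)).card_mul_index
      rw [hSR, h.card_R16, Nat.card_congr (Subgroup.subgroupOfEquivOfLe h.Qq_le).toEquiv,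
        hQ.card] at h1
      rw [hSR]
      omega
    obtain ⟨a₁, ha₁, a₂, ha₂, ha₂Q, g₀, hg₀⟩ := focal_pair hperf S hQS hidx
    rw [hSR] at ha₂
    obtain ⟨k, hk⟩ := h.mem_R16.mp ha₂
    -- the form of `a₂`
    have ha₁4 := hQ.pow_four ha₁
    have ha₂4 : a₂ ^ 4 = 1 := by
      have e1 : a₂ = g₀⁻¹ * a₁ * g₀ := by rw [← hg₀]; group
      rw [e1]
      have := conj_pow (a := g₀⁻¹) (b := a₁) (i := 4)
      simp only [inv_inv] at this
      rw [this, ha₁4]
      group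
    have hkodd : Odd k := by
      rcases Nat.even_or_odd k with hev | hodd
      · exfalso
        rcases hk with rfl | rfl
        · exact ha₂Q (h.u_pow_mem hev)
        · exact ha₂Q (h.t_mul_mem hev)
      · exact hodd
    have hform : a₂ = t * u ^ k := by
      rcases hk with rfl | h1
      · exact absurd ha₂4 (h.odd_pow4 hkodd)
      · exact h1
    subst hform
    have hcfg : Cfg u (t * u ^ k) := h.tk k
    have ha₂2 : (t * u ^ k) ^ 2 ≠ 1 := by rw [hcfg.t2]; exact h.u4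
    have ha₁2 : a₁ ^ 2 ≠ 1 := by
      rw [← hg₀]
      exact conj_sq_ne ha₂2
    obtain ⟨y, hy⟩ := hA
    obtain ⟨n₀, hn₀, hn₀m⟩ := tri_trans hQ hy ha₁ ha₁2 h.s_mem h.qp.s2
    have hn₀2 : (n₀ * a₁ * n₀⁻¹) ^ 2 ≠ 1 := conj_sq_ne ha₁2
    -- conjugate to `s`
    obtain ⟨h₀, hh₀⟩ : ∃ h₀ : G, h₀ * a₁ * h₀⁻¹ = u ^ 2 := by
      rcases zp_cases h.qp.s4 hn₀m hn₀2 with h1 | h1
      · exact ⟨n₀, h1⟩
      · refine ⟨t * n₀, ?_⟩
        have e1 : t * n₀ * a₁ * (t * n₀)⁻¹ = t * (n₀ * a₁ * n₀⁻¹) * t⁻¹ := by group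
        rw [e1, h1]
        have e2 := h.qp.ts
        have e3 : t * (u ^ 2)⁻¹ * t⁻¹ = (t * u ^ 2 * t⁻¹)⁻¹ := by group
        rw [e3, e2, inv_inv]
    set hh : G := h₀ * g₀ with hhdef
    have hhs : hh * (t * u ^ k) * hh⁻¹ = u ^ 2 := by
      have e1 : hh * (t * u ^ k) * hh⁻¹ = h₀ * (g₀ * (t * u ^ k) * g₀⁻¹) * h₀⁻¹ := by
        rw [hhdef]; group
      rw [e1, hg₀, hh₀]
    -- membership of the element in the partner
    have ha₂Q' : t * u ^ k ∈ Qq u (t * u) := by
      obtain ⟨c, rfl⟩ := hkodd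
      have e1 : t * u ^ (2 * c + 1) = (t * u) * u ^ (2 * c) := by
        rw [add_comm, pow_add, pow_one]
        group
      rw [e1]
      exact h'.t_mul_mem (even_two_mul c)
    let E : Subgroup G := normalizer ((zpowers (u ^ 2) : Subgroup G) : Set G)
    have hQ'' : IsQ8 (cj hh (Qq u (t * u))) := hQ'.cj hh
    have hs'' : u ^ 2 ∈ cj hh (Qq u (t * u)) := by
      rw [← hhs]
      exact conj_mem_cj ha₂Q'
    have hQ''E : cj hh (Qq u (t * u)) ≤ E := fun q hq => q_mem_N_zp hQ'' hs'' h.qp.s2 hq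
    have hSE : (S : Subgroup G) ≤ E := by
      rw [hSR, R16, closure_le]
      rintro x (rfl | rfl)
      · apply mem_N_zp
        left
        rw [(pow_succ' x 2).symm.trans (pow_succ x 2)]
        group
      · exact mem_N_zp (Or.inr h.qp.ts)
    obtain ⟨n, hnE, hn⟩ := sylow_conj_in E 2 hSE hQ''E S.isPGroup' hQ''.isPGroup (fun C _ hC hle =>
      S.is_maximal' hC hle)
    rw [hSR, ← cj_mul] at hn
    have hD := hQ'.cj (n * hh)
    have hg₁ : (n * hh) * (t * u ^ k) * (n * hh)⁻¹ ∈ zpowers (u ^ 2) := by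
      have e1 : (n * hh) * (t * u ^ k) * (n * hh)⁻¹ = n * (hh * (t * u ^ k) * hh⁻¹) * n⁻¹ := by group
      rw [e1, hhs]
      exact conj_mem_N hnE (mem_zpowers _)
    rcases h.q8_in_R16 hD hn with h1 | h1
    · -- conjugate to the first subgroup
      have h2 : cj (n * hh)⁻¹ (Qq u t) = Qq u (t * u) := by
        rw [← h1, ← cj_mul, inv_mul_cancel, cj_one]
      rw [← h2]
      exact ⟨_, hy.cj _⟩
    · -- stabilises the partner
      have hgN : n * hh ∈ normalizer ((Qq u (t * u) : Subgroup G) : Set G) := normalizer_of_cj_eq h1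
      have hcfg2 : QP (u ^ 2) (t * u ^ k) := hcfg.qp
      have hua : u * u ^ 2 * u⁻¹ ∈ zpowers (u ^ 2) := by
        rw [(pow_succ' u 2).symm.trans (pow_succ u 2)]
        simp [mem_zpowers]
      have hub : u * (t * u ^ k) * u⁻¹ ∉ zpowers (t * u ^ k) := by
        rw [hcfg.conj_u]
        intro hm
        have h3 : u ^ 2 ∈ zpowers (t * u ^ k) := by
          have e1 : u ^ 2 = (u ^ 2 * (t * u ^ k)) * (t * u ^ k)⁻¹ := by group
          rw [e1]
          exact mul_mem hm (inv_mem (mem_zpowers _))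
        obtain ⟨c, hc⟩ := mem_zpowers_iff.mp h3
        apply hcfg2.not_comm
        rw [← hc]
        exact (Commute.zpow_right (Commute.refl _) c).eq
      rcases tri_move hQ' hgN h'.u_mem_N (by rw [← pow_two]; exact h'.s_mem) h'.s_mem h'.qp.s2
        ha₂Q' ha₂2 hua hub hg₁ hcfg2.t_notin with h3 | h3
      · exact ⟨_, h3⟩
      · exact ⟨_, h3⟩
  · -- the element swapping the two subgroups
    have hlt : R16 u t < S := lt_of_le_of_ne hS (Ne.symm hSR)
    obtain ⟨v, hvS, hvR, hvN⟩ := Cfsg.Agent.Lib.PGroup.exists_mem_normalizer_of_lt S.isPGroup' hlt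
    have hD := hQ.cj v
    have hle : cj v (Qq u t) ≤ R16 u t := by
      intro x hx
      obtain ⟨q, hq, rfl⟩ := hx
      exact conj_mem_N hvN (h.Qq_le hq)
    rcases h.q8_in_R16 hD hle with h1 | h1
    · exfalso
      have hvNQ : v ∈ normalizer ((Qq u t : Subgroup G) : Set G) := normalizer_of_cj_eq h1
      have hT : IsPGroup 2 (R16 u t ⊔ zpowers v : Subgroup G) :=
        S.isPGroup'.to_le (sup_le hS (zpowers_le.mpr hvS))
      have hTN : (R16 u t ⊔ zpowers v : Subgroup G) ≤ normalizer ((Qq u t : Subgroup G) : Set G) :=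
        sup_le h.R16_le_N (zpowers_le.mpr hvNQ)
      have hQT : Qq u t ≤ (R16 u t ⊔ zpowers v : Subgroup G) := h.Qq_le.trans le_sup_left
      have hvT : v ∈ (R16 u t ⊔ zpowers v : Subgroup G) :=
        (le_sup_right : zpowers v ≤ _) (mem_zpowers v)
      have hne : Qq u t ≠ (R16 u t ⊔ zpowers v : Subgroup G) := by
        intro he
        rw [← he] at hvT
        exact hvR (h.Qq_le hvT)
      obtain ⟨-, -, -, -, -, -, -, hc, -⟩ := L_quat hZ hQ hT hQT hne hTN
      have he : R16 u t = (R16 u t ⊔ zpowers v : Subgroup G) :=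
        eq_of_le_of_card_ge le_sup_left (by rw [hc, h.card_R16])
      rw [← he] at hvT
      exact hvR hvT
    · rw [← h1]
      exact hA_cj hA _

end Cfsg.Agent.Lib.Zass
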