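import Mathlib
import Cfsg.Agent.Lib.Zass.Fusion

/-!
# Elements of order nine and higher powers of three cycling a quaternion subgroup
-/

set_option autoImplicit false

namespace Cfsg.Agent.Lib.Zass

open Subgroup Equiv
open scoped commutatorElement

variable {G : Type*} [Group G] [Finite G]

omit [Finite G] in
theorem zp3_cases {x b : G} (h3 : x ^ 3 = 1) (hb : b ∈ zpowers x) (hb1 : b ≠ 1) : b = x ∨ b = x⁻¹ := by
  obtain ⟨k, rfl⟩ := mem_zpowers_iff.mp hb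
  rw [zpow_eq_zpow_emod' k h3] at hb1 ⊢
  have hcases : k % ((3 : ℕ) : ℤ) = 0 ∨ k % ((3 : ℕ) : ℤ) = 1 ∨ k % ((3 : ℕ) : ℤ) = 2 := by omega
  rcases hcases with h | h | h <;> rw [h] at hb1 ⊢
  · exact absurd (by simp) hb1
  · left; simp
  · right
    have e1 : x ^ (2 : ℤ) = x ^ 2 := zpow_natCast x 2
    rw [e1, eq_inv_iff_mul_eq_one, ← pow_succ]
    exact h3

/-- Commutators with elements of a Burnside-type group have order prime to three. -/
theorem no_three_comm (hZ : ZH G) {x₀ y u : G} (hx₀ : orderOf x₀ = 3) (hpow : x₀ ∈ zpowers y)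
    {a : ℕ} (hoy : orderOf y = 3 ^ a) (huC : u * x₀ = x₀ * u) :
    ¬ 3 ∣ orderOf (u * y * u⁻¹ * y⁻¹) := by
  haveI : Fact (Nat.Prime 3) := ⟨Nat.prime_three⟩
  let H : Subgroup G := centralizer ({x₀} : Set G)
  have hmemH : ∀ {g : G}, g * x₀ = x₀ * g → g ∈ H := by
    intro g hg
    rw [mem_centralizer_iff]
    rintro _ rfl
    exact hg.symm
  have hcommH : ∀ g ∈ H, g * x₀ = x₀ * g := by
    intro g hg
    exact (mem_centralizer_iff.mp hg x₀ rfl).symm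
  have hyH : y ∈ H := by
    apply hmemH
    obtain ⟨k, rfl⟩ := mem_zpowers_iff.mp hpow
    exact (Commute.zpow_right (Commute.refl y) k).eq
  have hx₀H : x₀ ∈ H := hmemH rfl
  have huH : u ∈ H := hmemH huC
  let y' : H := ⟨y, hyH⟩
  let x₀' : H := ⟨x₀, hx₀H⟩
  let u' : H := ⟨u, huH⟩
  have hpy : IsPGroup 3 (zpowers y') := by
    apply IsPGroup.of_card (n := a)
    rw [Nat.card_zpowers, Subgroup.orderOf_mk, hoy]
  obtain ⟨P, hP⟩ := hpy.exists_le_sylow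
  let R : Subgroup G := (P : Subgroup H).map H.subtype
  have hR : IsPGroup 3 R := P.isPGroup'.map _
  have hyP : y' ∈ (P : Subgroup H) := hP (mem_zpowers y')
  have hx₀P : x₀' ∈ (P : Subgroup H) := by
    apply hP
    obtain ⟨k, hk⟩ := mem_zpowers_iff.mp hpow
    exact mem_zpowers_iff.mpr ⟨k, Subtype.ext (by simpa [y', x₀'] using hk)⟩
  haveI hRc : IsCyclic R := hZ.odd_cyclic (by norm_num) R hR
  have hpc : ∀ x ∈ (P : Subgroup H), ∀ z ∈ (P : Subgroup H), x * z = z * x := by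
    intro x hx z hz
    have h1 : (⟨(x : G), ⟨x, hx, rfl⟩⟩ : R) * ⟨(z : G), ⟨z, hz, rfl⟩⟩ =
        ⟨(z : G), ⟨z, hz, rfl⟩⟩ * ⟨(x : G), ⟨x, hx, rfl⟩⟩ := (IsCyclic.commutative).is_comm.comm _ _
    have h2 : (x : G) * z = z * x := congrArg (fun r : R => (r : G)) h1
    exact Subtype.ext h2
  have hO : ∀ x ∈ (P : Subgroup H), x ^ 3 = 1 → ∀ c : H, c * x = x * c := by
    intro x hx hx3 c
    by_cases hx1 : x = 1
    · rw [hx1]; simp
    have hox : orderOf x = 3 := orderOf_eq_prime hx3 hx1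
    have hox' : orderOf (x : G) = 3 := by rw [Subgroup.orderOf_coe]; exact hox
    have h1 := hZ.zp_eq R hR (⟨x, hx, rfl⟩ : (x : G) ∈ R) (⟨x₀', hx₀P, rfl⟩ : x₀ ∈ R) hox' hx₀
    have h2 : (x : G) ∈ zpowers x₀ := by
      rw [← h1]
      exact mem_zpowers _
    obtain ⟨k, hk⟩ := mem_zpowers_iff.mp h2
    apply Subtype.ext
    show (c : G) * x = x * c
    rw [← hk]
    exact (Commute.zpow_right (show Commute (c : G) x₀ from hcommH c c.2) k).eq
  have hNC := Cfsg.Agent.Lib.CycSylow.normalizer_le_centralizer_of_omega_central P hpc hO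
  haveI : IsMulCommutative (P : Subgroup H) :=
    ⟨⟨fun a b => Subtype.ext (hpc a a.2 b b.2)⟩⟩
  let φ := MonoidHom.transferSylow P hNC
  have hker : u' * y' * u'⁻¹ * y'⁻¹ ∈ φ.ker := by
    rw [MonoidHom.mem_ker, map_mul, map_mul, map_mul, map_inv, map_inv]
    have h5 : φ u' * φ y' = φ y' * φ u' := mul_comm' _ _
    rw [h5]
    group
  have h6 := MonoidHom.not_dvd_card_ker_transferSylow P hNC
  intro h3
  apply h6
  have h7 : orderOf (⟨_, hker⟩ : φ.ker) ∣ Nat.card φ.ker := orderOf_dvd_natCard _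
  have h8 : orderOf (⟨_, hker⟩ : φ.ker) = orderOf (u * y * u⁻¹ * y⁻¹) := by
    rw [Subgroup.orderOf_mk, ← Subgroup.orderOf_coe]
    rfl
  rw [h8] at h7
  exact h3.trans h7

/-- An element of order at least nine cycling a quaternion subgroup forces a `2`-element outside. -/
theorem type2_invert (hZ : ZH G) (hperf : _root_.commutator G = ⊤) {Q : Subgroup G} (hQ : IsQ8 Q)
    {y : G} (hT : Tri Q y) {a : ℕ} (ho : orderOf y = 3 ^ (a + 2)) :
    orderOf (y ^ 3 ^ (a + 1)) = 3 ∧ y ^ 3 ^ (a + 1) ∈ centralizer (Q : Set G) ∧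
      ∃ w ∈ normalizer (Q : Set G), w ∉ Q ∧ (∃ k, w ^ (2 ^ k) = 1) ∧
        w * y ^ 3 ^ (a + 1) * w⁻¹ = (y ^ 3 ^ (a + 1))⁻¹ := by
  haveI : Fact (Nat.Prime 3) := ⟨Nat.prime_three⟩
  haveI : Fact (Nat.Prime 2) := ⟨Nat.prime_two⟩
  set x₀ : G := y ^ 3 ^ (a + 1) with hx₀def
  have hx₀ : orderOf x₀ = 3 := by
    rw [hx₀def, orderOf_pow' y (by positivity), ho, Nat.gcd_eq_right (pow_dvd_pow 3 (by omega))]
    rw [show a + 2 = (a + 1) + 1 by ring, pow_succ]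
    exact Nat.mul_div_cancel_left 3 (by positivity)
  have hx₀2 : x₀ ^ 2 ≠ 1 := by
    intro h0
    have h1 := orderOf_dvd_of_pow_eq_one h0
    rw [hx₀] at h1
    omega
  have hoddy : Odd (orderOf y) := by
    rw [ho]
    exact Odd.pow (by decide)
  have hx₀C : x₀ ∈ centralizer (Q : Set G) := by
    have h1 : x₀ = (y ^ 3) ^ 3 ^ a := by
      rw [hx₀def, ← pow_mul, pow_succ, mul_comm]
    rw [h1]
    exact pow_mem (tri_cube hQ hT hoddy) _
  have hx₀comm : ∀ q ∈ Q, q * x₀ = x₀ * q := fun q hq => mem_centralizer_iff.mp hx₀C q hq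
  refine ⟨hx₀, hx₀C, ?_⟩
  have hpow : x₀ ∈ zpowers y := pow_mem (mem_zpowers y) _
  let H : Subgroup G := centralizer ({x₀} : Set G)
  have hmemH : ∀ {g : G}, g * x₀ = x₀ * g → g ∈ H := by
    intro g hg
    rw [mem_centralizer_iff]
    rintro _ rfl
    exact hg.symm
  have hcommH : ∀ g ∈ H, g * x₀ = x₀ * g := by
    intro g hg
    exact (mem_centralizer_iff.mp hg x₀ rfl).symm
  have hQH : Q ≤ H := fun q hq => hmemH (hx₀comm q hq)
  -- Step a: no `2`-element of `N(Q) ∩ H` outside `Q`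
  have hstepa : ∀ v ∈ normalizer (Q : Set G), v ∈ H → (∃ k, v ^ (2 ^ k) = 1) → v ∉ Q → False := by
    intro v hvN hvH hv2 hvQ
    have hTp : IsPGroup 2 (Q ⊔ zpowers v : Subgroup G) := isPGroup_sup_zpowers hQ.isPGroup hvN hv2
    have hTN : (Q ⊔ zpowers v : Subgroup G) ≤ normalizer (Q : Set G) :=
      sup_le le_normalizer (zpowers_le.mpr hvN)
    have hTH : (Q ⊔ zpowers v : Subgroup G) ≤ H := sup_le hQH (zpowers_le.mpr hvH)
    have hne : Q ≠ (Q ⊔ zpowers v : Subgroup G) := by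
      intro he
      apply hvQ
      rw [he]
      exact (le_sup_right : zpowers v ≤ _) (mem_zpowers v)
    obtain ⟨u, huT, huQ, hu2, hu8, hu4, hcfg, -, -⟩ := L_quat hZ hQ hTp le_sup_left hne hTN
    have hu22 : (u ^ 2) ^ 2 ≠ 1 := by rw [← pow_mul]; exact hu4
    obtain ⟨t, ht, htn⟩ := hQ.exists_other hu2 hu22
    have hc := hcfg t ht htn
    have htt : t ^ 2 ≠ 1 := by rw [hc.t2]; exact hu4
    have hua : u * t * u⁻¹ ∉ zpowers t := by
      rw [hc.conj_u]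
      intro hm
      have h3 : u ^ 2 ∈ zpowers t := by
        have e1 : u ^ 2 = (u ^ 2 * t) * t⁻¹ := by group
        rw [e1]
        exact mul_mem hm (inv_mem (mem_zpowers _))
      obtain ⟨c, hc'⟩ := mem_zpowers_iff.mp h3
      apply hc.qp.not_comm
      rw [← hc']
      exact (Commute.zpow_right (Commute.refl _) c).eq
    have h1 := tri_comm hQ hT (hTN huT) (by rw [← pow_two]; exact hu2) ht htt hua
    have h2 := three_dvd hQ h1
    exact no_three_comm hZ hx₀ hpow ho (hcommH u (hTH huT)) h2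
  -- Step b: maximality of `Q`
  have hmax : ∀ C : Subgroup G, C ≤ H → IsPGroup 2 C → Q ≤ C → C = Q := by
    intro C hCH hC hQC
    by_contra hne
    have hlt : Q < C := lt_of_le_of_ne hQC (Ne.symm hne)
    obtain ⟨v, hvC, hvQ, hvN⟩ := Cfsg.Agent.Lib.PGroup.exists_mem_normalizer_of_lt hC hlt
    obtain ⟨k, hk⟩ := hC ⟨v, hvC⟩
    have hk' : v ^ (2 ^ k) = 1 := congrArg Subtype.val hk
    exact hstepa v hvN (hCH hvC) ⟨k, hk'⟩ hvQ
  -- Step c: an element inverting `x₀`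
  have hpx : IsPGroup 3 (zpowers x₀) := by
    apply IsPGroup.of_card (n := 1)
    rw [Nat.card_zpowers, hx₀, pow_one]
  obtain ⟨S, hS⟩ := hpx.exists_le_sylow
  have hSc : IsCyclic (S : Subgroup G) := hZ.odd_cyclic (by norm_num) S S.isPGroup'
  have hpc : ∀ x ∈ (S : Subgroup G), ∀ z ∈ (S : Subgroup G), x * z = z * x := by
    intro x hx z hz
    have h1 : (⟨x, hx⟩ : (S : Subgroup G)) * ⟨z, hz⟩ = ⟨z, hz⟩ * ⟨x, hx⟩ :=
      (IsCyclic.commutative).is_comm.comm _ _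
    exact congrArg Subtype.val h1
  have hx₀S : x₀ ∈ (S : Subgroup G) := hS (mem_zpowers x₀)
  have hSne : (S : Subgroup G) ≠ ⊥ := by
    intro h0
    rw [h0, mem_bot] at hx₀S
    rw [hx₀S] at hx₀2
    exact hx₀2 (by simp)
  have hnot := perfect_not_le hperf S hSne
  rw [SetLike.not_le_iff_exists] at hnot
  obtain ⟨g, hgN, hgC⟩ := hnot
  have hgx : g * x₀ * g⁻¹ = x₀⁻¹ := by
    have hnc : ¬ g * x₀ = x₀ * g := by
      intro hcomm
      apply hgC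
      apply centr_of_fix_omega S hpc hgN
      intro x hx hx3
      by_cases hx1 : x = 1
      · rw [hx1]; simp
      have hox : orderOf x = 3 := orderOf_eq_prime hx3 hx1
      have h1 := hZ.zp_eq _ S.isPGroup' hx hx₀S hox hx₀
      have h2 : x ∈ zpowers x₀ := by
        rw [← h1]
        exact mem_zpowers _
      obtain ⟨k, hk⟩ := mem_zpowers_iff.mp h2
      rw [← hk]
      exact (Commute.zpow_right (show Commute g x₀ from hcomm) k).eq
    have h1 : g * x₀ * g⁻¹ ∈ (S : Subgroup G) := conj_mem_N hgN hx₀S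
    have h2 : orderOf (g * x₀ * g⁻¹) = 3 := by rw [orderOf_conj', hx₀]
    have h3 := hZ.zp_eq _ S.isPGroup' h1 hx₀S h2 hx₀
    have h4 : g * x₀ * g⁻¹ ∈ zpowers x₀ := by
      rw [← h3]
      exact mem_zpowers _
    have hx₀3 : x₀ ^ 3 = 1 := by
      rw [← hx₀]
      exact pow_orderOf_eq_one x₀
    have hne1 : g * x₀ * g⁻¹ ≠ 1 := by
      intro h0
      rw [h0, orderOf_one] at h2
      omega
    rcases zp3_cases hx₀3 h4 hne1 with h5 | h5
    · exfalso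
      apply hnc
      calc g * x₀ = (g * x₀ * g⁻¹) * g := by group
        _ = x₀ * g := by rw [h5]
    · exact h5
  -- Step d: the `2`-part of `g`
  obtain ⟨m, hm, k, hk⟩ := exists_two_part g
  have hg₂ := inv_of_odd_pow hgx hm
  set g₂ : G := g ^ m with hg₂def
  -- Step e: a Frattini argument
  have hcjH : cj g₂ Q ≤ H := by
    intro x hx
    obtain ⟨q, hq, rfl⟩ := hx
    show g₂ * q * g₂⁻¹ ∈ H
    apply hmemH
    have h1 := hx₀comm q hq
    have h2 : g₂ * x₀⁻¹ * g₂⁻¹ = x₀ := by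
      have : g₂ * x₀⁻¹ * g₂⁻¹ = (g₂ * x₀ * g₂⁻¹)⁻¹ := by group
      rw [this, hg₂, inv_inv]
    have h3 : q * x₀⁻¹ = x₀⁻¹ * q := by
      have : Commute q x₀ := h1
      exact (this.inv_right).eq
    calc g₂ * q * g₂⁻¹ * x₀ = g₂ * q * g₂⁻¹ * (g₂ * x₀⁻¹ * g₂⁻¹) := by rw [h2]
      _ = g₂ * (q * x₀⁻¹) * g₂⁻¹ := by group
      _ = g₂ * (x₀⁻¹ * q) * g₂⁻¹ := by rw [h3]
      _ = (g₂ * x₀⁻¹ * g₂⁻¹) * (g₂ * q * g₂⁻¹) := by group
      _ = x₀ * (g₂ * q * g₂⁻¹) := by rw [h2]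
  have hcjp : IsPGroup 2 (cj g₂ Q) := (hQ.cj g₂).isPGroup
  obtain ⟨n, hnH, hn⟩ := sylow_conj_in H 2 hQH hcjH hQ.isPGroup hcjp hmax
  rw [← cj_mul] at hn
  have hw₁ : n * g₂ ∈ normalizer (Q : Set G) := by
    apply normalizer_of_cj_eq
    apply eq_of_le_of_card_ge hn
    rw [card_cj]
  have hw₁x : (n * g₂) * x₀ * (n * g₂)⁻¹ = x₀⁻¹ := by
    have e1 : (n * g₂) * x₀ * (n * g₂)⁻¹ = n * (g₂ * x₀ * g₂⁻¹) * n⁻¹ := by group
    rw [e1, hg₂]
    have h1 : Commute n x₀ := hcommH n hnH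
    have h2 := h1.inv_right
    calc n * x₀⁻¹ * n⁻¹ = x₀⁻¹ * n * n⁻¹ := by rw [h2.eq]
      _ = x₀⁻¹ := by group
  -- Step f: the `2`-part again
  obtain ⟨m', hm', k', hk'⟩ := exists_two_part (n * g₂)
  refine ⟨(n * g₂) ^ m', pow_mem hw₁ _, ?_, ⟨k', hk'⟩, inv_of_odd_pow hw₁x hm'⟩
  intro hmem
  have h1 := hx₀comm _ hmem
  have h2 := inv_of_odd_pow hw₁x hm'
  apply hx₀2
  have h3 : x₀ = x₀⁻¹ := by
    rw [← h2, h1]
    group
  rw [pow_two]
  nth_rewrite 1 [h3]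
  group

/-- All `2`-elements outside `Q` invert some element of order three of the centraliser. -/
theorem type2_all (hZ : ZH G) {Q : Subgroup G} (hQ : IsQ8 Q) {w x₀ : G}
    (hw : w ∈ normalizer (Q : Set G)) (hwQ : w ∉ Q) (hw2 : ∃ k, w ^ (2 ^ k) = 1)
    (hx₀ : orderOf x₀ = 3) (hx₀C : x₀ ∈ centralizer (Q : Set G)) (hinv : w * x₀ * w⁻¹ = x₀⁻¹)
    {v : G} (hv : v ∈ normalizer (Q : Set G)) (hvQ : v ∉ Q) (hv2 : ∃ k, v ^ (2 ^ k) = 1) :
    ∃ x₁ : G, orderOf x₁ = 3 ∧ x₁ ∈ centralizer (Q : Set G) ∧ v * x₁ * v⁻¹ = x₁⁻¹ := by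
  haveI : Fact (Nat.Prime 2) := ⟨Nat.prime_two⟩
  have hx₀comm : ∀ q ∈ Q, q * x₀ = x₀ * q := fun q hq => mem_centralizer_iff.mp hx₀C q hq
  have hP : ∀ {b : G}, b ∈ normalizer (Q : Set G) → (∃ k, b ^ (2 ^ k) = 1) →
      IsPGroup 2 (Q ⊔ zpowers b : Subgroup G) ∧ (Q ⊔ zpowers b : Subgroup G) ≤ normalizer (Q : Set G) ∧
        b ∈ (Q ⊔ zpowers b : Subgroup G) := by
    intro b hb hb2
    exact ⟨isPGroup_sup_zpowers hQ.isPGroup hb hb2, sup_le le_normalizer (zpowers_le.mpr hb),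
      (le_sup_right : zpowers b ≤ _) (mem_zpowers b)⟩
  obtain ⟨hP₁, hN₁, hwP⟩ := hP hw hw2
  obtain ⟨hP₂, hN₂, hvP⟩ := hP hv hv2
  have hne₁ : Q ≠ (Q ⊔ zpowers w : Subgroup G) := fun he => hwQ (he ▸ hwP)
  obtain ⟨u₁, -, huQ, -, -, -, -, hc₁, hidx⟩ := L_quat hZ hQ hP₁ le_sup_left hne₁ hN₁
  have hmax : ∀ C : Subgroup G, C ≤ normalizer (Q : Set G) → IsPGroup 2 C →
      (Q ⊔ zpowers w : Subgroup G) ≤ C → C = (Q ⊔ zpowers w : Subgroup G) := by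
    intro C hCN hC hle
    have hQC : Q ≤ C := le_sup_left.trans hle
    have hneC : Q ≠ C := fun he => hwQ (he ▸ hle hwP)
    obtain ⟨-, -, -, -, -, -, -, hc, -⟩ := L_quat hZ hQ hC hQC hneC hCN
    exact (eq_of_le_of_card_ge hle (by rw [hc, hc₁])).symm
  obtain ⟨n, hnN, hn⟩ := sylow_conj_in (normalizer (Q : Set G)) 2 hN₁ hN₂ hP₁ hP₂ hmax
  have hv' : n * v * n⁻¹ ∈ (Q ⊔ zpowers w : Subgroup G) := hn (conj_mem_cj hvP)
  have hv'Q : n * v * n⁻¹ ∉ Q := by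
    intro h0
    apply hvQ
    have h1 := (mem_normalizer_iff.mp hnN v).mpr h0
    exact h1
  have h1 := hidx _ hv' hv'Q
  have h2 := hidx _ hwP hwQ
  have h3 : w * (n * v * n⁻¹)⁻¹ ∈ Q := by
    have e1 : w * (n * v * n⁻¹)⁻¹ = (u₁ * w⁻¹)⁻¹ * (u₁ * (n * v * n⁻¹)⁻¹) := by group
    rw [e1]
    exact mul_mem (inv_mem h2) h1
  have h4 := hx₀comm _ (inv_mem h3)
  have hv'x : (n * v * n⁻¹) * x₀ * (n * v * n⁻¹)⁻¹ = x₀⁻¹ := by
    have e1 : n * v * n⁻¹ = (w * (n * v * n⁻¹)⁻¹)⁻¹ * w := by group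
    set q := (w * (n * v * n⁻¹)⁻¹)⁻¹ with hq
    have hqinv : q * x₀⁻¹ = x₀⁻¹ * q := by
      have : Commute q x₀ := h4
      exact this.inv_right.eq
    rw [e1]
    have e2 : q * w * x₀ * (q * w)⁻¹ = q * (w * x₀ * w⁻¹) * q⁻¹ := by group
    rw [e2, hinv, hqinv]
    group
  refine ⟨n⁻¹ * x₀ * n, ?_, ?_, ?_⟩
  · have := orderOf_conj' n⁻¹ x₀
    rw [inv_inv] at this
    rw [this, hx₀]
  · rw [mem_centralizer_iff]
    intro q hq
    have h5 := hx₀comm _ (conj_mem_N hnN hq)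
    have e1 : n * q * n⁻¹ * x₀ = x₀ * (n * q * n⁻¹) := h5
    have e2 : q * (n⁻¹ * x₀ * n) = n⁻¹ * (n * q * n⁻¹ * x₀) * n := by group
    have e3 : (n⁻¹ * x₀ * n) * q = n⁻¹ * (x₀ * (n * q * n⁻¹)) * n := by group
    rw [e2, e3, e1]
  · have e1 : v * (n⁻¹ * x₀ * n) * v⁻¹ =
        n⁻¹ * ((n * v * n⁻¹) * x₀ * (n * v * n⁻¹)⁻¹) * n := by group
    rw [e1, hv'x]
    group

/-- A cycling element of order three. -/
def TypeI (Q : Subgroup G) : Prop := ∃ y, Tri Q y ∧ y ^ 3 = 1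

/-- The alternative: elements of order three in the centraliser. -/
def TypeII (Q : Subgroup G) : Prop :=
  (∃ x₀ : G, orderOf x₀ = 3 ∧ x₀ ∈ centralizer (Q : Set G)) ∧
    ∀ v ∈ normalizer (Q : Set G), v ∉ Q → (∃ k, v ^ (2 ^ k) = 1) →
      ∃ x₁ : G, orderOf x₁ = 3 ∧ x₁ ∈ centralizer (Q : Set G) ∧ v * x₁ * v⁻¹ = x₁⁻¹

theorem type_cases (hZ : ZH G) (hperf : _root_.commutator G = ⊤) {Q : Subgroup G} (hQ : IsQ8 Q)
    (hA : Active Q) :
    TypeI Q ∨ (TypeII Q ∧ ∃ w ∈ normalizer (Q : Set G), w ∉ Q ∧ ∃ k, w ^ (2 ^ k) = 1) := by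
  obtain ⟨y, a, hT, ho⟩ := hA.three hQ
  rcases a with _ | a
  · left
    refine ⟨y, hT, ?_⟩
    have : y ^ orderOf y = 1 := pow_orderOf_eq_one y
    rwa [ho] at this
  · right
    obtain ⟨hx₀, hx₀C, w, hw, hwQ, hw2, hinv⟩ := type2_invert hZ hperf hQ hT ho
    refine ⟨⟨⟨_, hx₀, hx₀C⟩, fun v hv hvQ hv2 => ?_⟩, w, hw, hwQ, hw2⟩
    exact type2_all hZ hQ hw hwQ hw2 hx₀ hx₀C hinv hv hvQ hv2

end Cfsg.Agent.Lib.Zass
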