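import Mathlib
import Cfsg.Agent.Lib.Zass.TypeII

/-!
# An active quaternion subgroup is a Sylow subgroup
-/

set_option autoImplicit false

namespace Cfsg.Agent.Lib.Zass

open Subgroup Equiv
open scoped commutatorElement

variable {G : Type*} [Group G]

/-- A central element of a generalised quaternion group has square one, or the group has order 4. -/
theorem quat_central_sq {N : ℕ} [NeZero N] (q : QuaternionGroup N)
    (hq : ∀ x, x * q = q * x) : q ^ 2 = 1 ∨ N = 1 := by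
  haveI : NeZero (2 * N) := ⟨by have := NeZero.ne N; omega⟩
  cases q with
  | a i =>
    left
    have h1 := hq (QuaternionGroup.xa 0)
    rw [QuaternionGroup.xa_mul_a, QuaternionGroup.a_mul_xa] at h1
    have h2 : 0 + i = 0 - i := QuaternionGroup.xa.inj h1
    rw [pow_two, QuaternionGroup.a_mul_a, QuaternionGroup.one_def]
    congr 1
    have h3 : i + i = (0 + i) - (0 - i) := by ring
    rw [h3, h2, sub_self]
  | xa i =>
    right
    have h1 := hq (QuaternionGroup.a 1)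
    rw [QuaternionGroup.a_mul_xa, QuaternionGroup.xa_mul_a] at h1
    have h2 : i - 1 = i + 1 := QuaternionGroup.xa.inj h1
    have h3 : (2 : ZMod (2 * N)) = 0 := by
      have : (2 : ZMod (2 * N)) = (i + 1) - (i - 1) := by ring
      rw [this, h2, sub_self]
    have h4 : ((2 : ℕ) : ZMod (2 * N)) = 0 := by exact_mod_cast h3
    rw [ZMod.natCast_eq_zero_iff] at h4
    have h5 := Nat.le_of_dvd (by norm_num) h4
    have := NeZero.ne N
    omega

variable [Finite G]

/-- The odd elements of the centraliser of an element of order four form a subgroup. -/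
theorem exists_M (hZ : ZH G) {s : G} (hs4 : s ^ 4 = 1) (hs2 : s ^ 2 ≠ 1) :
    ∃ M : Subgroup G, M ≤ centralizer ({s} : Set G) ∧
      (∀ c : G, c * s = s * c → Odd (orderOf c) → c ∈ M) ∧ ∀ m ∈ M, Odd (orderOf m) := by
  haveI : Fact (Nat.Prime 2) := ⟨Nat.prime_two⟩
  let C : Subgroup G := centralizer ({s} : Set G)
  have hsC : s ∈ C := by
    rw [mem_centralizer_iff]
    rintro _ rfl
    rfl
  let s' : C := ⟨s, hsC⟩
  have hcen : ∀ x : C, x * s' = s' * x := by
    intro x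
    apply Subtype.ext
    exact (mem_centralizer_iff.mp x.2 s rfl).symm
  -- a Sylow subgroup contains `s`
  obtain ⟨P⟩ : Nonempty (Sylow 2 C) := inferInstance
  have hps : ∃ k, s' ^ (2 ^ k) = 1 := ⟨2, Subtype.ext hs4⟩
  have hsP : s' ∈ (P : Subgroup C) := by
    have hN : s' ∈ normalizer ((P : Subgroup C) : Set C) := by
      rw [mem_normalizer_iff]
      intro h
      have : s' * h * s'⁻¹ = h := by
        rw [← hcen h]; group
      rw [this]
    have hle : IsPGroup 2 ((P : Subgroup C) ⊔ zpowers s' : Subgroup C) :=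
      isPGroup_sup_zpowers P.isPGroup' hN hps
    have he := P.is_maximal' hle le_sup_left
    rw [← he]
    exact (le_sup_right : zpowers s' ≤ _) (mem_zpowers s')
  -- the Sylow subgroup is cyclic
  have hPc : IsCyclic (P : Subgroup C) := by
    let R : Subgroup G := (P : Subgroup C).map C.subtype
    have hR : IsPGroup 2 R := P.isPGroup'.map C.subtype
    let eR := (P : Subgroup C).equivMapOfInjective C.subtype C.subtype_injective
    have hback : IsCyclic R → IsCyclic (P : Subgroup C) := fun h =>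
      isCyclic_of_injective eR.toMonoidHom eR.injective
    apply hback
    rcases hZ.cyc_or_quat R hR with hc | ⟨-, n, ⟨e⟩⟩
    · exact hc
    · haveI : NeZero (2 ^ n) := ⟨by positivity⟩
      have hsR : s ∈ R := ⟨s', hsP, rfl⟩
      have hq : ∀ x, x * e ⟨s, hsR⟩ = e ⟨s, hsR⟩ * x := by
        intro x
        obtain ⟨r, rfl⟩ := e.surjective x
        rw [← map_mul, ← map_mul]
        congr 1
        apply Subtype.ext
        obtain ⟨r', _, hr'⟩ := r.2
        show (r : G) * s = s * r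
        rw [← hr']
        exact (mem_centralizer_iff.mp r'.2 s rfl).symm
      rcases quat_central_sq _ hq with h1 | h1
      · exfalso
        apply hs2
        rw [← map_pow] at h1
        have h2 := e.injective (h1.trans (map_one e).symm)
        exact congrArg Subtype.val h2
      · have hn : n = 0 := by
          by_contra hn
          have : 2 ≤ 2 ^ n := by
            calc 2 = 2 ^ 1 := rfl
              _ ≤ 2 ^ n := Nat.pow_le_pow_right (by norm_num) (Nat.pos_of_ne_zero hn)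
          omega
        subst hn
        have hcard : Nat.card R = 2 ^ 2 := by
          rw [Nat.card_congr e.toEquiv, Classical.Quat.card_quaternion]
          norm_num
        have hcomm := IsPGroup.commutative_of_card_eq_prime_sq hcard
        exact hZ.ab R ⟨⟨hcomm⟩⟩
  have hcardC : 2 ∣ Nat.card C := by
    have h1 := orderOf_dvd_natCard s'
    have h2 : orderOf s' = 4 := by
      rw [Subgroup.orderOf_mk]
      have : orderOf s = 2 ^ (1 + 1) :=
        orderOf_eq_prime_pow (p := 2) (n := 1) (by simpa using hs2) (by simpa using hs4)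
      simpa using this
    rw [h2] at h1
    exact (by norm_num : (2 : ℕ) ∣ 4).trans h1
  have hmin : (Nat.card C).minFac = 2 := Nat.minFac_eq_two_iff _ |>.mpr hcardC
  have hNC := hPc.normalizer_le_centralizer hmin
  haveI : IsMulCommutative (P : Subgroup C) :=
    ⟨⟨fun a b => Subtype.ext (hNC (le_normalizer b.2) a a.2)⟩⟩
  let φ := MonoidHom.transferSylow P hNC
  refine ⟨φ.ker.map C.subtype, map_subtype_le _, ?_, ?_⟩
  · intro c hc hodd
    have hcC : c ∈ C := by
      rw [mem_centralizer_iff]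
      rintro _ rfl
      exact hc.symm
    refine ⟨⟨c, hcC⟩, ?_, rfl⟩
    rw [SetLike.mem_coe, MonoidHom.mem_ker]
    obtain ⟨k, hk⟩ := IsPGroup.iff_orderOf.mp P.isPGroup' (φ ⟨c, hcC⟩)
    have h1 : orderOf (φ ⟨c, hcC⟩) ∣ orderOf c := by
      have h0 := orderOf_map_dvd φ (⟨c, hcC⟩ : C)
      rwa [show orderOf (⟨c, hcC⟩ : C) = orderOf c from Subgroup.orderOf_mk c hcC] at h0
    have h2 : Odd (orderOf (φ ⟨c, hcC⟩)) := Odd.of_dvd_nat hodd h1
    rcases k with _ | k
    · rw [pow_zero] at hk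
      exact orderOf_eq_one_iff.mp hk
    · exfalso
      rw [hk, pow_succ] at h2
      exact (Nat.not_even_iff_odd.mpr h2) ⟨2 ^ k, by ring⟩
  · rintro _ ⟨x, hx, rfl⟩
    have h1 : orderOf (⟨x, hx⟩ : φ.ker) ∣ Nat.card φ.ker := orderOf_dvd_natCard _
    have h2 : orderOf (⟨x, hx⟩ : φ.ker) = orderOf (C.subtype x) := by
      rw [Subgroup.orderOf_mk]
      exact (Subgroup.orderOf_coe x).symm
    rw [h2] at h1
    have h3 := MonoidHom.not_dvd_card_ker_transferSylow P hNC
    apply Nat.not_even_iff_odd.mp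
    rintro ⟨m, hm⟩
    apply h3
    have h4 : (2 : ℕ) ∣ orderOf (C.subtype x) := ⟨m, by omega⟩
    exact h4.trans h1

/-- Case of two subgroups with centralising elements of order three. -/
theorem case_two (hZ : ZH G) {u t x₀ x₁ : G} (h : Cfg u t) (hx₀ : orderOf x₀ = 3)
    (hx₀C : x₀ ∈ centralizer ((Qq u t : Subgroup G) : Set G)) (hx₁ : orderOf x₁ = 3)
    (hx₁s : x₁ * u ^ 2 = u ^ 2 * x₁) (hx₁t : t * x₁ * t⁻¹ = x₁⁻¹) : False := by
  haveI : Fact (Nat.Prime 3) := ⟨Nat.prime_three⟩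
  obtain ⟨M, hMC, hM1, hM2⟩ := exists_M hZ h.qp.s4 h.qp.s2
  have hodd3 : Odd 3 := by decide
  have hx₀s : x₀ * u ^ 2 = u ^ 2 * x₀ := (mem_centralizer_iff.mp hx₀C _ h.s_mem).symm
  have hx₀t : t * x₀ = x₀ * t := mem_centralizer_iff.mp hx₀C _ h.t_mem
  have hx₀M : x₀ ∈ M := hM1 x₀ hx₀s (by rw [hx₀]; exact hodd3)
  have hx₁M : x₁ ∈ M := hM1 x₁ hx₁s (by rw [hx₁]; exact hodd3)
  obtain ⟨m, hm, hmx⟩ := hZ.conj_prime M hx₀M hx₁M hx₀ hx₁
  -- `t` normalises `M`
  have hcomm_m : m * u ^ 2 = u ^ 2 * m := (mem_centralizer_iff.mp (hMC hm) _ rfl).symm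
  have htmt : t * m * t⁻¹ ∈ M := by
    apply hM1
    · have hts := h.qp.ts
      have e1 : t⁻¹ * u ^ 2 * t = (u ^ 2)⁻¹ := by
        have e2 : t * (u ^ 2)⁻¹ * t⁻¹ = u ^ 2 := by
          have : t * (u ^ 2)⁻¹ * t⁻¹ = (t * u ^ 2 * t⁻¹)⁻¹ := by group
          rw [this, hts, inv_inv]
        calc t⁻¹ * u ^ 2 * t = t⁻¹ * (t * (u ^ 2)⁻¹ * t⁻¹) * t := by rw [e2]
          _ = (u ^ 2)⁻¹ := by group
      have e3 : Commute m (u ^ 2)⁻¹ := (show Commute m (u ^ 2) from hcomm_m).inv_right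
      calc t * m * t⁻¹ * u ^ 2 = t * m * (t⁻¹ * u ^ 2 * t) * t⁻¹ := by group
        _ = t * (m * (u ^ 2)⁻¹) * t⁻¹ := by rw [e1]; group
        _ = t * ((u ^ 2)⁻¹ * m) * t⁻¹ := by rw [e3.eq]
        _ = (t * (u ^ 2)⁻¹ * t⁻¹) * (t * m * t⁻¹) := by group
        _ = (t * u ^ 2 * t⁻¹)⁻¹ * (t * m * t⁻¹) := by group
        _ = u ^ 2 * (t * m * t⁻¹) := by rw [hts, inv_inv]
    · rw [orderOf_conj']
      exact hM2 m hm
  have hf : m⁻¹ * (t * m * t⁻¹) ∈ M := mul_mem (inv_mem hm) htmt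
  have hfo := hM2 _ hf
  have hx₀2 : x₀ ^ 2 ≠ 1 := by
    intro h0
    have h1 := orderOf_dvd_of_pow_eq_one h0
    rw [hx₀] at h1
    omega
  apply not_inv_of_odd (g := m⁻¹ * (t * m * t⁻¹)) (x := x₀) ?_ hfo hx₀2
  -- the computation
  have hw : t * (m * x₀ * m⁻¹) * t⁻¹ = (m * x₀ * m⁻¹)⁻¹ := by
    obtain ⟨k, hk⟩ := mem_zpowers_iff.mp hmx
    rw [← hk, ← conj_zpow, hx₁t, inv_zpow]
  have hx₀t' : t⁻¹ * x₀ * t = x₀ := by
    calc t⁻¹ * x₀ * t = t⁻¹ * (x₀ * t) := by group
      _ = t⁻¹ * (t * x₀) := by rw [hx₀t]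
      _ = x₀ := by group
  calc m⁻¹ * (t * m * t⁻¹) * x₀ * (m⁻¹ * (t * m * t⁻¹))⁻¹
      = m⁻¹ * t * m * (t⁻¹ * x₀ * t) * m⁻¹ * t⁻¹ * m := by group
    _ = m⁻¹ * (t * (m * x₀ * m⁻¹) * t⁻¹) * m := by rw [hx₀t']; group
    _ = x₀⁻¹ := by rw [hw]; group

/-- Mixed case: centralising elements of order three on one side and an element of order three
cycling on the other side. -/
theorem case_mixed (hZ : ZH G) {u t : G} (h : Cfg u t) (h2 : TypeII (Qq u t))
    (h1 : TypeI (Qq u (t * u))) : False := by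
  have h' : Cfg u (t * u) := by simpa using h.tk 1
  obtain ⟨y', hy', hy'3⟩ := h1
  have hc := cyc3_of_tri h'.isQ8 hy' hy'3 h'.s_mem h'.qp.s2
  have hg₀ := hy'.2 _ h'.s_mem h'.qp.s2
  have hg₀Q : y' * u ^ 2 * y'⁻¹ ∈ Qq u (t * u) := conj_mem_N hy'.1 h'.s_mem
  obtain ⟨k, -, hk, hform⟩ := h'.mem_Qq_t hg₀Q hg₀
  have hform' : y' * u ^ 2 * y'⁻¹ = t * u ^ (k + 1) := by
    rw [hform, pow_succ']
    group
  have hodd : Odd (k + 1) := hk.add_one
  have hcfg : Cfg u (y' * u ^ 2 * y'⁻¹) := by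
    rw [hform']
    exact h.tk _
  have hN : y' * u ^ 2 * y'⁻¹ ∈ normalizer ((Qq u t : Subgroup G) : Set G) := by
    rw [hform']
    exact mul_mem (le_normalizer h.t_mem) (pow_mem h.u_mem_N _)
  have hnot : y' * u ^ 2 * y'⁻¹ ∉ Qq u t := by
    rw [hform']
    exact h.t_odd_not_mem hodd
  have h4 : ∃ j, (y' * u ^ 2 * y'⁻¹) ^ (2 ^ j) = 1 := by
    refine ⟨2, ?_⟩
    have := hcfg.qp.t2
    rw [show (2 : ℕ) ^ 2 = 2 * 2 by norm_num, pow_mul, this, ← pow_mul]
    exact hcfg.qp.s4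
  obtain ⟨x₁, hx₁, hx₁C, hinv⟩ := h2.2 _ hN hnot h4
  have hx₁s : x₁ * u ^ 2 = u ^ 2 * x₁ := (mem_centralizer_iff.mp hx₁C _ h.s_mem).symm
  have hone := hZ.app1 hcfg.qp hc hx₁s hinv (by rw [hx₁]; decide)
  rw [hone, orderOf_one] at hx₁
  omega

/-- The main case: two subgroups with elements of order three cycling them. -/
theorem case_I_I (hZ : ZH G) {u t : G} (h : Cfg u t) (h1 : TypeI (Qq u t))
    (h2 : TypeI (Qq u (t * u))) : False := by
  have h' : Cfg u (t * u) := by simpa using h.tk 1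
  obtain ⟨y, hy, hy3⟩ := h1
  obtain ⟨y', hy', hy'3⟩ := h2
  have hc := cyc3_of_tri h.isQ8 hy hy3 h.s_mem h.qp.s2
  have hc' := cyc3_of_tri h'.isQ8 hy' hy'3 h'.s_mem h'.qp.s2
  obtain ⟨c, hc8, hcev, hform⟩ := h.mem_Qq_t (conj_mem_N hy.1 h.s_mem) (hy.2 _ h.s_mem h.qp.s2)
  obtain ⟨k, -, hk, hform'⟩ := h'.mem_Qq_t (conj_mem_N hy'.1 h'.s_mem) (hy'.2 _ h'.s_mem h'.qp.s2)
  set t₀ := y * u ^ 2 * y⁻¹ with ht₀
  have hcfg : Cfg u t₀ := by
    rw [hform]
    exact h.tk c
  have he : y' * u ^ 2 * y'⁻¹ = t₀ * u ^ ((k + 1) + (8 - c)) := by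
    rw [hform', hform]
    have e : c + ((k + 1) + (8 - c)) = 8 + (k + 1) := by omega
    calc t * u * u ^ k = t * (u ^ 8 * u ^ (k + 1)) := by rw [h.u8, one_mul, pow_succ']; group
      _ = t * u ^ (8 + (k + 1)) := by rw [← pow_add]
      _ = t * u ^ (c + ((k + 1) + (8 - c))) := by rw [e]
      _ = t * u ^ c * u ^ ((k + 1) + (8 - c)) := by rw [pow_add]; group
  have hodd : Odd ((k + 1) + (8 - c)) := by
    have h3 : Even (8 - c) := by
      obtain ⟨m, rfl⟩ := hcev
      exact Nat.even_iff.mpr (by omega)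
    exact hk.add_one.add_even h3
  rw [he] at hc'
  exact hZ.app2 hodd h.u8 h.u4 hcfg.t2 hcfg.tu hc hc'

/-- The first theorem: an active quaternion subgroup has no `2`-element outside it in its
normaliser. -/
theorem no_two_element (hZ : ZH G) (hperf : _root_.commutator G = ⊤) {Q : Subgroup G} (hQ : IsQ8 Q)
    (hA : Active Q) {v : G} (hv : v ∈ normalizer (Q : Set G)) (hvQ : v ∉ Q)
    (hv2 : ∃ k, v ^ (2 ^ k) = 1) : False := by
  have hTp : IsPGroup 2 (Q ⊔ zpowers v : Subgroup G) := by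
    haveI : Fact (Nat.Prime 2) := ⟨Nat.prime_two⟩
    exact isPGroup_sup_zpowers hQ.isPGroup hv hv2
  have hTN : (Q ⊔ zpowers v : Subgroup G) ≤ normalizer (Q : Set G) :=
    sup_le le_normalizer (zpowers_le.mpr hv)
  have hne : Q ≠ (Q ⊔ zpowers v : Subgroup G) := by
    intro he
    apply hvQ
    rw [he]
    exact (le_sup_right : zpowers v ≤ _) (mem_zpowers v)
  obtain ⟨u, -, -, hu2, -, hu4, hcfg, -, -⟩ := L_quat hZ hQ hTp le_sup_left hne hTN
  have hu22 : (u ^ 2) ^ 2 ≠ 1 := by rw [← pow_mul]; exact hu4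
  obtain ⟨t, ht, htn⟩ := hQ.exists_other hu2 hu22
  have h := hcfg t ht htn
  have hQe : Qq u t = Q := hQ.eq_closure h.qp hu2 ht
  subst hQe
  have h' : Cfg u (t * u) := by simpa using h.tk 1
  have hA' := partner_active hZ hperf h hA
  have hQ2 : Qq u (t * u * u) = Qq u t := by
    apply h.isQ8.eq_closure
    · simpa using (h'.tk 1).qp
    · exact h.s_mem
    · have e1 : t * u * u = t * u ^ 2 := by rw [pow_two]; group
      rw [e1]
      exact h.t_mul_mem (by decide)
  have hcf2 : Cfg u (t * u * u) := by simpa using h'.tk 1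
  rcases type_cases hZ hperf hQ hA with h1 | ⟨h1, -⟩ <;>
    rcases type_cases hZ hperf h'.isQ8 hA' with h2 | ⟨h2, -⟩
  · exact case_I_I hZ h h1 h2
  · apply case_mixed hZ h' h2
    rw [hQ2]
    exact h1
  · exact case_mixed hZ h h1 h2
  · obtain ⟨⟨x₀, hx₀, hx₀C⟩, -⟩ := h1
    have htN : t ∈ normalizer ((Qq u (t * u) : Subgroup G) : Set G) := by
      have e1 : t = (t * u) * u ^ 7 := by
        have : u ^ 8 = u * u ^ 7 := pow_succ' u 7
        calc t = t * u ^ 8 := by rw [h.u8, mul_one]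
          _ = t * u * u ^ 7 := by rw [this]; group
      have h9 : (t * u) * u ^ 7 ∈ normalizer ((Qq u (t * u) : Subgroup G) : Set G) :=
        mul_mem (le_normalizer h'.t_mem) (pow_mem h'.u_mem_N _)
      rwa [← e1] at h9
    have htQ' : t ∉ Qq u (t * u) := by
      have e1 : t = (t * u) * u ^ 7 := by
        have : u ^ 8 = u * u ^ 7 := pow_succ' u 7
        calc t = t * u ^ 8 := by rw [h.u8, mul_one]
          _ = t * u * u ^ 7 := by rw [this]; group
      have h9 := h'.t_odd_not_mem (k := 7) (by decide)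
      rwa [← e1] at h9
    have ht2 : ∃ j, t ^ (2 ^ j) = 1 := by
      refine ⟨2, ?_⟩
      rw [show (2 : ℕ) ^ 2 = 2 * 2 by norm_num, pow_mul, h.qp.t2, ← pow_mul]
      exact h.qp.s4
    obtain ⟨x₁, hx₁, hx₁C, hinv⟩ := h2.2 t htN htQ' ht2
    have hx₁s : x₁ * u ^ 2 = u ^ 2 * x₁ := (mem_centralizer_iff.mp hx₁C _ h'.s_mem).symm
    exact case_two hZ h hx₀ hx₀C hx₁ hx₁s hinv

/-- An active quaternion subgroup is a Sylow subgroup. -/
theorem active_sylow (hZ : ZH G) (hperf : _root_.commutator G = ⊤) {Q : Subgroup G} (hQ : IsQ8 Q)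
    (hA : Active Q) (S : Sylow 2 G) (hQS : Q ≤ S) : Q = S := by
  by_contra hne
  have hlt : Q < S := lt_of_le_of_ne hQS hne
  obtain ⟨v, hvS, hvQ, hvN⟩ := Cfsg.Agent.Lib.PGroup.exists_mem_normalizer_of_lt S.isPGroup' hlt
  obtain ⟨k, hk⟩ := S.isPGroup' ⟨v, hvS⟩
  exact no_two_element hZ hperf hQ hA hvN hvQ ⟨k, congrArg Subtype.val hk⟩

/-- In an active quaternion subgroup, cycling elements of order a power of three have order three. -/
theorem tri_order_three (hZ : ZH G) (hperf : _root_.commutator G = ⊤) {Q : Subgroup G} (hQ : IsQ8 Q)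
    {y : G} (hT : Tri Q y) {a : ℕ} (ho : orderOf y = 3 ^ a) : y ^ 3 = 1 := by
  have h3 := three_dvd hQ hT
  rw [ho] at h3
  rcases a with _ | _ | a
  · simp at h3
  · rw [← pow_orderOf_eq_one y, ho]
    norm_num
  · exfalso
    obtain ⟨-, -, w, hw, hwQ, hw2, -⟩ := type2_invert hZ hperf hQ hT ho
    exact no_two_element hZ hperf hQ ⟨y, hT⟩ hw hwQ hw2

end Cfsg.Agent.Lib.Zass
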