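import Mathlib
import Cfsg.Agent.Lib.Zass.ThmA

/-!
# Centralisers once the Sylow subgroups are quaternion of order eight
-/

set_option autoImplicit false

namespace Cfsg.Agent.Lib.Zass

open Subgroup Equiv
open scoped commutatorElement

variable {G : Type*} [Group G] [Finite G]

/-- Reduction of commuting to elements of prime power order. -/
theorem comm_of_primepow {c : G} {P : G → Prop} (hpow : ∀ x (k : ℕ), P x → P (x ^ k))
    (hp : ∀ (x : G) (r k : ℕ), P x → r.Prime → orderOf x = r ^ k → x * c = c * x) :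
    ∀ x, P x → x * c = c * x := by
  intro x
  induction hn : orderOf x using Nat.strong_induction_on generalizing x with
  | _ n ih =>
    intro hx
    by_cases hn1 : n = 1
    · subst hn1
      rw [orderOf_eq_one_iff] at hn
      rw [hn]; simp
    have hn0 : n ≠ 0 := by
      rw [← hn]
      exact (orderOf_pos x).ne'
    obtain ⟨r, hr, hrd⟩ : ∃ r, r.Prime ∧ r ∣ n := ⟨n.minFac, Nat.minFac_prime hn1, Nat.minFac_dvd n⟩
    obtain ⟨a, m, ham, hnd, hm, -, ho⟩ := exists_p_part x r hr
    rw [hn] at ham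
    by_cases hm1 : m = 1
    · subst hm1
      exact hp x _ a hx hr (by rw [hn, ham, mul_one])
    have ha : a ≠ 0 := by
      rintro rfl
      rw [pow_zero, one_mul] at ham
      rw [← ham] at hnd
      exact hnd hrd
    have hpa : 1 < r ^ a := Nat.one_lt_pow ha hr.one_lt
    have hm2 : 1 < m := by omega
    have hlt1 : orderOf (x ^ m) < n := by
      rw [ho, ham]
      exact lt_mul_of_one_lt_right (by positivity) hm2
    have hlt2 : orderOf (x ^ (r ^ a)) < n := by
      have ho2 : orderOf (x ^ (r ^ a)) = m := by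
        rw [orderOf_pow' x (by positivity), hn, ham, Nat.gcd_eq_right (Dvd.intro _ rfl)]
        exact Nat.mul_div_cancel_left m (by positivity)
      rw [ho2, ham]
      exact lt_mul_of_one_lt_left hm hpa
    have h1 := ih _ hlt1 (x ^ m) rfl (hpow x m hx)
    have h2 := ih _ hlt2 (x ^ (r ^ a)) rfl (hpow x _ hx)
    have hcop : Nat.Coprime (r ^ a) m :=
      Nat.Coprime.pow_left _ ((Nat.Prime.coprime_iff_not_dvd hr).mpr hnd)
    have hb := Nat.gcd_eq_gcd_ab (r ^ a) m
    rw [hcop.gcd_eq_one] at hb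
    have hx' : x = (x ^ (r ^ a)) ^ (Nat.gcdA (r ^ a) m) *
        (x ^ m) ^ (Nat.gcdB (r ^ a) m) := by
      rw [← zpow_natCast, ← zpow_natCast, ← zpow_mul, ← zpow_mul, ← zpow_add, ← hb]
      simp
    have hc1 : Commute (x ^ (r ^ a)) c := h2
    have hc2 : Commute (x ^ m) c := h1
    have := ((hc1.zpow_left (Nat.gcdA (r ^ a) m)).mul_left
      (hc2.zpow_left (Nat.gcdB (r ^ a) m))).eq
    rwa [← hx'] at this

/-- An element of prime power order normalising a subgroup of prime order and not dividing the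
order of its automorphism group centralises it. -/
theorem comm_of_coprime_aut {c x : G} {p r k : ℕ} [hp : Fact p.Prime]
    (hc : orderOf c = p) (hx : x ∈ normalizer ((zpowers c : Subgroup G) : Set G))
    (hr : r.Prime) (ho : orderOf x = r ^ k) (hnd : ¬ r ∣ p - 1) : x * c = c * x := by
  classical
  set D : Subgroup G := zpowers c with hD
  set ψ := D.normalizerMonoidHom ⟨x, hx⟩ with hψ
  have h1 : orderOf ψ ∣ orderOf x := by
    have := orderOf_map_dvd D.normalizerMonoidHom (⟨x, hx⟩ : normalizer (D : Set G))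
    rwa [Subgroup.orderOf_mk] at this
  have h2 : orderOf ψ ∣ p - 1 := by
    have hcard : Nat.card D = p := by rw [hD, Nat.card_zpowers, hc]
    have h3 := orderOf_dvd_natCard ψ
    rw [IsCyclic.card_mulAut, hcard, Nat.totient_prime hp.out] at h3
    exact h3
  have h4 : Nat.Coprime (orderOf x) (p - 1) := by
    rw [ho]
    exact Nat.Coprime.pow_left _ ((Nat.Prime.coprime_iff_not_dvd hr).mpr hnd)
  have h5 : orderOf ψ = 1 := Nat.eq_one_of_dvd_coprimes h4 h1 h2
  have h6 : ψ = 1 := orderOf_eq_one_iff.mp h5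
  have h7 := congrArg (fun f : MulAut D => ((f ⟨c, mem_zpowers c⟩ : D) : G)) h6
  have h8 : x * c * x⁻¹ = c := h7
  calc x * c = (x * c * x⁻¹) * x := by group
    _ = c * x := by rw [h8]

/-- Sylow subgroups of the group are all quaternion of order eight and active. -/
theorem coe_smul_sylow {p : ℕ} (g : G) (P : Sylow p G) : ((g • P : Sylow p G) : Subgroup G) = cj g P := by
  ext x
  rw [mem_cj, Sylow.coe_subgroup_smul, Subgroup.mem_pointwise_smul_iff_inv_smul_mem]
  rw [MulAut.smul_def, MulAut.conj_inv_apply]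

/-- The data on Sylow `2`-subgroups of the group. -/
structure SA (G : Type*) [Group G] [Finite G] : Prop where
  q8 : ∀ S : Sylow 2 G, IsQ8 (S : Subgroup G)
  act : ∀ S : Sylow 2 G, Active (S : Subgroup G)
  in2 : ∀ (S : Sylow 2 G) (v : G), v ∈ normalizer ((S : Subgroup G) : Set G) → (∃ k, v ^ (2 ^ k) = 1) →
    v ∈ (S : Subgroup G)
  tri3 : ∀ (S : Sylow 2 G) (y : G) (a : ℕ), Tri (S : Subgroup G) y → orderOf y = 3 ^ a → y ^ 3 = 1

theorem sa_of (hZ : ZH G) (hperf : _root_.commutator G = ⊤) (hne : Nontrivial G) : SA G := by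
  haveI : Fact (Nat.Prime 2) := ⟨Nat.prime_two⟩
  obtain ⟨Q, hQ, hA⟩ := exists_active hZ hperf hne
  obtain ⟨S₀, hS₀⟩ := hQ.isPGroup.exists_le_sylow
  have hQe := active_sylow hZ hperf hQ hA S₀ hS₀
  have hq8 : ∀ S : Sylow 2 G, IsQ8 (S : Subgroup G) := by
    intro S
    obtain ⟨g, rfl⟩ := MulAction.exists_smul_eq G S₀ S
    rw [coe_smul_sylow, ← hQe]
    exact hQ.cj g
  have hact : ∀ S : Sylow 2 G, Active (S : Subgroup G) := by
    intro S
    obtain ⟨g, rfl⟩ := MulAction.exists_smul_eq G S₀ S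
    rw [coe_smul_sylow, ← hQe]
    exact hA.cj g
  refine ⟨hq8, hact, ?_, ?_⟩
  · intro S v hv hv2
    by_contra hvS
    exact no_two_element hZ hperf (hq8 S) (hact S) hv hvS hv2
  · intro S y a hT ho
    exact tri_order_three hZ hperf (hq8 S) hT ho

omit [Finite G] in
/-- A central element of a quaternion subgroup has square one. -/
theorem central_in_Q {Q : Subgroup G} (hQ : IsQ8 Q) {c : G} (hc : c ∈ Q)
    (hcC : c ∈ centralizer (Q : Set G)) : c ^ 2 = 1 := by
  by_contra h2
  obtain ⟨t, ht, htn⟩ := hQ.exists_other hc h2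
  have hq := (hQ.pair hc h2 ht htn).1
  exact hq.not_comm (mem_centralizer_iff.mp hcC t ht)

section PhaseB

variable (hZ : ZH G) (hperf : _root_.commutator G = ⊤) (hSA : SA G)
include hZ hperf hSA

/-- The centraliser of a Sylow `2`-subgroup consists of elements of square one. -/
theorem cent_sq (S : Sylow 2 G) {c : G} (hc : c ∈ centralizer ((S : Subgroup G) : Set G)) :
    c ^ 2 = 1 := by
  classical
  by_contra hc2
  have hQ := hSA.q8 S
  set Q : Subgroup G := S.toSubgroup with hQdef
  have hCN : ∀ x ∈ centralizer (Q : Set G), x ∈ normalizer (Q : Set G) := by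
    intro x hx
    rw [mem_normalizer_iff]
    intro h
    constructor
    · intro hh
      have : x * h * x⁻¹ = h := by
        rw [← mem_centralizer_iff.mp hx h hh]; group
      rwa [this]
    · intro hh
      have h1 : x⁻¹ * (x * h * x⁻¹) * x = x * h * x⁻¹ := by
        have h2 := mem_centralizer_iff.mp (inv_mem hx) _ hh
        rw [← h2]
        group
      have h3 : x⁻¹ * (x * h * x⁻¹) * x = h := by group
      rw [← h3, h1]
      exact hh
  have h2elt : ∀ x ∈ centralizer (Q : Set G), (∃ k, x ^ (2 ^ k) = 1) → x ^ 2 = 1 := by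
    intro x hx hk
    exact central_in_Q hQ (hSA.in2 S x (hCN x hx) hk) hx
  -- an odd prime divides the order of the centraliser
  have hex : ∃ p, p.Prime ∧ p ≠ 2 ∧ p ∣ Nat.card (centralizer (Q : Set G)) := by
    by_contra hno
    push Not at hno
    obtain ⟨a, m, ham, hnd, hm, -, -⟩ := exists_p_part c 2 Nat.prime_two
    by_cases hm1 : m = 1
    · subst hm1
      apply hc2
      apply h2elt c hc
      refine ⟨a, ?_⟩
      rw [← mul_one (2 ^ a), ← ham, pow_orderOf_eq_one]
    · have hr := Nat.minFac_prime hm1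
      have hrd : m.minFac ∣ m := Nat.minFac_dvd m
      have hr2 : m.minFac ≠ 2 := by
        intro h0
        rw [h0] at hrd
        exact hnd hrd
      apply hno _ hr hr2
      have h1 : m ∣ orderOf c := Dvd.intro_left _ ham.symm
      have h3 : orderOf c = orderOf (⟨c, hc⟩ : centralizer (Q : Set G)) := (Subgroup.orderOf_mk c hc).symm
      rw [h3] at h1
      exact (hrd.trans h1).trans (orderOf_dvd_natCard _)
  set p := Nat.find hex with hpdef
  obtain ⟨hp, hp2, hpd⟩ := Nat.find_spec hex
  have hpmin : ∀ r, r.Prime → r ≠ 2 → r ∣ Nat.card (centralizer (Q : Set G)) → p ≤ r := fun r h1 h2 h3 =>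
    Nat.find_min' hex ⟨h1, h2, h3⟩
  haveI : Fact p.Prime := ⟨hp⟩
  obtain ⟨c₀', hc₀'⟩ := exists_prime_orderOf_dvd_card' p hpd
  set c₀ : G := (c₀' : G) with hc₀def
  have hc₀ : orderOf c₀ = p := by rw [hc₀def, Subgroup.orderOf_coe]; exact hc₀'
  have hc₀C : c₀ ∈ centralizer (Q : Set G) := c₀'.2
  have hc₀q : ∀ q ∈ Q, q * c₀ = c₀ * q := fun q hq => mem_centralizer_iff.mp hc₀C q hq
  -- elements of the normaliser of `Q`
  have hkey : ∀ w, (w ∈ normalizer (Q : Set G) ∧ w ∈ normalizer ((zpowers c₀ : Subgroup G) : Set G)) →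
      w * c₀ = c₀ * w := by
    apply comm_of_primepow
    · rintro x k ⟨h1, h2⟩
      exact ⟨pow_mem h1 k, pow_mem h2 k⟩
    · rintro x r k ⟨h1, h2⟩ hr ho
      by_cases hr2 : r = 2
      · subst hr2
        have hxQ := hSA.in2 S x h1 ⟨k, by rw [← ho, pow_orderOf_eq_one]⟩
        exact hc₀q x hxQ
      have hodd : Odd (orderOf x) := by
        rw [ho]
        exact Odd.pow (hr.odd_of_ne_two hr2)
      by_cases hxC : x ∈ centralizer (Q : Set G)
      · -- the action on a cyclic group
        rcases k with _ | k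
        · rw [pow_zero, orderOf_eq_one_iff] at ho
          rw [ho]; simp
        apply comm_of_coprime_aut hc₀ h2 hr ho
        intro hrd
        have h5 : r ∣ Nat.card (centralizer (Q : Set G)) := by
          have h6 : r ∣ orderOf x := by
            rw [ho]
            exact dvd_pow_self r (Nat.succ_ne_zero k)
          have h7 : orderOf x = orderOf (⟨x, hxC⟩ : centralizer (Q : Set G)) :=
            (Subgroup.orderOf_mk x hxC).symm
          rw [h7] at h6
          exact h6.trans (orderOf_dvd_natCard _)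
        have h8 := hpmin r hr hr2 h5
        have h9 := Nat.le_of_dvd (by have := hp.two_le; omega) hrd
        have := hp.two_le
        omega
      · -- a cycling element
        have hT := tri_of_odd hQ h1 hodd hxC
        have h3 := three_dvd hQ hT
        rw [ho] at h3
        have hr3 : r = 3 := ((Nat.prime_dvd_prime_iff_eq Nat.prime_three hr).mp
          (Nat.prime_three.dvd_of_dvd_pow h3)).symm
        subst hr3
        have hy3 := hSA.tri3 S x k hT ho
        obtain ⟨s, hs, hs2⟩ := hQ.exists_not_sq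
        have hcyc := cyc3_of_tri hQ hT hy3 hs hs2
        have hq := (cyc_rel hQ hT hs hs2).1
        have := hZ.y1 hq hcyc (hc₀q s hs).symm (hc₀q _ (conj_mem_N h1 hs)).symm
        exact this.symm
  -- elements normalising the cyclic subgroup
  have hN : ∀ g ∈ normalizer ((zpowers c₀ : Subgroup G) : Set G), g * c₀ = c₀ * g := by
    intro g hg
    let H : Subgroup G := centralizer ({c₀} : Set G)
    have hmemH : ∀ {x : G}, x * c₀ = c₀ * x → x ∈ H := by
      intro x hx
      rw [mem_centralizer_iff]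
      rintro _ rfl
      exact hx.symm
    have hcommH : ∀ x ∈ H, x * c₀ = c₀ * x := by
      intro x hx
      exact (mem_centralizer_iff.mp hx c₀ rfl).symm
    have hQH : Q ≤ H := fun q hq => hmemH (hc₀q q hq)
    have hg1 : g * c₀ * g⁻¹ ∈ zpowers c₀ := conj_mem_N hg (mem_zpowers c₀)
    have hg2 : c₀ ∈ zpowers (g * c₀ * g⁻¹) := by
      have h1 : g⁻¹ ∈ normalizer ((zpowers c₀ : Subgroup G) : Set G) := inv_mem hg
      have h3 := cj_eq_of_normalizer hg
      rw [cj_zpowers] at h3
      rw [h3]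
      exact mem_zpowers c₀
    have hcjH : cj g Q ≤ H := by
      intro x hx
      obtain ⟨q, hq, rfl⟩ := hx
      show g * q * g⁻¹ ∈ H
      apply hmemH
      obtain ⟨k, hk⟩ := mem_zpowers_iff.mp hg2
      rw [← hk]
      have h5 : Commute (g * q * g⁻¹) (g * c₀ * g⁻¹) := by
        show g * q * g⁻¹ * (g * c₀ * g⁻¹) = g * c₀ * g⁻¹ * (g * q * g⁻¹)
        calc g * q * g⁻¹ * (g * c₀ * g⁻¹) = g * (q * c₀) * g⁻¹ := by group
          _ = g * (c₀ * q) * g⁻¹ := by rw [hc₀q q hq]
          _ = _ := by group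
      exact (h5.zpow_right k).eq
    have hmax : ∀ C : Subgroup G, C ≤ H → IsPGroup 2 C → Q ≤ C → C = Q := fun C _ hC hle =>
      S.is_maximal' hC hle
    haveI : Fact (Nat.Prime 2) := ⟨Nat.prime_two⟩
    obtain ⟨n, hnH, hn⟩ := sylow_conj_in H 2 hQH hcjH hQ.isPGroup (hQ.cj g).isPGroup hmax
    rw [← cj_mul] at hn
    have hw : n * g ∈ normalizer (Q : Set G) := by
      apply normalizer_of_cj_eq
      apply eq_of_le_of_card_ge hn
      rw [card_cj]
    have hnN : n ∈ normalizer ((zpowers c₀ : Subgroup G) : Set G) := by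
      apply normalizer_of_cj_eq
      rw [cj_zpowers]
      have h5 : n * c₀ * n⁻¹ = c₀ := by
        rw [hcommH n hnH]; group
      rw [h5]
    have h6 := hkey (n * g) ⟨hw, mul_mem hnN hg⟩
    have h7 := hcommH n hnH
    have h8 : n * (g * c₀) = n * (c₀ * g) := by
      calc n * (g * c₀) = n * g * c₀ := by group
        _ = c₀ * (n * g) := h6
        _ = (c₀ * n) * g := by group
        _ = (n * c₀) * g := by rw [h7]
        _ = n * (c₀ * g) := by group
    exact mul_left_cancel h8
  -- a Sylow subgroup for `p`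
  have hpc : IsPGroup p (zpowers c₀) := by
    apply IsPGroup.of_card (n := 1)
    rw [Nat.card_zpowers, hc₀, pow_one]
  obtain ⟨P, hP⟩ := hpc.exists_le_sylow
  have hc₀P : c₀ ∈ (P : Subgroup G) := hP (mem_zpowers c₀)
  have hPne : (P : Subgroup G) ≠ ⊥ := by
    intro h0
    rw [h0, mem_bot] at hc₀P
    rw [hc₀P, orderOf_one] at hc₀
    exact hp.one_lt.ne hc₀
  haveI hPcyc : IsCyclic (P : Subgroup G) := hZ.odd_cyclic hp2 P P.isPGroup'
  have hcomm : ∀ x ∈ (P : Subgroup G), ∀ z ∈ (P : Subgroup G), x * z = z * x := by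
    intro x hx z hz
    have h1 : (⟨x, hx⟩ : (P : Subgroup G)) * ⟨z, hz⟩ = ⟨z, hz⟩ * ⟨x, hx⟩ :=
      (IsCyclic.commutative).is_comm.comm _ _
    exact congrArg Subtype.val h1
  apply perfect_not_le hperf P hPne
  intro g hg
  apply centr_of_fix_omega P hcomm hg
  have hgc : g * c₀ = c₀ * g := by
    apply hN
    apply normalizer_of_cj_eq
    rw [cj_zpowers]
    have h1 : g * c₀ * g⁻¹ ∈ (P : Subgroup G) := conj_mem_N hg hc₀P
    have h2 : orderOf (g * c₀ * g⁻¹) = p := by rw [orderOf_conj', hc₀]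
    exact hZ.zp_eq _ P.isPGroup' h1 hc₀P h2 hc₀
  intro x hx hxp
  by_cases hx1 : x = 1
  · rw [hx1]; simp
  have hox : orderOf x = p := orderOf_eq_prime hxp hx1
  have h1 := hZ.zp_eq _ P.isPGroup' hx hc₀P hox hc₀
  have h2 : x ∈ zpowers c₀ := by
    rw [← h1]
    exact mem_zpowers _
  obtain ⟨k, hk⟩ := mem_zpowers_iff.mp h2
  rw [← hk]
  exact (Commute.zpow_right (show Commute g c₀ from hgc) k).eq

end PhaseB

end Cfsg.Agent.Lib.Zass
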