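import Mathlib
import Cfsg.Agent.Lib.Zass.PhaseB
import Cfsg.Agent.Lib.PGroup.Involution

/-!
# The order of the normaliser and centralisers of elements of order four
-/

set_option autoImplicit false

namespace Cfsg.Agent.Lib.Zass

open Subgroup Equiv
open scoped commutatorElement

variable {G : Type*} [Group G] [Finite G]

section

variable (hZ : ZH G) (hperf : _root_.commutator G = ⊤) (hSA : SA G)
include hZ hperf hSA

omit hperf in
theorem invol_in (S : Sylow 2 G) {z : G} (hz : z ^ 2 = 1) (hz1 : z ≠ 1) : z ∈ (S : Subgroup G) := by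
  obtain ⟨s, hs, hs2⟩ := (hSA.q8 S).exists_not_sq
  have hs4 := (hSA.q8 S).pow_four hs
  have h1 : z = s ^ 2 := hZ.inv _ _ hz hz1 (by rw [← pow_mul]; exact hs4) hs2
  rw [h1]
  exact pow_mem hs 2

theorem mem_of_pr_eq_one (S : Sylow 2 G) {e : G} (he : e ∈ normalizer ((S : Subgroup G) : Set G))
    (hpr : pr (S : Subgroup G) ⟨e, he⟩ = 1) : e ∈ (S : Subgroup G) := by
  have hQ := hSA.q8 S
  set Q : Subgroup G := S.toSubgroup with hQdef
  obtain ⟨s, hs, hs2⟩ := hQ.exists_not_sq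
  obtain ⟨t, ht, htn⟩ := hQ.exists_other hs hs2
  have hq := (hQ.pair hs hs2 ht htn).1
  have ht2 : t ^ 2 ≠ 1 := by rw [hq.t2]; exact hq.s2
  have hfix : ∀ {x a : G} (hx : x ∈ normalizer (Q : Set G)), pr Q ⟨x, hx⟩ = 1 → a ∈ Q → a ^ 2 ≠ 1 →
      x * a * x⁻¹ = a ∨ x * a * x⁻¹ = a⁻¹ := by
    intro x a hx h1 ha ha2
    have h2 : pr Q ⟨x, hx⟩ (mkP ha ha2) = mkP ha ha2 := by rw [h1]; rfl
    rw [pr_mkP hx ha ha2] at h2
    have h3 := (mkP_eq_iff hQ ha ha2 (conj_mem_N hx ha) (conj_sq_ne ha2)).mp h2.symm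
    exact zp_cases (hQ.pow_four ha) h3 (conj_sq_ne ha2)
  have hprq : ∀ {x y : G} (hx : x ∈ normalizer (Q : Set G)) (hy : y ∈ normalizer (Q : Set G)),
      pr Q ⟨x, hx⟩ = 1 → pr Q ⟨y, hy⟩ = 1 → pr Q ⟨x * y, mul_mem hx hy⟩ = 1 := by
    intro x y hx hy h1 h2
    have : (⟨x * y, mul_mem hx hy⟩ : normalizer (Q : Set G)) = ⟨x, hx⟩ * ⟨y, hy⟩ := rfl
    rw [this, map_mul, h1, h2, one_mul]
  obtain ⟨q₁, hq₁, h₁⟩ : ∃ q₁ ∈ Q, (q₁ * e) * s * (q₁ * e)⁻¹ = s := by
    rcases hfix he hpr hs hs2 with h | h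
    · exact ⟨1, one_mem _, by simpa using h⟩
    · refine ⟨t, ht, ?_⟩
      have e1 : t * e * s * (t * e)⁻¹ = t * (e * s * e⁻¹) * t⁻¹ := by group
      rw [e1, h]
      have e2 : t * s⁻¹ * t⁻¹ = (t * s * t⁻¹)⁻¹ := by group
      rw [e2, hq.ts, inv_inv]
  have hq₁N : q₁ ∈ normalizer (Q : Set G) := le_normalizer hq₁
  have he₁ : q₁ * e ∈ normalizer (Q : Set G) := mul_mem hq₁N he
  have hpr₁ : pr Q ⟨q₁ * e, he₁⟩ = 1 := hprq hq₁N he (pr_of_mem hQ hq₁) hpr
  obtain ⟨q₂, hq₂, h₂s, h₂t⟩ : ∃ q₂ ∈ Q, (q₂ * (q₁ * e)) * s * (q₂ * (q₁ * e))⁻¹ = s ∧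
      (q₂ * (q₁ * e)) * t * (q₂ * (q₁ * e))⁻¹ = t := by
    rcases hfix he₁ hpr₁ ht ht2 with h | h
    · exact ⟨1, one_mem _, by simpa using h₁, by simpa using h⟩
    · refine ⟨s, hs, ?_, ?_⟩
      · have e1 : s * (q₁ * e) * s * (s * (q₁ * e))⁻¹ = s * ((q₁ * e) * s * (q₁ * e)⁻¹) * s⁻¹ := by
          group
        rw [e1, h₁]
        group
      · have e1 : s * (q₁ * e) * t * (s * (q₁ * e))⁻¹ = s * ((q₁ * e) * t * (q₁ * e)⁻¹) * s⁻¹ := by
          group
        rw [e1, h]
        have hsn : s ∉ zpowers t := by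
          intro hm
          obtain ⟨k, hk⟩ := mem_zpowers_iff.mp hm
          apply hq.not_comm
          rw [← hk]
          exact (Commute.zpow_right (Commute.refl t) k).eq
        have hq' := (hQ.pair ht ht2 hs hsn).1
        have e2 : s * t⁻¹ * s⁻¹ = (s * t * s⁻¹)⁻¹ := by group
        rw [e2, hq'.ts, inv_inv]
  set c : G := q₂ * (q₁ * e) with hc
  have hcs : c * s = s * c := by
    calc c * s = (c * s * c⁻¹) * c := by group
      _ = s * c := by rw [h₂s]
  have hct : c * t = t * c := by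
    calc c * t = (c * t * c⁻¹) * c := by group
      _ = t * c := by rw [h₂t]
  have hcC : c ∈ centralizer (Q : Set G) := by
    rw [mem_centralizer_iff]
    intro q hq'
    obtain ⟨i, j, rfl⟩ := (hQ.pair hs hs2 ht htn).2 q hq'
    have h1 : Commute c s := hcs
    have h2 : Commute c t := hct
    exact ((h1.pow_right i).mul_right (h2.pow_right j)).eq.symm
  have hc2 := cent_sq hZ hperf hSA S hcC
  have hcQ : c ∈ Q := by
    by_cases hc1 : c = 1
    · rw [hc1]
      exact one_mem _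
    · exact invol_in hZ hSA S hc2 hc1
  have e1 : e = q₁⁻¹ * (q₂⁻¹ * c) := by
    rw [hc]
    group
  rw [e1]
  exact mul_mem (inv_mem hq₁) (mul_mem (inv_mem hq₂) hcQ)

theorem card_normalizer (S : Sylow 2 G) : Nat.card (normalizer ((S : Subgroup G) : Set G)) = 24 := by
  classical
  have hQ := hSA.q8 S
  set Q : Subgroup G := S.toSubgroup with hQdef
  let N : Subgroup G := normalizer (Q : Set G)
  let φ : N →* Perm (Pairs Q) := pr Q
  have hker : φ.ker = Q.subgroupOf N := by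
    ext x
    rw [MonoidHom.mem_ker, mem_subgroupOf]
    constructor
    · intro h
      exact mem_of_pr_eq_one hZ hperf hSA S x.2 h
    · intro h
      exact pr_of_mem hQ h
  have hkerc : Nat.card φ.ker = 8 := by
    rw [hker, Nat.card_congr (Subgroup.subgroupOfEquivOfLe (le_normalizer : Q ≤ N)).toEquiv, hQ.card]
  have hcard : Nat.card N = 8 * Nat.card φ.range := by
    have h1 := φ.ker.card_mul_index
    rw [Subgroup.index_ker, hkerc] at h1
    exact h1.symm
  haveI := pairs_finite hQ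
  have hperm : Nat.card (Perm (Pairs Q)) = 6 := by
    haveI := Fintype.ofFinite (Pairs Q)
    rw [Nat.card_eq_fintype_card, Fintype.card_perm, ← Nat.card_eq_fintype_card, card_pairs hQ]
    rfl
  have hd6 : Nat.card φ.range ∣ 6 := by
    rw [← hperm]
    exact Subgroup.card_subgroup_dvd_card _
  -- three divides the order of the range
  obtain ⟨y, hy⟩ := hSA.act S
  have hd3 : 3 ∣ Nat.card φ.range := by
    have h1 := (tri_iff hQ hy.1).mp hy
    obtain ⟨h3, -⟩ := s3_d (card_pairs hQ) _ h1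
    have hne : φ ⟨y, hy.1⟩ ≠ 1 := by
      intro h0
      obtain ⟨p⟩ : Nonempty (Pairs Q) := by
        obtain ⟨s, hs, hs2⟩ := hQ.exists_not_sq
        exact ⟨mkP hs hs2⟩
      apply h1 p
      show φ ⟨y, hy.1⟩ p = p
      rw [h0]
      rfl
    have ho : orderOf (φ ⟨y, hy.1⟩) = 3 := orderOf_eq_prime h3 hne
    have h5 : orderOf (⟨φ ⟨y, hy.1⟩, ⟨_, rfl⟩⟩ : φ.range) = 3 :=
      (Subgroup.orderOf_mk _ _).trans ho
    rw [← h5]
    exact orderOf_dvd_natCard _
  -- the range has odd order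
  have hodd : ¬ 2 ∣ Nat.card φ.range := by
    intro h2
    have hG : 8 * Q.index = Nat.card G := by
      have := Q.card_mul_index
      rwa [hQ.card] at this
    have h3 : Nat.card N ∣ Nat.card G := Subgroup.card_subgroup_dvd_card N
    rw [hcard, ← hG] at h3
    have h4 : Nat.card φ.range ∣ Q.index := Nat.dvd_of_mul_dvd_mul_left (by norm_num) h3
    haveI : Fact (Nat.Prime 2) := ⟨Nat.prime_two⟩
    exact S.not_dvd_index (h2.trans h4)
  have hr3 : Nat.card φ.range = 3 := by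
    have h1 : Nat.card φ.range ≤ 6 := Nat.le_of_dvd (by norm_num) hd6
    have h0 : 0 < Nat.card φ.range := Nat.card_pos
    interval_cases (Nat.card φ.range) <;> omega
  show Nat.card N = 24
  rw [hcard, hr3]

/-- The conjugate of an element of the odd part of the centraliser lies in it. -/
theorem odd_conj_mem {s t : G} (hq : QP s t) {M : Subgroup G} (hMC : M ≤ centralizer ({s} : Set G))
    (hM1 : ∀ c : G, c * s = s * c → Odd (orderOf c) → c ∈ M) (hM2 : ∀ m ∈ M, Odd (orderOf m))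
    {m : G} (hm : m ∈ M) : t * m * t⁻¹ ∈ M := by
  have hcomm_m : m * s = s * m := (mem_centralizer_iff.mp (hMC hm) _ rfl).symm
  apply hM1
  · have hts := hq.ts
    have e1 : t⁻¹ * s * t = s⁻¹ := by
      have e2 : t * s⁻¹ * t⁻¹ = s := by
        have : t * s⁻¹ * t⁻¹ = (t * s * t⁻¹)⁻¹ := by group
        rw [this, hts, inv_inv]
      calc t⁻¹ * s * t = t⁻¹ * (t * s⁻¹ * t⁻¹) * t := by rw [e2]
        _ = s⁻¹ := by group
    have e3 : Commute m s⁻¹ := (show Commute m s from hcomm_m).inv_right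
    calc t * m * t⁻¹ * s = t * m * (t⁻¹ * s * t) * t⁻¹ := by group
      _ = t * (m * s⁻¹) * t⁻¹ := by rw [e1]; group
      _ = t * (s⁻¹ * m) * t⁻¹ := by rw [e3.eq]
      _ = (t * s⁻¹ * t⁻¹) * (t * m * t⁻¹) := by group
      _ = (t * s * t⁻¹)⁻¹ * (t * m * t⁻¹) := by group
      _ = s * (t * m * t⁻¹) := by rw [hts, inv_inv]
  · rw [orderOf_conj']
    exact hM2 m hm

/-- Centralisers of elements of order four are cyclic of order four. -/
theorem cent_four {a c : G} (ha4 : a ^ 4 = 1) (ha2 : a ^ 2 ≠ 1) (hc : c * a = a * c) : c ∈ zpowers a := by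
  haveI : Fact (Nat.Prime 2) := ⟨Nat.prime_two⟩
  have hpa : IsPGroup 2 (zpowers a) := by
    apply IsPGroup.of_card (n := 2)
    rw [Nat.card_zpowers]
    have : orderOf a = 2 ^ (1 + 1) :=
      orderOf_eq_prime_pow (p := 2) (n := 1) (by simpa using ha2) (by simpa using ha4)
    simpa using this
  obtain ⟨S, hS⟩ := hpa.exists_le_sylow
  have hQ := hSA.q8 S
  set Q : Subgroup G := S.toSubgroup with hQdef
  have haQ : a ∈ Q := hS (mem_zpowers a)
  obtain ⟨y, b, hT, ho⟩ := (hSA.act S).three hQ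
  have hy3 := hSA.tri3 S y _ hT ho
  have hcyc := cyc3_of_tri hQ hT hy3 haQ ha2
  have hq := (cyc_rel hQ hT haQ ha2).1
  set t : G := y * a * y⁻¹ with ht
  have htQ : t ∈ Q := conj_mem_N hT.1 haQ
  have htn : t ∉ zpowers a := hq.t_notin
  obtain ⟨M, hMC, hM1, hM2⟩ := exists_M hZ ha4 ha2
  -- conjugation by `t` on `M`
  let τ : M →* M :=
    { toFun := fun m => ⟨t * m * t⁻¹, odd_conj_mem hZ hperf hSA hq hMC hM1 hM2 m.2⟩
      map_one' := by
        apply Subtype.ext
        simp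
      map_mul' := fun x y => by
        apply Subtype.ext
        show t * ((x : G) * y) * t⁻¹ = (t * x * t⁻¹) * (t * y * t⁻¹)
        group }
  have hcen : ∀ g : G, g * a ^ 2 = a ^ 2 * g :=
    fun g => hZ.invol_central (by rw [← pow_mul]; exact ha4) ha2 g
  have h2 : ∀ x, τ (τ x) = x := by
    intro x
    apply Subtype.ext
    show t * (t * (x : G) * t⁻¹) * t⁻¹ = x
    have e1 : t * (t * (x : G) * t⁻¹) * t⁻¹ = t ^ 2 * x * (t ^ 2)⁻¹ := by
      rw [pow_two]; group
    rw [e1, hq.t2, ← hcen]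
    group
  have hf : ∀ x, τ x = x → x = 1 := by
    intro x hx
    have h3 : t * (x : G) * t⁻¹ = x := congrArg Subtype.val hx
    have h4 : (x : G) * t = t * x := by
      calc (x : G) * t = (t * (x : G) * t⁻¹) * t := by rw [h3]
        _ = t * x := by group
    have h5 : (x : G) * a = a * x := (mem_centralizer_iff.mp (hMC x.2) _ rfl).symm
    have hxC : (x : G) ∈ centralizer (Q : Set G) := by
      rw [mem_centralizer_iff]
      intro q hq'
      obtain ⟨i, j, rfl⟩ := (hQ.pair haQ ha2 htQ htn).2 q hq'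
      have h6 : Commute (x : G) a := h5
      have h7 : Commute (x : G) t := h4
      exact ((h6.pow_right i).mul_right (h7.pow_right j)).eq.symm
    have h8 := cent_sq hZ hperf hSA S hxC
    apply Subtype.ext
    have h9 := orderOf_dvd_of_pow_eq_one h8
    have h10 : orderOf (x : G) = 1 := by
      rcases (Nat.dvd_prime Nat.prime_two).mp h9 with h11 | h11
      · exact h11
      · have h12 := hM2 _ x.2
        rw [h11] at h12
        exact absurd h12 (by decide)
    exact orderOf_eq_one_iff.mp h10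
  have hinv := Cfsg.Agent.Lib.PGroup.inverts_of_fixedPointFree τ h2 hf
  have hMtriv : ∀ m ∈ M, m = 1 := by
    intro m hm
    have h3 : t * m * t⁻¹ = m⁻¹ := congrArg Subtype.val (hinv ⟨m, hm⟩)
    have h4 : m * a = a * m := (mem_centralizer_iff.mp (hMC hm) _ rfl).symm
    exact hZ.app1 hq hcyc h4 h3 (hM2 m hm)
  -- the element is a `2`-element
  obtain ⟨k, m, ham, hnd, hm, -, ho'⟩ := exists_p_part c 2 Nat.prime_two
  have hcm : c ^ (2 ^ k) ∈ M := by
    apply hM1
    · exact ((show Commute c a from hc).pow_left _).eq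
    · have ho2 : orderOf (c ^ (2 ^ k)) = m := by
        rw [orderOf_pow' c (by positivity), ham, Nat.gcd_eq_right (Dvd.intro _ rfl)]
        exact Nat.mul_div_cancel_left m (by positivity)
      rw [ho2]
      exact Nat.odd_iff.mpr (by omega)
  have hc2 := hMtriv _ hcm
  have hcN : c ∈ normalizer ((zpowers a : Subgroup G) : Set G) := by
    apply mem_N_zp
    left
    rw [hc]
    group
  have hT2 := isPGroup_sup_zpowers hpa hcN ⟨k, hc2⟩
  obtain ⟨S', hS'⟩ := hT2.exists_le_sylow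
  have haS' : a ∈ (S' : Subgroup G) := hS' ((le_sup_left : zpowers a ≤ _) (mem_zpowers a))
  have hcS' : c ∈ (S' : Subgroup G) := hS' ((le_sup_right : zpowers c ≤ _) (mem_zpowers c))
  exact (hSA.q8 S').comm_zpowers haS' hcS' hc.symm ha2

end

end Cfsg.Agent.Lib.Zass
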