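import Mathlib
import Cfsg.Agent.Lib.Zass.PhaseB2

/-!
# Counting: two-point stabilisers on the set of Sylow subgroups
-/

set_option autoImplicit false

namespace Cfsg.Agent.Lib.Zass

open Subgroup Equiv
open scoped commutatorElement

theorem d8sq : (Finset.univ.filter (fun x : X8 => x ^ 2 ≠ 1)).card = 6 := by decide +kernel

theorem divs24 : ∀ n : ℕ, n ≤ 24 → n ∣ 24 → ¬ 4 ∣ n → n ≤ 6 := by decide

variable {G : Type*} [Group G] [Finite G]

section

variable (hZ : ZH G) (hperf : _root_.commutator G = ⊤) (hSA : SA G)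
include hZ hperf hSA

omit hperf in
theorem sq_fix {x : G} (hx4 : x ^ 4 = 1) (hx2 : x ^ 2 ≠ 1) (a : Sylow 2 G) : (x ^ 2) • a = a := by
  rw [Sylow.smul_eq_iff_mem_normalizer]
  apply le_normalizer
  exact invol_in hZ hSA a (by rw [← pow_mul]; exact hx4) hx2

omit hZ hperf in
theorem four_fix_iff {x : G} (hx4 : x ^ 4 = 1) (a : Sylow 2 G) : x • a = a ↔ x ∈ (a : Subgroup G) := by
  constructor
  · intro h
    exact hSA.in2 a x (Sylow.smul_eq_iff_mem_normalizer.mp h) ⟨2, hx4⟩
  · intro h
    exact Sylow.smul_eq_iff_mem_normalizer.mpr (le_normalizer h)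

theorem four_unique {x : G} (hx2 : x ^ 2 ≠ 1) {a b : Sylow 2 G} (ha : x ∈ (a : Subgroup G))
    (hb : x ∈ (b : Subgroup G)) : a = b := by
  have hQa := hSA.q8 a
  have hQb := hSA.q8 b
  have hx4 := hQa.pow_four ha
  obtain ⟨ta, hta, htan⟩ := hQa.exists_other ha hx2
  obtain ⟨tb, htb, htbn⟩ := hQb.exists_other hb hx2
  have hqa := (hQa.pair ha hx2 hta htan).1
  have hqb := (hQb.pair hb hx2 htb htbn).1
  have h1 : (ta⁻¹ * tb) * x = x * (ta⁻¹ * tb) := by
    have e1 : tb * x = x⁻¹ * tb := by
      calc tb * x = (tb * x * tb⁻¹) * tb := by group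
        _ = x⁻¹ * tb := by rw [hqb.ts]
    have e2 : ta⁻¹ * x⁻¹ = x * ta⁻¹ := by
      have e3 : ta * x * ta⁻¹ = x⁻¹ := hqa.ts
      calc ta⁻¹ * x⁻¹ = ta⁻¹ * (ta * x * ta⁻¹) := by rw [e3]
        _ = x * ta⁻¹ := by group
    calc (ta⁻¹ * tb) * x = ta⁻¹ * (tb * x) := by group
      _ = ta⁻¹ * (x⁻¹ * tb) := by rw [e1]
      _ = (ta⁻¹ * x⁻¹) * tb := by group
      _ = (x * ta⁻¹) * tb := by rw [e2]
      _ = x * (ta⁻¹ * tb) := by group
  have h2 := cent_four hZ hperf hSA hx4 hx2 h1
  have h3 : ta⁻¹ * tb ∈ (a : Subgroup G) := by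
    have h4 : zpowers x ≤ (a : Subgroup G) := zpowers_le.mpr ha
    exact h4 h2
  have h4 : tb ∈ (a : Subgroup G) := by
    have e1 : tb = ta * (ta⁻¹ * tb) := by group
    rw [e1]
    exact mul_mem hta h3
  have h5 := hQb.eq_closure hqb hb htb
  have h6 : (b : Subgroup G) ≤ a := by
    rw [← h5, closure_le]
    rintro y (rfl | rfl)
    · exact ha
    · exact h4
  exact (Cfsg.Agent.Lib.PGroup.sylow_eq_of_le h6).symm

omit hZ hperf hSA in
theorem four_exists {x : G} (hx4 : x ^ 4 = 1) (hx2 : x ^ 2 ≠ 1) : ∃ a : Sylow 2 G, x ∈ (a : Subgroup G) := by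
  haveI : Fact (Nat.Prime 2) := ⟨Nat.prime_two⟩
  have hpa : IsPGroup 2 (zpowers x) := by
    apply IsPGroup.of_card (n := 2)
    rw [Nat.card_zpowers]
    have : orderOf x = 2 ^ (1 + 1) :=
      orderOf_eq_prime_pow (p := 2) (n := 1) (by simpa using hx2) (by simpa using hx4)
    simpa using this
  obtain ⟨S, hS⟩ := hpa.exists_le_sylow
  exact ⟨S, hS (mem_zpowers x)⟩

end

section Count

attribute [local instance] Classical.propDecidable

variable [Fintype G] [Fintype (Sylow 2 G)]

/-- The elements of order four. -/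
noncomputable def setI (G : Type*) [Group G] [Fintype G] : Finset G :=
  Finset.univ.filter (fun g : G => g ^ 4 = 1 ∧ g ^ 2 ≠ 1)

theorem mem_setI {g : G} : g ∈ setI G ↔ g ^ 4 = 1 ∧ g ^ 2 ≠ 1 := by
  simp [setI]

omit [Fintype (Sylow 2 G)] in
theorem card_I_in (hSA : SA G) (a : Sylow 2 G) :
    ((setI G).filter (fun g => g ∈ (a : Subgroup G))).card = 6 := by
  obtain ⟨e⟩ := hSA.q8 a
  rw [← d8sq]
  symm
  apply Finset.card_bij (fun (x : X8) _ => ((e.symm x : (a : Subgroup G)) : G))
  · intro x hx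
    rw [Finset.mem_filter, mem_setI]
    rw [Finset.mem_filter] at hx
    refine ⟨⟨?_, ?_⟩, (e.symm x).2⟩
    · have h1 : (e.symm x) ^ 4 = 1 := by
        rw [← map_pow, d0, map_one]
      exact congrArg Subtype.val h1
    · intro h0
      have h1 : (e.symm x) ^ 2 = 1 := Subtype.ext h0
      rw [← map_pow] at h1
      apply hx.2
      have h2 := congrArg e h1
      simpa using h2
  · intro x _ y _ h
    exact e.symm.injective (Subtype.ext h)
  · intro g hg
    rw [Finset.mem_filter, mem_setI] at hg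
    refine ⟨e ⟨g, hg.2⟩, ?_, ?_⟩
    · rw [Finset.mem_filter]
      refine ⟨Finset.mem_univ _, ?_⟩
      intro h0
      apply hg.1.2
      rw [← map_pow] at h0
      have h1 := e.injective (h0.trans (map_one e).symm)
      exact congrArg Subtype.val h1
    · simp

theorem card_I (hZ : ZH G) (hperf : _root_.commutator G = ⊤) (hSA : SA G) :
    (setI G).card = 6 * Nat.card (Sylow 2 G) := by
  have h1 := Finset.sum_card_bipartiteAbove_eq_sum_card_bipartiteBelow
    (s := setI G) (t := (Finset.univ : Finset (Sylow 2 G))) (fun (g : G) (a : Sylow 2 G) => g ∈ (a : Subgroup G))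
  have h2 : ∀ g ∈ setI G, (Finset.bipartiteAbove (fun (g : G) (a : Sylow 2 G) => g ∈ (a : Subgroup G))
      (Finset.univ : Finset (Sylow 2 G)) g).card = 1 := by
    intro g hg
    rw [mem_setI] at hg
    obtain ⟨a, ha⟩ := four_exists hg.1 hg.2
    rw [Finset.card_eq_one]
    refine ⟨a, ?_⟩
    ext b
    simp only [Finset.bipartiteAbove, Finset.mem_filter, Finset.mem_univ, true_and,
      Finset.mem_singleton]
    constructor
    · intro hb
      exact four_unique hZ hperf hSA hg.2 hb ha
    · rintro rfl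
      exact ha
  have h3 : ∀ b ∈ (Finset.univ : Finset (Sylow 2 G)), (Finset.bipartiteBelow
      (fun (g : G) (a : Sylow 2 G) => g ∈ (a : Subgroup G)) (setI G) b).card = 6 := by
    intro b _
    exact card_I_in hSA b
  rw [Finset.sum_congr rfl h2, Finset.sum_congr rfl h3] at h1
  simp only [Finset.sum_const, smul_eq_mul, mul_one] at h1
  rw [h1, Finset.card_univ, ← Nat.card_eq_fintype_card, mul_comm]

omit [Fintype (Sylow 2 G)] in
/-- A bound for two-point stabilisers. -/
theorem card_G2_le (hZ : ZH G) (hperf : _root_.commutator G = ⊤) (hSA : SA G) {a b : Sylow 2 G}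
    (hab : a ≠ b) :
    Nat.card (normalizer ((a : Subgroup G) : Set G) ⊓ normalizer ((b : Subgroup G) : Set G) :
      Subgroup G) ≤ 6 := by
  haveI : Fact (Nat.Prime 2) := ⟨Nat.prime_two⟩
  set H : Subgroup G := normalizer ((a : Subgroup G) : Set G) ⊓ normalizer ((b : Subgroup G) : Set G)
    with hH
  have hd24 : Nat.card H ∣ 24 := by
    have h1 : H ≤ normalizer ((a : Subgroup G) : Set G) := inf_le_left
    have h2 := Subgroup.card_dvd_of_le h1
    rwa [card_normalizer hZ hperf hSA a] at h2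
  have hle : Nat.card H ≤ 24 := Nat.le_of_dvd (by norm_num) hd24
  apply divs24 _ hle hd24
  intro h4
  obtain ⟨K, hK⟩ := Sylow.exists_subgroup_card_pow_prime (G := H) 2 (n := 2) (by simpa using h4)
  haveI hcomm : IsMulCommutative K := ⟨⟨IsPGroup.commutative_of_card_eq_prime_sq hK⟩⟩
  let K' : Subgroup G := K.map H.subtype
  have hK'c : IsMulCommutative K' := by
    exact Subgroup.map_isMulCommutative _ _
  haveI hcyc : IsCyclic K' := hZ.ab K' hK'c
  have hK'card : Nat.card K' = 4 := by
    rw [Subgroup.card_map_of_injective H.subtype_injective, hK]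
    norm_num
  obtain ⟨g, hg⟩ := IsCyclic.exists_ofOrder_eq_natCard (α := K')
  rw [hK'card] at hg
  have hg' : orderOf (g : G) = 4 := by rw [Subgroup.orderOf_coe]; exact hg
  have hg4 : (g : G) ^ 4 = 1 := by rw [← hg']; exact pow_orderOf_eq_one _
  have hg2 : (g : G) ^ 2 ≠ 1 := by
    intro h0
    have h1 := orderOf_dvd_of_pow_eq_one h0
    rw [hg'] at h1
    omega
  obtain ⟨k, hk, hke⟩ := g.2
  have hgH : (g : G) ∈ H := by
    rw [← hke]
    exact k.2
  have hga : (g : G) • a = a := Sylow.smul_eq_iff_mem_normalizer.mpr hgH.1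
  have hgb : (g : G) • b = b := Sylow.smul_eq_iff_mem_normalizer.mpr hgH.2
  have h5 := (four_fix_iff hSA hg4 a).mp hga
  have h6 := (four_fix_iff hSA hg4 b).mp hgb
  exact hab (four_unique hZ hperf hSA hg2 h5 h6)

theorem card_G2 (hZ : ZH G) (hperf : _root_.commutator G = ⊤) (hSA : SA G) {a b : Sylow 2 G}
    (hab : a ≠ b) :
    Nat.card (normalizer ((a : Subgroup G) : Set G) ⊓ normalizer ((b : Subgroup G) : Set G) :
      Subgroup G) = 6 := by
  apply le_antisymm (card_G2_le hZ hperf hSA hab)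
  -- the elements of order four outside `a`
  let J : Finset G := (setI G).filter (fun g => g ∉ (a : Subgroup G))
  have hJcard : J.card = 6 * (Nat.card (Sylow 2 G) - 1) := by
    have h1 := Finset.card_filter_add_card_filter_not (s := setI G) (fun g => g ∈ (a : Subgroup G))
    rw [card_I_in hSA a, card_I hZ hperf hSA] at h1
    have hpos : 0 < Nat.card (Sylow 2 G) := Nat.card_pos
    change 6 + J.card = _ at h1
    have : J.card = 6 * Nat.card (Sylow 2 G) - 6 := by omega
    rw [this, Nat.mul_sub, mul_one]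
  have hJmem : ∀ x, x ∈ J ↔ (x ^ 4 = 1 ∧ x ^ 2 ≠ 1) ∧ x ∉ (a : Subgroup G) := by
    intro x
    rw [Finset.mem_filter, mem_setI]
  have hmap : ∀ x ∈ J, x • a ∈ (Finset.univ : Finset (Sylow 2 G)).erase a := by
    intro x hx
    rw [hJmem] at hx
    rw [Finset.mem_erase]
    refine ⟨?_, Finset.mem_univ _⟩
    intro h0
    exact hx.2 ((four_fix_iff hSA hx.1.1 a).mp h0)
  have hfib := Finset.card_eq_sum_card_fiberwise hmap
  let F : Sylow 2 G → ℕ := fun c => (J.filter (fun x => x • a = c)).card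
  -- the bound for fibres
  have hFle : ∀ c : Sylow 2 G, a ≠ c → F c ≤ Nat.card (normalizer ((a : Subgroup G) : Set G) ⊓
      normalizer ((c : Subgroup G) : Set G) : Subgroup G) := by
    intro c hac
    set H : Subgroup G := normalizer ((a : Subgroup G) : Set G) ⊓ normalizer ((c : Subgroup G) : Set G)
      with hH
    by_cases hemp : (J.filter (fun x => x • a = c)).Nonempty
    · obtain ⟨x₀, hx₀⟩ := hemp
      rw [Finset.mem_filter, hJmem] at hx₀
      obtain ⟨⟨⟨hx₀4, hx₀2⟩, -⟩, hx₀a⟩ := hx₀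
      have hx₀c : x₀ • c = a := by
        rw [← hx₀a, ← mul_smul, ← pow_two]
        exact sq_fix hZ hSA hx₀4 hx₀2 a
      have hcard : (Finset.univ.filter (fun g : G => g ∈ H)).card = Nat.card H := by
        rw [Nat.card_eq_fintype_card, Fintype.card_subtype]
      rw [← hcard]
      show (J.filter (fun x => x • a = c)).card ≤ _
      apply Finset.card_le_card_of_injOn (fun x => x₀⁻¹ * x)
      · intro x hx
        have hx : x ∈ J.filter (fun x => x • a = c) := hx
        rw [Finset.mem_filter, hJmem] at hx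
        obtain ⟨⟨⟨hx4, hx2⟩, -⟩, hxa⟩ := hx
        simp only [Finset.coe_filter, Finset.mem_univ, true_and, Set.mem_setOf_eq]
        have hxc : x • c = a := by
          rw [← hxa, ← mul_smul, ← pow_two]
          exact sq_fix hZ hSA hx4 hx2 a
        have hx₀a' : x₀⁻¹ • c = a := by
          rw [inv_smul_eq_iff]
          exact hx₀a.symm
        have hx₀c' : x₀⁻¹ • a = c := by
          rw [inv_smul_eq_iff]
          exact hx₀c.symm
        constructor
        · apply Sylow.smul_eq_iff_mem_normalizer.mp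
          rw [mul_smul, hxa, hx₀a']
        · apply Sylow.smul_eq_iff_mem_normalizer.mp
          rw [mul_smul, hxc, hx₀c']
      · intro x _ y _ hxy
        exact mul_left_cancel hxy
    · rw [Finset.not_nonempty_iff_eq_empty] at hemp
      show (J.filter (fun x => x • a = c)).card ≤ _
      rw [hemp, Finset.card_empty]
      exact Nat.zero_le _
  have hFle6 : ∀ c ∈ (Finset.univ : Finset (Sylow 2 G)).erase a, F c ≤ 6 := by
    intro c hc
    have hac : a ≠ c := (Finset.ne_of_mem_erase hc).symm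
    exact (hFle c hac).trans (card_G2_le hZ hperf hSA hac)
  have hsum : ∑ c ∈ (Finset.univ : Finset (Sylow 2 G)).erase a, F c = 6 * (Nat.card (Sylow 2 G) - 1) := by
    rw [← hJcard]
    exact hfib.symm
  have hcardT : ((Finset.univ : Finset (Sylow 2 G)).erase a).card = Nat.card (Sylow 2 G) - 1 := by
    rw [Finset.card_erase_of_mem (Finset.mem_univ _), Finset.card_univ, Nat.card_eq_fintype_card]
  have hFb : F b = 6 := by
    by_contra hne
    have hb : b ∈ (Finset.univ : Finset (Sylow 2 G)).erase a :=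
      Finset.mem_erase.mpr ⟨hab.symm, Finset.mem_univ _⟩
    have hlt : F b < 6 := lt_of_le_of_ne (hFle6 b hb) hne
    have h1 := Finset.sum_lt_sum hFle6 ⟨b, hb, hlt⟩
    rw [hsum, Finset.sum_const, hcardT, smul_eq_mul, mul_comm] at h1
    exact lt_irrefl _ h1
  rw [← hFb]
  exact hFle b hab

end Count

end Cfsg.Agent.Lib.Zass
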