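import Mathlib
import Cfsg.Agent.Lib.Zass.PhaseC1

/-!
# Counting: elements of order three and fixed points on Sylow subgroups
-/

set_option autoImplicit false

namespace Cfsg.Agent.Lib.Zass

open Subgroup Equiv
open scoped commutatorElement

variable {G : Type*} [Group G] [Finite G]

section Count

attribute [local instance] Classical.propDecidable

variable [Fintype G] [Fintype (Sylow 2 G)]

/-- The elements of order three. -/
noncomputable def setD (G : Type*) [Group G] [Fintype G] : Finset G :=
  Finset.univ.filter (fun g : G => orderOf g = 3)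

omit [Finite G] in
theorem mem_setD {g : G} : g ∈ setD G ↔ orderOf g = 3 := by
  simp [setD]

omit [Fintype (Sylow 2 G)] in
theorem card_D_two (hZ : ZH G) (hperf : _root_.commutator G = ⊤) (hSA : SA G) {a b : Sylow 2 G}
    (hab : a ≠ b) :
    ((setD G).filter (fun g => g ∈ normalizer ((a : Subgroup G) : Set G) ∧
      g ∈ normalizer ((b : Subgroup G) : Set G))).card = 2 := by
  haveI : Fact (Nat.Prime 3) := ⟨by norm_num⟩
  haveI : Fact (Nat.Prime 2) := ⟨Nat.prime_two⟩
  set H : Subgroup G := normalizer ((a : Subgroup G) : Set G) ⊓ normalizer ((b : Subgroup G) : Set G)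
    with hH
  have hc : Nat.card H = 6 := card_G2 hZ hperf hSA hab
  obtain ⟨s, hs, hs2⟩ := (hSA.q8 a).exists_not_sq
  have hs4 := (hSA.q8 a).pow_four hs
  have hz : (s ^ 2) ^ 2 = 1 := by rw [← pow_mul]; exact hs4
  have hzH : s ^ 2 ∈ H :=
    ⟨le_normalizer (pow_mem hs 2), le_normalizer (invol_in hZ hSA b hz hs2)⟩
  haveI : Fintype H := Fintype.ofFinite _
  obtain ⟨x, hx⟩ := exists_prime_orderOf_dvd_card' (G := H) 3 (by rw [hc]; norm_num)
  let z : H := ⟨s ^ 2, hzH⟩
  have hzo : orderOf z = 2 := by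
    apply orderOf_eq_prime
    · exact Subtype.ext hz
    · intro h0
      exact hs2 (congrArg Subtype.val h0)
  have hxz : Commute x z := by
    apply Subtype.ext
    exact hZ.invol_central hz hs2 _
  have ho : orderOf (x * z) = 6 := by
    rw [hxz.orderOf_mul_eq_mul_orderOf_of_coprime (by rw [hx, hzo]; norm_num), hx, hzo]
  haveI hcyc : IsCyclic H := isCyclic_of_orderOf_eq_card _ (ho.trans hc.symm)
  have hct := IsCyclic.card_orderOf_eq_totient (α := H) (d := 3)
    (by rw [← Nat.card_eq_fintype_card, hc]; norm_num)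
  have ht3 : Nat.totient 3 = 2 := by decide
  rw [ht3] at hct
  refine Eq.trans ?_ hct
  symm
  apply Finset.card_bij (fun (y : H) _ => (y : G))
  · intro y hy
    rw [Finset.mem_filter, mem_setD]
    rw [Finset.mem_filter] at hy
    refine ⟨?_, y.2.1, y.2.2⟩
    rw [Subgroup.orderOf_coe]
    exact hy.2
  · intro y _ w _ h
    exact Subtype.ext h
  · intro g hg
    rw [Finset.mem_filter, mem_setD] at hg
    refine ⟨⟨g, hg.2⟩, ?_, rfl⟩
    rw [Finset.mem_filter]
    refine ⟨Finset.mem_univ _, ?_⟩
    have e : orderOf (((⟨g, hg.2⟩ : H)) : G) = 3 := hg.1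
    rw [Subgroup.orderOf_coe] at e
    exact e

omit [Fintype (Sylow 2 G)] in
theorem cube_cases (hZ : ZH G) (hperf : _root_.commutator G = ⊤) (hSA : SA G) (a : Sylow 2 G)
    {g : G} (hgN : g ∈ normalizer ((a : Subgroup G) : Set G)) (hga : g ∉ (a : Subgroup G))
    {s : G} (hs : s ∈ (a : Subgroup G)) (hs2 : s ^ 2 ≠ 1) : g ^ 3 = 1 ∨ g ^ 3 = s ^ 2 := by
  set N : Subgroup G := normalizer ((a : Subgroup G) : Set G) with hN
  set A : Subgroup N := (a : Subgroup G).subgroupOf N with hA
  haveI hAn : A.Normal := Subgroup.normal_in_normalizer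
  have hAc : Nat.card A = 8 := by
    have h1 : Nat.card A = Nat.card (a : Subgroup G) :=
      Nat.card_congr (Subgroup.subgroupOfEquivOfLe le_normalizer).toEquiv
    rw [h1]
    exact (hSA.q8 a).card
  have hidx : A.index = 3 := by
    have h1 := Subgroup.card_mul_index A
    rw [hAc, card_normalizer hZ hperf hSA a] at h1
    omega
  have h3 : (⟨g, hgN⟩ : N) ^ 3 ∈ A := by
    rw [← hidx]
    exact Subgroup.pow_index_mem A _
  have h3' : g ^ 3 ∈ (a : Subgroup G) := by
    have h4 : ((⟨g, hgN⟩ : N) ^ 3 : N) ∈ A := h3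
    rw [hA, Subgroup.mem_subgroupOf] at h4
    simpa using h4
  have h4 := (hSA.q8 a).pow_four h3'
  by_cases h2 : (g ^ 3) ^ 2 = 1
  · by_cases h1 : g ^ 3 = 1
    · exact Or.inl h1
    · right
      have hs4 := (hSA.q8 a).pow_four hs
      exact hZ.inv _ _ h2 h1 (by rw [← pow_mul]; exact hs4) hs2
  · exfalso
    have hc : g * g ^ 3 = g ^ 3 * g := by group
    have h5 := cent_four hZ hperf hSA h4 h2 hc
    exact hga ((zpowers_le.mpr h3') h5)

omit [Fintype (Sylow 2 G)] in
theorem not_mem_of_order_three (hSA : SA G) (a : Sylow 2 G) {d : G} (hd : orderOf d = 3) :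
    d ∉ (a : Subgroup G) := by
  intro h
  have h4 := (hSA.q8 a).pow_four h
  have h5 := orderOf_dvd_of_pow_eq_one h4
  rw [hd] at h5
  omega

omit [Fintype (Sylow 2 G)] in
theorem card_D_in (hZ : ZH G) (hperf : _root_.commutator G = ⊤) (hSA : SA G) (a : Sylow 2 G) :
    ((setD G).filter (fun g => g ∈ normalizer ((a : Subgroup G) : Set G))).card = 8 := by
  set N : Subgroup G := normalizer ((a : Subgroup G) : Set G) with hN
  obtain ⟨s, hs, hs2⟩ := (hSA.q8 a).exists_not_sq
  have hs4 := (hSA.q8 a).pow_four hs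
  have hz : (s ^ 2) ^ 2 = 1 := by rw [← pow_mul]; exact hs4
  set z : G := s ^ 2 with hzdef
  have hzmem : z ∈ (a : Subgroup G) := pow_mem hs 2
  have hzN : z ∈ N := le_normalizer hzmem
  have hcen : ∀ g : G, g * z = z * g := hZ.invol_central hz hs2
  set D : Finset G := (setD G).filter (fun g => g ∈ N) with hD
  have hDmem : ∀ g, g ∈ D ↔ orderOf g = 3 ∧ g ∈ N := by
    intro g
    rw [hD, Finset.mem_filter, mem_setD]
  set A : Finset G := (Finset.univ.filter (fun g : G => g ∈ N)).filter
    (fun g => g ∉ (a : Subgroup G)) with hA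
  have hAmem : ∀ g, g ∈ A ↔ g ∈ N ∧ g ∉ (a : Subgroup G) := by
    intro g
    rw [hA, Finset.mem_filter, Finset.mem_filter]
    simp
  have hAc : A.card = 16 := by
    have h1 := Finset.card_filter_add_card_filter_not
      (s := Finset.univ.filter (fun g : G => g ∈ N)) (fun g => g ∈ (a : Subgroup G))
    have h2 : (Finset.univ.filter (fun g : G => g ∈ N)).card = 24 := by
      rw [← card_normalizer hZ hperf hSA a, Nat.card_eq_fintype_card, Fintype.card_subtype]
    have h3 : ((Finset.univ.filter (fun g : G => g ∈ N)).filter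
        (fun g => g ∈ (a : Subgroup G))).card = 8 := by
      rw [← (hSA.q8 a).card, Nat.card_eq_fintype_card, Fintype.card_subtype]
      congr 1
      ext g
      simp only [Finset.mem_filter, Finset.mem_univ, true_and]
      exact ⟨fun h => h.2, fun h => ⟨le_normalizer h, h⟩⟩
    rw [h2, h3] at h1
    change 8 + A.card = 24 at h1
    omega
  have hcube : ∀ d : G, d ^ 3 = 1 → (z * d) ^ 3 = z := by
    intro d hd
    have hc : Commute z d := (hcen d).symm
    rw [hc.mul_pow, hd, mul_one]
    calc z ^ 3 = z ^ 2 * z := by rw [pow_succ]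
      _ = z := by rw [hz, one_mul]
  have hunion : A = D ∪ D.image (fun d => z * d) := by
    ext g
    rw [hAmem, Finset.mem_union, Finset.mem_image, hDmem]
    constructor
    · rintro ⟨hgN, hga⟩
      have hg1 : g ≠ 1 := by
        rintro rfl
        exact hga (one_mem _)
      rcases cube_cases hZ hperf hSA a hgN hga hs hs2 with h | h
      · left
        exact ⟨orderOf_eq_prime h hg1, hgN⟩
      · right
        have hzg : z * g ∉ (a : Subgroup G) := by
          intro h0
          apply hga
          have e1 : g = z⁻¹ * (z * g) := by group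
          rw [e1]
          exact mul_mem (inv_mem hzmem) h0
        have hzg1 : z * g ≠ 1 := by
          intro h0
          rw [h0] at hzg
          exact hzg (one_mem _)
        have hcu : (z * g) ^ 3 = 1 := by
          have hc : Commute z g := (hcen g).symm
          rw [hc.mul_pow, h]
          calc z ^ 3 * z = z ^ 2 * z ^ 2 := by rw [← pow_succ, ← pow_add]
            _ = 1 := by rw [hz, one_mul]
        refine ⟨z * g, ?_, ?_⟩
        · rw [hDmem]
          exact ⟨orderOf_eq_prime hcu hzg1, mul_mem hzN hgN⟩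
        · calc z * (z * g) = z ^ 2 * g := by rw [pow_two, mul_assoc]
            _ = g := by rw [hz, one_mul]
    · rintro (⟨h3, hgN⟩ | ⟨d, hd, rfl⟩)
      · exact ⟨hgN, not_mem_of_order_three hSA a h3⟩
      · rw [hDmem] at hd
        refine ⟨mul_mem hzN hd.2, ?_⟩
        intro h0
        apply not_mem_of_order_three hSA a hd.1
        have e1 : d = z⁻¹ * (z * d) := by group
        rw [e1]
        exact mul_mem (inv_mem hzmem) h0
  have hdisj : Disjoint D (D.image (fun d => z * d)) := by
    rw [Finset.disjoint_left]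
    intro g hg hg2
    rw [hDmem] at hg
    rw [Finset.mem_image] at hg2
    obtain ⟨d, hd, rfl⟩ := hg2
    rw [hDmem] at hd
    have h1 : d ^ 3 = 1 := by rw [← hd.1]; exact pow_orderOf_eq_one d
    have h2 := hcube d h1
    have h3 : (z * d) ^ 3 = 1 := by rw [← hg.1]; exact pow_orderOf_eq_one _
    rw [h3] at h2
    exact hs2 h2.symm
  have hcard : A.card = D.card + D.card := by
    rw [hunion, Finset.card_union_of_disjoint hdisj,
      Finset.card_image_of_injective _ (mul_right_injective z)]
  omega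

/-- The fixed points on the set of Sylow subgroups. -/
noncomputable def fixS (x : G) : Finset (Sylow 2 G) :=
  Finset.univ.filter (fun a => x • a = a)

omit [Fintype G] in
theorem mem_fixS {x : G} {a : Sylow 2 G} : a ∈ fixS x ↔ x • a = a := by
  simp [fixS]

omit [Fintype G] in
theorem fixS_inv (x : G) : fixS x⁻¹ = fixS x := by
  ext a
  rw [mem_fixS, mem_fixS, inv_smul_eq_iff]
  exact eq_comm

omit [Fintype G] in
theorem card_fixS_conj (m x : G) : (fixS (m * x * m⁻¹)).card = (fixS x).card := by
  symm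
  apply Finset.card_bij (fun (a : Sylow 2 G) _ => m • a)
  · intro a ha
    rw [mem_fixS] at ha ⊢
    rw [← mul_smul]
    have e1 : m * x * m⁻¹ * m = m * x := by group
    rw [e1, mul_smul, ha]
  · intro a _ b _ h
    exact MulAction.injective m h
  · intro b hb
    rw [mem_fixS] at hb
    refine ⟨m⁻¹ • b, ?_, smul_inv_smul m b⟩
    rw [mem_fixS]
    have h1 : (m * x * m⁻¹) • b = b := hb
    have h2 : m⁻¹ • ((m * x * m⁻¹) • b) = m⁻¹ • b := by rw [h1]
    rw [← mul_smul] at h2
    have e1 : m⁻¹ * (m * x * m⁻¹) = x * m⁻¹ := by group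
    rw [e1, mul_smul] at h2
    exact h2

omit [Fintype G] in
theorem card_fixS_eq (hZ : ZH G) {x y : G} (hx : orderOf x = 3) (hy : orderOf y = 3) :
    (fixS x).card = (fixS y).card := by
  haveI : Fact (Nat.Prime 3) := ⟨by norm_num⟩
  obtain ⟨m, -, hm⟩ := hZ.conj_prime (p := 3) ⊤ (mem_top x) (mem_top y) hx hy
  have hy3 : y ^ 3 = 1 := by rw [← hy]; exact pow_orderOf_eq_one y
  have h1 : m * x * m⁻¹ ≠ 1 := by
    intro h0
    have h2 : orderOf (m * x * m⁻¹) = 3 := by rw [orderOf_conj']; exact hx
    rw [h0, orderOf_one] at h2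
    omega
  rw [← card_fixS_conj m x]
  rcases zp3_cases hy3 hm h1 with h | h
  · rw [h]
  · rw [h, fixS_inv]

/-- The first double count. -/
theorem count_one (hZ : ZH G) (hperf : _root_.commutator G = ⊤) (hSA : SA G) {x₀ : G}
    (hx₀ : orderOf x₀ = 3) :
    (setD G).card * (fixS x₀).card = Nat.card (Sylow 2 G) * 8 := by
  have h1 := Finset.sum_card_bipartiteAbove_eq_sum_card_bipartiteBelow
    (s := setD G) (t := (Finset.univ : Finset (Sylow 2 G)))
    (fun (g : G) (a : Sylow 2 G) => g • a = a)
  have h2 : ∀ g ∈ setD G, (Finset.bipartiteAbove (fun (g : G) (a : Sylow 2 G) => g • a = a)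
      (Finset.univ : Finset (Sylow 2 G)) g).card = (fixS x₀).card := by
    intro g hg
    rw [mem_setD] at hg
    rw [← card_fixS_eq hZ hg hx₀]
    rfl
  have h3 : ∀ a ∈ (Finset.univ : Finset (Sylow 2 G)), (Finset.bipartiteBelow
      (fun (g : G) (a : Sylow 2 G) => g • a = a) (setD G) a).card = 8 := by
    intro a _
    rw [← card_D_in hZ hperf hSA a]
    congr 1
    ext g
    simp only [Finset.bipartiteBelow, Finset.mem_filter]
    rw [Sylow.smul_eq_iff_mem_normalizer]
    exact Iff.rfl
  rw [Finset.sum_congr rfl h2, Finset.sum_congr rfl h3] at h1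
  simp only [Finset.sum_const, smul_eq_mul] at h1
  rw [h1, Finset.card_univ, ← Nat.card_eq_fintype_card]

/-- The second double count. -/
theorem count_two (hZ : ZH G) (hperf : _root_.commutator G = ⊤) (hSA : SA G) {x₀ : G}
    (hx₀ : orderOf x₀ = 3) (a : Sylow 2 G) :
    8 * ((fixS x₀).card - 1) = (Nat.card (Sylow 2 G) - 1) * 2 := by
  have h1 := Finset.sum_card_bipartiteAbove_eq_sum_card_bipartiteBelow
    (s := (setD G).filter (fun g => g ∈ normalizer ((a : Subgroup G) : Set G)))
    (t := (Finset.univ : Finset (Sylow 2 G)).erase a)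
    (fun (g : G) (b : Sylow 2 G) => g • b = b)
  have h2 : ∀ g ∈ (setD G).filter (fun g => g ∈ normalizer ((a : Subgroup G) : Set G)),
      (Finset.bipartiteAbove (fun (g : G) (b : Sylow 2 G) => g • b = b)
      ((Finset.univ : Finset (Sylow 2 G)).erase a) g).card = (fixS x₀).card - 1 := by
    intro g hg
    rw [Finset.mem_filter, mem_setD] at hg
    rw [← card_fixS_eq hZ hg.1 hx₀]
    have hafix : a ∈ fixS g := by
      rw [mem_fixS]
      exact Sylow.smul_eq_iff_mem_normalizer.mpr hg.2
    rw [← Finset.card_erase_of_mem hafix]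
    congr 1
    ext b
    simp only [Finset.bipartiteAbove, Finset.mem_filter, Finset.mem_erase, Finset.mem_univ, and_true,
      mem_fixS]
  have h3 : ∀ b ∈ (Finset.univ : Finset (Sylow 2 G)).erase a, (Finset.bipartiteBelow
      (fun (g : G) (b : Sylow 2 G) => g • b = b)
      ((setD G).filter (fun g => g ∈ normalizer ((a : Subgroup G) : Set G))) b).card = 2 := by
    intro b hb
    have hab : a ≠ b := (Finset.ne_of_mem_erase hb).symm
    refine Eq.trans ?_ (card_D_two hZ hperf hSA hab)
    congr 1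
    ext g
    simp only [Finset.bipartiteBelow, Finset.mem_filter]
    rw [Sylow.smul_eq_iff_mem_normalizer]
    tauto
  rw [Finset.sum_congr rfl h2, Finset.sum_congr rfl h3] at h1
  simp only [Finset.sum_const, smul_eq_mul] at h1
  rw [card_D_in hZ hperf hSA a, Finset.card_erase_of_mem (Finset.mem_univ _), Finset.card_univ,
    ← Nat.card_eq_fintype_card] at h1
  exact h1

/-- The congruence for the elements of order three. -/
theorem card_D_mod (hZ : ZH G) {x₀ : G} (hx₀ : orderOf x₀ = 3) : (setD G).card % 3 = 2 := by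
  haveI : Fact (Nat.Prime 3) := ⟨by norm_num⟩
  have hx3 : x₀ ^ 3 = 1 := by rw [← hx₀]; exact pow_orderOf_eq_one x₀
  have hmem : ∀ g : {g : G // g ∈ setD G}, x₀ * g.1 * x₀⁻¹ ∈ setD G := by
    intro g
    rw [mem_setD, orderOf_conj']
    exact mem_setD.mp g.2
  let f : Function.End {g : G // g ∈ setD G} := fun g => ⟨x₀ * g.1 * x₀⁻¹, hmem g⟩
  have hf3 : f ^ (3 ^ 1) = 1 := by
    funext g
    apply Subtype.ext
    show (f (f (f g))).1 = g.1
    show x₀ * (x₀ * (x₀ * g.1 * x₀⁻¹) * x₀⁻¹) * x₀⁻¹ = g.1
    have e1 : x₀ * (x₀ * (x₀ * g.1 * x₀⁻¹) * x₀⁻¹) * x₀⁻¹ = x₀ ^ 3 * g.1 * (x₀ ^ 3)⁻¹ := by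
      simp only [pow_succ, pow_zero, one_mul, mul_inv_rev, mul_assoc]
    rw [e1, hx3]
    group
  have hmod := Equiv.Perm.card_fixedPoints_modEq (f := f) (p := 3) (n := 1) hf3
  rw [Fintype.card_coe] at hmod
  have hx₀m : x₀ ∈ setD G := mem_setD.mpr hx₀
  have hx₀im : x₀⁻¹ ∈ setD G := mem_setD.mpr (by rw [orderOf_inv]; exact hx₀)
  have hne : (⟨x₀, hx₀m⟩ : {g : G // g ∈ setD G}) ≠ ⟨x₀⁻¹, hx₀im⟩ := by
    intro h0
    have h1 : x₀ = x₀⁻¹ := congrArg Subtype.val h0
    have h2 : x₀ ^ 2 = 1 := by
      rw [pow_two]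
      nth_rewrite 2 [h1]
      group
    have h3 := orderOf_dvd_of_pow_eq_one h2
    rw [hx₀] at h3
    omega
  have hfix : Fintype.card (Function.fixedPoints f) = 2 := by
    rw [Fintype.card_of_subtype ({⟨x₀, hx₀m⟩, ⟨x₀⁻¹, hx₀im⟩} : Finset {g : G // g ∈ setD G})
      (p := fun g => g ∈ Function.fixedPoints f)]
    · rw [Finset.card_pair hne]
    · intro g
      rw [Finset.mem_insert, Finset.mem_singleton, Function.mem_fixedPoints]
      constructor
      · rintro (rfl | rfl)
        · apply Subtype.ext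
          show x₀ * x₀ * x₀⁻¹ = x₀
          group
        · apply Subtype.ext
          show x₀ * x₀⁻¹ * x₀⁻¹ = x₀⁻¹
          group
      · intro hg
        have hg1 : x₀ * g.1 * x₀⁻¹ = g.1 := congrArg Subtype.val hg
        have hgo : orderOf g.1 = 3 := mem_setD.mp g.2
        have hc : g.1 * x₀ = x₀ * g.1 := by
          calc g.1 * x₀ = (x₀ * g.1 * x₀⁻¹) * x₀ := by rw [hg1]
            _ = x₀ * g.1 := by group
        have hm := hZ.comm_mem hc (by rw [hgo, hx₀])
        have hg1' : g.1 ≠ 1 := by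
          intro h0
          rw [h0, orderOf_one] at hgo
          omega
        rcases zp3_cases hx3 hm hg1' with h | h
        · left
          exact Subtype.ext h
        · right
          exact Subtype.ext h
  rw [hfix] at hmod
  exact hmod

end Count

end Cfsg.Agent.Lib.Zass
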