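import Mathlib
import Cfsg.Agent.Lib.Zass.PhaseC2
import Cfsg.Agent.Lib.Cl.Pres4

/-!
# The main theorem of the group-level argument: `G` is `SL(2,5)`
-/

set_option autoImplicit false

namespace Cfsg.Agent.Lib.Zass

open Subgroup Equiv
open scoped commutatorElement

variable {G : Type*} [Group G] [Finite G]

theorem arith_count {f d n : ℕ} (hd : d % 3 = 2) (h1 : d * f = n * 8)
    (h2 : 8 * (f - 1) = (n - 1) * 2) (hn : 0 < n) (hf : 0 < f) :
    n = 1 ∨ n = 5 ∨ n = 13 ∨ n = 29 := by
  have h3 : n = 4 * f - 3 := by omega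
  have h4 : d < 32 := by
    by_contra h
    have h5 : 32 ≤ d := by omega
    have h6 : 32 * f ≤ d * f := Nat.mul_le_mul_right f h5
    omega
  interval_cases d <;> omega

omit [Finite G] in
theorem central_of_cyclic_normal (hperf : _root_.commutator G = ⊤) (P : Subgroup G) [P.Normal]
    [IsCyclic P] (g x : G) (hx : x ∈ P) : g * x = x * g := by
  let φ : G →* MulAut P := MulAut.conjNormal
  have hab : ∀ a b : MulAut P, a * b = b * a := by
    intro a b
    apply (IsCyclic.mulAutMulEquiv P).injective
    rw [map_mul, map_mul, mul_comm]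
  have hle : _root_.commutator G ≤ φ.ker := by
    rw [commutator_def, Subgroup.commutator_le]
    intro a _ b _
    rw [MonoidHom.mem_ker, map_commutatorElement, commutatorElement_eq_one_iff_commute]
    exact hab _ _
  have hg : g ∈ φ.ker := by
    apply hle
    rw [hperf]
    exact mem_top g
  rw [MonoidHom.mem_ker] at hg
  have h1 : φ g ⟨x, hx⟩ = ⟨x, hx⟩ := by rw [hg]; rfl
  have h2 : g * x * g⁻¹ = x := congrArg Subtype.val h1
  calc g * x = (g * x * g⁻¹) * g := by group
    _ = x * g := by rw [h2]

/-- A large prime cannot divide the order exactly once. -/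
theorem not_prime_mul (hZ : ZH G) (hperf : _root_.commutator G = ⊤) {p : ℕ} [hp : Fact p.Prime]
    (hp24 : ∀ d : ℕ, d ∣ 24 → d % p = 1 % p → d = 1) (hp2 : p ≠ 2) (hc : Nat.card G = 24 * p) :
    False := by
  obtain ⟨P⟩ : Nonempty (Sylow p G) := inferInstance
  have hnd := P.not_dvd_index
  have hidx : P.index ∣ 24 * p := by
    rw [← hc]
    exact Subgroup.index_dvd_card _
  have hcop : Nat.Coprime P.index p := (Nat.Coprime.symm ((Nat.Prime.coprime_iff_not_dvd hp.out).mpr hnd))
  have hidx24 : P.index ∣ 24 := hcop.dvd_of_dvd_mul_right hidx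
  have hn1 := card_sylow_modEq_one p G
  have hn2 : Nat.card (Sylow p G) ∣ P.index := P.card_dvd_index
  have hn3 : Nat.card (Sylow p G) ∣ 24 := hn2.trans hidx24
  have hn5 : Nat.card (Sylow p G) = 1 := hp24 _ hn3 hn1
  haveI hsub : Subsingleton (Sylow p G) := by
    obtain ⟨⟨a⟩⟩ := Nat.card_eq_one_iff_unique.mp hn5
    exact ⟨a⟩
  haveI hPn : (P : Subgroup G).Normal := P.normal_of_subsingleton
  have hPne : (P : Subgroup G) ≠ ⊥ := by
    intro h0
    have h1 : P.index = Nat.card G := by
      rw [h0, Subgroup.index_bot]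
    apply hnd
    rw [h1, hc]
    exact dvd_mul_left p 24
  haveI hcyc : IsCyclic (P : Subgroup G) := hZ.odd_cyclic hp2 P P.isPGroup'
  apply perfect_not_le hperf P hPne
  intro g _
  rw [mem_centralizer_iff]
  intro x hx
  exact (central_of_cyclic_normal hperf (P : Subgroup G) g x hx).symm

section

attribute [local instance] Classical.propDecidable

theorem card_eq_five (hZ : ZH G) (hperf : _root_.commutator G = ⊤) (hSA : SA G) :
    Nat.card G = 120 := by
  haveI : Fact (Nat.Prime 2) := ⟨Nat.prime_two⟩
  haveI : Fact (Nat.Prime 3) := ⟨by norm_num⟩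
  haveI : Fintype G := Fintype.ofFinite G
  haveI : Fintype (Sylow 2 G) := Fintype.ofFinite _
  obtain ⟨a⟩ : Nonempty (Sylow 2 G) := inferInstance
  have hG : Nat.card G = 24 * Nat.card (Sylow 2 G) := by
    have h1 := Subgroup.card_mul_index (normalizer ((a : Subgroup G) : Set G))
    have h2 : (normalizer ((a : Subgroup G) : Set G)).index = Nat.card (Sylow 2 G) :=
      (Sylow.card_eq_index_normalizer a).symm
    rw [card_normalizer hZ hperf hSA a, h2] at h1
    exact h1.symm
  obtain ⟨x₀, hx₀⟩ : ∃ x₀ : G, orderOf x₀ = 3 :=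
    exists_prime_orderOf_dvd_card' 3 (by rw [hG]; exact Dvd.dvd.mul_right (by norm_num) _)
  have h1 := count_one hZ hperf hSA hx₀
  have h2 := count_two hZ hperf hSA hx₀ a
  have h3 := card_D_mod hZ hx₀
  have hnpos : 0 < Nat.card (Sylow 2 G) := Nat.card_pos
  have hfpos : 0 < (fixS x₀).card := by
    by_contra h0
    have h4 : (fixS x₀).card = 0 := by omega
    rw [h4, mul_zero] at h1
    omega
  rcases arith_count h3 h1 h2 hnpos hfpos with h | h | h | h
  · exfalso
    rw [h] at hG
    haveI hsub : Subsingleton (Sylow 2 G) := by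
      obtain ⟨⟨u⟩⟩ := Nat.card_eq_one_iff_unique.mp h
      exact ⟨u⟩
    haveI hn : (a : Subgroup G).Normal := a.normal_of_subsingleton
    have hqc : Nat.card (G ⧸ (a : Subgroup G)) = 3 := by
      have h5 := Subgroup.card_mul_index (a : Subgroup G)
      rw [(hSA.q8 a).card, hG] at h5
      have h6 : (a : Subgroup G).index = 3 := by omega
      exact h6
    haveI : IsCyclic (G ⧸ (a : Subgroup G)) := isCyclic_of_prime_card hqc
    haveI : Group.IsSolvable (G ⧸ (a : Subgroup G)) := by
      haveI : CommGroup (G ⧸ (a : Subgroup G)) := IsCyclic.commGroup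
      exact isSolvable_of_comm (IsCyclic.commutative.is_comm.comm)
    have hss := perfect_quot_trivial hperf (QuotientGroup.mk' (a : Subgroup G))
      (QuotientGroup.mk'_surjective _)
    have h7 := Nat.card_of_subsingleton (α := G ⧸ (a : Subgroup G)) (QuotientGroup.mk 1)
    rw [hqc] at h7
    omega
  · rw [hG, h]
  · exfalso
    haveI : Fact (Nat.Prime 13) := ⟨by norm_num⟩
    rw [h] at hG
    exact not_prime_mul (p := 13) hZ hperf (by
      intro d hd hd2
      have hle := Nat.le_of_dvd (by norm_num) hd
      interval_cases d <;> first | rfl | omega) (by norm_num) hG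
  · exfalso
    haveI : Fact (Nat.Prime 29) := ⟨by norm_num⟩
    rw [h] at hG
    exact not_prime_mul (p := 29) hZ hperf (by
      intro d hd hd2
      have hle := Nat.le_of_dvd (by norm_num) hd
      interval_cases d <;> first | rfl | omega) (by norm_num) hG

end

/-- The main result: a non-trivial perfect group with the properties of a group with a
fixed-point-free representation is `SL(2,5)`. -/
theorem main_zh (hZ : ZH G) (hperf : _root_.commutator G = ⊤) (hne : Nontrivial G) :
    Nonempty (G ≃* Cfsg.Agent.Lib.Cl.Pres.SL25) := by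
  have hSA := sa_of hZ hperf hne
  have hc := card_eq_five hZ hperf hSA
  have hns : ¬ Group.IsSolvable G := by
    intro hs
    have h1 := perfect_quot_trivial hperf (MonoidHom.id G) Function.surjective_id
    exact not_subsingleton G h1
  exact Cfsg.Agent.Lib.Cl.Pres.iso_SL25 hc hns (fun P => hSA.q8 P)

end Cfsg.Agent.Lib.Zass
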