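import Mathlib
import Cfsg.Agent.Lib.Zass.PhaseC3
import Cfsg.Agent.Lib.Hall.FrobSylow
import Cfsg.Agent.Lib.PGroup.Involution

/-!
# From fixed-point-free automorphisms to the representation
-/

set_option autoImplicit false

namespace Cfsg.Agent.Lib.Zass

open Subgroup
open scoped TensorProduct

universe u v w

/-- Base change to an algebraic closure keeps the absence of fixed vectors. -/
theorem zh_of_fpf_base {Γ : Type u} [Group Γ] [Finite Γ] {k : Type v} [Field k] {V₀ : Type w}
    [AddCommGroup V₀] [Module k V₀] [FiniteDimensional k V₀] [Nontrivial V₀]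
    {ρ₀ : Γ →* Module.End k V₀} (h : Fpf ρ₀) : ZH Γ := by
  let F := AlgebraicClosure k
  let ρ : Γ →* Module.End F (F ⊗[k] V₀) :=
    (Module.End.baseChangeHom k F V₀).toMonoidHom.comp ρ₀
  have hρ : ∀ g, ρ g = (ρ₀ g).baseChange F := fun g => rfl
  haveI hnt : Nontrivial (F ⊗[k] V₀) := by
    apply Module.nontrivial_of_finrank_pos (R := F)
    rw [Module.finrank_baseChange]
    exact Module.finrank_pos
  have hfpf : Fpf ρ := by
    intro g hg v hv
    let T : Module.End k V₀ := ρ₀ g - 1
    have hinj : Function.Injective T := by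
      rw [injective_iff_map_eq_zero]
      intro a ha
      apply h g hg a
      have h1 : ρ₀ g a - a = 0 := ha
      exact sub_eq_zero.mp h1
    let e := LinearEquiv.ofInjectiveEndo T hinj
    have hleft : (e.symm : V₀ →ₗ[k] V₀) ∘ₗ T = LinearMap.id := by
      ext a
      exact e.symm_apply_apply a
    have hT : T.baseChange F v = 0 := by
      have h1 : T.baseChange F = ρ g - 1 := by
        rw [hρ]
        show (ρ₀ g - 1).baseChange F = _
        rw [LinearMap.baseChange_sub]
        congr 1
        exact LinearMap.baseChange_id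
      rw [h1]
      show ρ g v - v = 0
      rw [hv, sub_self]
    have h2 : ((e.symm : V₀ →ₗ[k] V₀).baseChange F) ((T.baseChange F) v) = v := by
      have h3 := congrArg (fun f : V₀ →ₗ[k] V₀ => (f.baseChange F) v) hleft
      simp only [LinearMap.baseChange_comp, LinearMap.comp_apply] at h3
      rw [h3]
      exact congrFun (congrArg DFunLike.coe LinearMap.baseChange_id) v
    rw [hT, map_zero] at h2
    exact h2.symm
  exact zh_of_fpf hfpf

/-- From a fixed-point-free action on an elementary abelian group. -/
theorem zh_of_elem_mod {Γ : Type u} [Group Γ] [Finite Γ] {X : Type w} [AddCommGroup X] [Finite X]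
    [Nontrivial X] {l : ℕ} [Fact l.Prime] [Module (ZMod l) X] (act : Γ → X →+ X)
    (h1 : ∀ a, act 1 a = a) (hmul : ∀ g h a, act (g * h) a = act g (act h a))
    (hfpf : ∀ g, g ≠ 1 → ∀ a, act g a = a → a = 0) : ZH Γ := by
  let rr : Γ → (X →ₗ[ZMod l] X) := fun g => (act g).toZModLinearMap l
  have e0 : ∀ g (x : X), rr g x = act g x := fun g x => by
    show (act g).toZModLinearMap l x = _
    rw [AddMonoidHom.coe_toZModLinearMap]
  let ρ₀ : Γ →* Module.End (ZMod l) X :=
    { toFun := rr
      map_one' := by
        apply LinearMap.ext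
        intro x
        rw [e0, h1]
        rfl
      map_mul' := fun g h => by
        apply LinearMap.ext
        intro x
        rw [e0, hmul, Module.End.mul_apply, e0, e0] }
  haveI : FiniteDimensional (ZMod l) X := Module.Finite.of_finite
  have hF : Fpf ρ₀ := by
    intro g hg v hv
    apply hfpf g hg v
    rw [← e0]
    exact hv
  exact zh_of_fpf_base hF

/-- From a fixed-point-free action on an elementary abelian group. -/
theorem zh_of_elem {Γ : Type u} [Group Γ] [Finite Γ] {X : Type w} [AddCommGroup X] [Finite X]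
    [Nontrivial X] {l : ℕ} [Fact l.Prime] (hX : ∀ x : X, l • x = 0) (act : Γ → X →+ X)
    (h1 : ∀ a, act 1 a = a) (hmul : ∀ g h a, act (g * h) a = act g (act h a))
    (hfpf : ∀ g, g ≠ 1 → ∀ a, act g a = a → a = 0) : ZH Γ := by
  letI : Module (ZMod l) X := AddCommGroup.zmodModule hX
  exact zh_of_elem_mod (l := l) act h1 hmul hfpf

/-- From a fixed-point-free action on a finite abelian group. -/
theorem zh_of_addAct {Γ : Type u} [Group Γ] [Finite Γ] {A : Type w} [AddCommGroup A] [Finite A]
    [Nontrivial A] (act : Γ → A →+ A) (h1 : ∀ a, act 1 a = a)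
    (hmul : ∀ g h a, act (g * h) a = act g (act h a))
    (hfpf : ∀ g, g ≠ 1 → ∀ a, act g a = a → a = 0) : ZH Γ := by
  obtain ⟨l, hl, hdvd⟩ := Nat.exists_prime_and_dvd (Finite.one_lt_card (α := A)).ne'
  haveI : Fact l.Prime := ⟨hl⟩
  let V₀ : AddSubgroup A := (nsmulAddMonoidHom l : A →+ A).ker
  have hmem : ∀ a : A, a ∈ V₀ ↔ l • a = 0 := fun a => Iff.rfl
  have hV : ∀ x : V₀, l • x = 0 := by
    intro x
    apply Subtype.ext
    exact (hmem _).mp x.2
  let r : Γ → (V₀ →+ V₀) := fun g => ((act g).comp V₀.subtype).codRestrict V₀ (fun x => by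
    rw [hmem]
    show l • act g (x : A) = 0
    rw [← map_nsmul, (hmem _).mp x.2, map_zero])
  have hr : ∀ g (x : V₀), ((r g x : V₀) : A) = act g (x : A) := fun g x => rfl
  haveI : Nontrivial V₀ := by
    obtain ⟨a, ha⟩ := exists_prime_addOrderOf_dvd_card' (G := A) l hdvd
    have h0 : l • a = 0 := by rw [← ha]; exact addOrderOf_nsmul_eq_zero a
    refine ⟨⟨⟨a, (hmem a).mpr h0⟩, 0, ?_⟩⟩
    intro h2
    have h3 : a = 0 := congrArg Subtype.val h2
    rw [h3, addOrderOf_zero] at ha
    exact hl.one_lt.ne ha
  apply zh_of_elem hV r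
  · intro a
    apply Subtype.ext
    rw [hr]
    exact h1 _
  · intro g h a
    apply Subtype.ext
    rw [hr, hr, hr]
    exact hmul _ _ _
  · intro g hg v hv
    apply Subtype.ext
    apply hfpf g hg (v : A)
    rw [← hr, hv]

/-- Odd order complements have all Sylow subgroups cyclic. -/
theorem odd_fpf_zgroup {K : Type u} [Group K] [Finite K] [Nontrivial K] {Γ : Type v} [Group Γ]
    [Finite Γ] (φ : Γ →* MulAut K) (hfpf : ∀ g, g ≠ 1 → ∀ k, φ g k = k → k = 1)
    (hodd : ¬ 2 ∣ Nat.card Γ) : IsZGroup Γ := by
  let L := SemidirectProduct K Γ φ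
  haveI hfin : Finite L := Finite.of_equiv _ SemidirectProduct.equivProd.symm
  let P : Subgroup L := (SemidirectProduct.inl : K →* L).range
  let C : Subgroup L := (SemidirectProduct.inr : Γ →* L).range
  haveI hP : P.Normal := by
    have : P = (SemidirectProduct.rightHom : L →* Γ).ker := SemidirectProduct.range_inl_eq_ker_rightHom
    rw [this]
    infer_instance
  have hdisj : Disjoint P C := by
    rw [Subgroup.disjoint_def]
    rintro _ ⟨n, rfl⟩ ⟨g, hg⟩
    have h1 : g = 1 := by
      have := congrArg SemidirectProduct.right hg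
      simpa using this
    rw [← hg, h1, map_one]
  have hc : Subgroup.IsComplement' P C := by
    apply Subgroup.isComplement'_of_disjoint_and_mul_eq_univ hdisj
    ext x
    simp only [Set.mem_mul, Set.mem_univ, iff_true]
    exact ⟨_, ⟨x.left, rfl⟩, _, ⟨x.right, rfl⟩, SemidirectProduct.inl_left_mul_inr_right x⟩
  have hPne : P ≠ ⊥ := by
    intro h0
    obtain ⟨k, hk⟩ := exists_ne (1 : K)
    have h2 : (SemidirectProduct.inl k : L) ∈ P := ⟨k, rfl⟩
    rw [h0, Subgroup.mem_bot] at h2
    exact hk (SemidirectProduct.inl_injective (h2.trans (map_one _).symm))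
  have hF : ∀ h ∈ C, h ≠ 1 → P ⊓ centralizer {h} = ⊥ := by
    rintro _ ⟨g, rfl⟩ hg
    have hg1 : g ≠ 1 := by
      rintro rfl
      exact hg (map_one _)
    rw [eq_bot_iff]
    rintro _ ⟨⟨n, rfl⟩, hn⟩
    have hn' : (SemidirectProduct.inl n : L) ∈ centralizer {(SemidirectProduct.inr g : L)} := hn
    rw [mem_centralizer_iff] at hn'
    have h1 : (SemidirectProduct.inl (φ g n) : L) = SemidirectProduct.inl n := by
      rw [SemidirectProduct.inl_aut, map_inv]
      have e1 : (SemidirectProduct.inr g : L) * SemidirectProduct.inl n = SemidirectProduct.inl n * SemidirectProduct.inr g :=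
        hn' _ rfl
      calc (SemidirectProduct.inr g : L) * SemidirectProduct.inl n * (SemidirectProduct.inr g)⁻¹
          = (SemidirectProduct.inl n * SemidirectProduct.inr g) * (SemidirectProduct.inr g)⁻¹ := by rw [e1]
        _ = SemidirectProduct.inl n := by group
    have h2 : φ g n = n := SemidirectProduct.inl_injective h1
    have h3 := hfpf g hg1 n h2
    rw [Subgroup.mem_bot, h3, map_one]
  have hCΓ : Nat.card C = Nat.card Γ :=
    Nat.card_congr (MonoidHom.ofInjective SemidirectProduct.inr_injective).toEquiv.symm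
  have hZC : IsZGroup C := by
    rw [isZGroup_iff]
    intro p hp S
    haveI : Fact p.Prime := ⟨hp⟩
    rcases Cfsg.Agent.Lib.Hall.sylow_of_fpf_complement hc hPne hF p S with h | ⟨h2, n, ⟨e⟩⟩
    · exact h
    · exfalso
      subst h2
      apply hodd
      rw [← hCΓ]
      have h3 : Nat.card (S : Subgroup C) = 4 * 2 ^ n := by
        rw [Nat.card_congr e.toEquiv, Nat.card_eq_fintype_card, QuaternionGroup.card]
      have h4 := Subgroup.card_subgroup_dvd_card (S : Subgroup C)
      rw [h3] at h4
      exact (Dvd.intro_left (2 * 2 ^ n) (by ring)).trans h4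
  exact IsZGroup.of_injective (f := (SemidirectProduct.inr : Γ →* L).rangeRestrict)
    (by
      intro a b hab
      exact SemidirectProduct.inr_injective (congrArg Subtype.val hab))

/-- **Zassenhaus**: a perfect non-trivial group of fixed-point-free automorphisms of a finite group
is `SL(2,5)`. -/
theorem zassenhaus {K : Type*} [Group K] [Finite K] (G : Subgroup (MulAut K))
    (hfpf : ∀ φ ∈ G, φ ≠ 1 → ∀ k : K, φ k = k → k = 1) (hperf : _root_.commutator G = ⊤)
    (hne : G ≠ ⊥) : Nonempty (G ≃* Matrix.SpecialLinearGroup (Fin 2) (ZMod 5)) := by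
  haveI : Finite (MulAut K) := Finite.of_injective (fun φ : MulAut K => (φ : K → K))
    (fun a b h => MulEquiv.ext (congrFun h))
  haveI hnt : Nontrivial G := (Subgroup.nontrivial_iff_ne_bot G).mpr hne
  haveI hKnt : Nontrivial K := by
    by_contra h0
    rw [not_nontrivial_iff_subsingleton] at h0
    apply hne
    rw [eq_bot_iff]
    intro φ _
    rw [Subgroup.mem_bot]
    ext k
    exact Subsingleton.elim _ _
  by_cases h2 : 2 ∣ Nat.card G
  · obtain ⟨t, ht⟩ := exists_prime_orderOf_dvd_card' 2 h2
    have ht1 : (t : MulAut K) ≠ 1 := by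
      intro h0
      have h1 : t = 1 := Subtype.ext h0
      rw [h1, orderOf_one] at ht
      omega
    have ht2 : (t : MulAut K) * (t : MulAut K) = 1 := by
      have h3 : t ^ 2 = 1 := by rw [← ht]; exact pow_orderOf_eq_one t
      have h4 : t * t = 1 := by rw [← pow_two]; exact h3
      exact congrArg Subtype.val h4
    let τ : K →* K := ((t : MulAut K) : K ≃* K).toMonoidHom
    have hτ2 : ∀ x, τ (τ x) = x := by
      intro x
      have h3 := congrArg (fun f : MulAut K => f x) ht2
      exact h3
    have hτf : ∀ x, τ x = x → x = 1 := fun x hx => hfpf t t.2 ht1 x hx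
    have hcomm := Cfsg.Agent.Lib.PGroup.comm_of_fixedPointFree τ hτ2 hτf
    letI iC : CommGroup K := { (inferInstance : Group K) with mul_comm := hcomm }
    let act : G → Additive K →+ Additive K := fun g =>
      MonoidHom.toAdditive ((g : MulAut K) : K ≃* K).toMonoidHom
    have hZ : ZH G := by
      apply zh_of_addAct act
      · intro a
        rfl
      · intro g h a
        rfl
      · intro g hg a ha
        have hg1 : (g : MulAut K) ≠ 1 := fun h0 => hg (Subtype.ext h0)
        have h3 := hfpf g g.2 hg1 (Additive.toMul a) (congrArg Additive.toMul ha)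
        exact congrArg Additive.ofMul h3
    exact main_zh hZ hperf hnt
  · exfalso
    haveI := odd_fpf_zgroup (Γ := G) G.subtype
      (fun g hg k hk => hfpf g g.2 (fun h0 => hg (Subtype.ext h0)) k hk) h2
    have h3 := IsZGroup.commutator_lt (G := G)
    exact h3.ne hperf

end Cfsg.Agent.Lib.Zass
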