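import Mathlib
import Cfsg.Agent.Lib.Zass.Reduce
import Cfsg.Agent.Lib.Perm.RegQ8

/-!
# Linear groups regular on non-zero vectors containing a quaternion pair
-/

set_option autoImplicit false

namespace Cfsg.Agent.Lib.Zass

open Subgroup
open Cfsg.Agent.Lib.Perm.RegLin

section Maps

variable {G G' : Type*} [Group G] [Group G'] (f : G →* G') (hf : Function.Injective f)
include hf

theorem QP.map {s t : G} (h : QP s t) : QP (f s) (f t) := by
  refine ⟨by rw [← map_pow, h.s4, map_one], ?_, by rw [← map_pow, ← map_pow, h.t2], ?_⟩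
  · intro h0
    rw [← map_pow] at h0
    exact h.s2 (hf (h0.trans (map_one f).symm))
  · rw [← map_inv, ← map_inv, ← map_mul, ← map_mul, h.ts]

theorem Cyc3.map {x s t : G} (h : Cyc3 x s t) : Cyc3 (f x) (f s) (f t) := by
  refine ⟨by rw [← map_pow, h.x3, map_one], ?_, ?_, ?_⟩
  · intro h0
    exact h.x1 (hf (h0.trans (map_one f).symm))
  · rw [← map_inv, ← map_mul, ← map_mul, h.xs]
  · rcases h.xt with h1 | h1
    · left
      rw [← map_inv, ← map_mul, ← map_mul, h1, map_mul]
    · right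
      rw [← map_inv, ← map_mul, ← map_mul, h1, map_mul, map_pow]

end Maps

/-- A perfect subgroup, as an abstract group. -/
theorem perfect_of_commutator_eq {G : Type*} [Group G] (N : Subgroup G) (h : ⁅N, N⁆ = N) :
    _root_.commutator N = ⊤ := by
  have h1 := map_subtype_commutator N
  rw [h] at h1
  rw [eq_top_iff]
  intro x _
  have h2 : (x : G) ∈ (_root_.commutator N).map N.subtype := by
    rw [h1]
    exact x.2
  obtain ⟨y, hy, hyx⟩ := h2
  have h3 : y = x := Subtype.ext hyx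
  rwa [← h3]

variable {p : ℕ} [Fact p.Prime] {V : Type*} [AddCommGroup V] [Module (ZMod p) V] [Finite V]
  {H : Subgroup (V ≃ₗ[ZMod p] V)}

/-- Groups mapping injectively to a regular group have the package. -/
theorem zh_of_reg (hreg : Reg H) [Nontrivial V] {K : Type*} [Group K] [Finite K] (f : K →* H)
    (hf : Function.Injective f) : ZH K := by
  let ρ₀ : K →* Module.End (ZMod p) V :=
    { toFun := fun k => ((f k : H) : V ≃ₗ[ZMod p] V).toLinearMap
      map_one' := by
        rw [map_one]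
        rfl
      map_mul' := fun a b => by
        rw [map_mul]
        rfl }
  haveI : FiniteDimensional (ZMod p) V := Module.Finite.of_finite
  apply zh_of_fpf_base (ρ₀ := ρ₀)
  intro g hg v hv
  by_contra hv0
  have h1 := hreg.free hv0 hv
  exact hg (hf (h1.trans (map_one f).symm))

/-- The splitting of the space attached to a quaternion pair. -/
theorem split_data (hreg : Reg H) [Nontrivial V] {s t : H} (hq : QP s t) :
    p ≠ 2 ∧ ∃ (ω : V →ₗ[ZMod p] V) (α β : ZMod p) (W W' : Submodule (ZMod p) V),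
      (∀ v, ω v = α • (s : V ≃ₗ[ZMod p] V) v + β • (t : V ≃ₗ[ZMod p] V) v) ∧
      (∀ v, ω (ω v) = v) ∧ (∀ v, v ∈ W ↔ ω v = v) ∧ (∀ v, v ∈ W' ↔ ω v = -v) ∧
      W ⊓ W' = ⊥ ∧ W ⊔ W' = ⊤ ∧
      (∀ v, ((s * t : H) : V ≃ₗ[ZMod p] V) (ω v) = -ω (((s * t : H) : V ≃ₗ[ZMod p] V) v)) ∧
      Nat.card V = p ^ Module.finrank (ZMod p) W * p ^ Module.finrank (ZMod p) W ∧
      1 ≤ Module.finrank (ZMod p) W := by
  classical
  haveI : Fintype V := Fintype.ofFinite _
  have hs2o : orderOf (s ^ 2) = 2 := by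
    apply orderOf_eq_prime
    · rw [← pow_mul]; exact hq.s4
    · exact hq.s2
  have hp2 : p ≠ 2 := by
    rintro rfl
    obtain ⟨v, hv⟩ := exists_ne (0 : V)
    have h1 := Cfsg.Agent.Lib.Perm.RegLin.involution_eq_neg hreg (s ^ 2) hs2o v
    have h2 : -v = v := by
      have h3 : v + v = 0 := by
        have h4 : (2 : ZMod 2) • v = 0 := by
          have : (2 : ZMod 2) = 0 := rfl
          rw [this, zero_smul]
        rwa [two_smul] at h4
      exact (eq_neg_of_add_eq_zero_left h3).symm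
    rw [h2] at h1
    exact hq.s2 (hreg.free hv h1)
  refine ⟨hp2, ?_⟩
  set X : V ≃ₗ[ZMod p] V := (s : V ≃ₗ[ZMod p] V) with hX
  set Y : V ≃ₗ[ZMod p] V := (t : V ≃ₗ[ZMod p] V) with hY
  have hXX : ∀ v, X (X v) = -v := by
    intro v
    have h1 := Cfsg.Agent.Lib.Perm.RegLin.involution_eq_neg hreg (s ^ 2) hs2o v
    rw [sq] at h1
    exact h1
  have hYY : ∀ v, Y (Y v) = -v := by
    intro v
    have h1 := Cfsg.Agent.Lib.Perm.RegLin.involution_eq_neg hreg (s ^ 2) hs2o v
    rw [← hq.t2, sq] at h1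
    exact h1
  have hinvX : ∀ v, ((s⁻¹ : H) : V ≃ₗ[ZMod p] V) v = -X v := by
    intro v
    have h1 : (s : V ≃ₗ[ZMod p] V) (((s⁻¹ : H) : V ≃ₗ[ZMod p] V) v) = v := by
      show ((s * s⁻¹ : H) : V ≃ₗ[ZMod p] V) v = v
      rw [mul_inv_cancel]
      rfl
    have h2 := hXX (((s⁻¹ : H) : V ≃ₗ[ZMod p] V) v)
    have h3 : X (((s⁻¹ : H) : V ≃ₗ[ZMod p] V) v) = v := h1
    rw [h3] at h2
    rw [h2, neg_neg]
  have hYX : ∀ v, Y (X v) = -X (Y v) := by
    intro v
    have h1 : t * s = s⁻¹ * t := by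
      rw [← hq.ts]
      group
    have h2 : ((t * s : H) : V ≃ₗ[ZMod p] V) v = ((s⁻¹ * t : H) : V ≃ₗ[ZMod p] V) v := by rw [h1]
    have h3 : ((s⁻¹ * t : H) : V ≃ₗ[ZMod p] V) v = ((s⁻¹ : H) : V ≃ₗ[ZMod p] V) (Y v) := rfl
    rw [h3, hinvX] at h2
    exact h2
  obtain ⟨α, β, hαβ⟩ := ZMod.sq_add_sq p (-1 : ZMod p)
  let ω : V →ₗ[ZMod p] V := α • X.toLinearMap + β • Y.toLinearMap
  have hω : ∀ v, ω v = α • X v + β • Y v := fun _ => rfl
  have hωω : ∀ v, ω (ω v) = v := by
    intro v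
    simp only [hω, map_add, map_smul, hXX, hYY, hYX]
    calc _ = (-(α ^ 2 + β ^ 2)) • v := by module
      _ = v := by rw [hαβ]; simp
  let τ : V ≃ₗ[ZMod p] V := Y.trans X
  have hτ : ∀ v, τ v = X (Y v) := fun _ => rfl
  have hτω : ∀ v, τ (ω v) = -ω (τ v) := by
    intro v
    simp only [hτ, hω, map_add, map_smul, hYY, hYX, hXX, map_neg]
    exact (by module)
  let W : Submodule (ZMod p) V := LinearMap.ker (ω - LinearMap.id)
  let W' : Submodule (ZMod p) V := LinearMap.ker (ω + LinearMap.id)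
  have hW : ∀ v, v ∈ W ↔ ω v = v := by
    intro v
    simp [W, sub_eq_zero]
  have hW' : ∀ v, v ∈ W' ↔ ω v = -v := by
    intro v
    simp [W', add_eq_zero_iff_eq_neg]
  have h2ne : (2 : ZMod p) ≠ 0 := by
    intro h0
    have h1 : ((2 : ℕ) : ZMod p) = 0 := by exact_mod_cast h0
    rw [ZMod.natCast_eq_zero_iff] at h1
    have hpp : p.Prime := Fact.out
    have := (Nat.prime_dvd_prime_iff_eq hpp Nat.prime_two).mp h1
    exact hp2 this
  have hinf : W ⊓ W' = ⊥ := by
    rw [Submodule.eq_bot_iff]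
    rintro v ⟨h1, h2⟩
    have h3 := (hW v).1 h1
    have h4 := (hW' v).1 h2
    rw [h3] at h4
    have h5 : (2 : ZMod p) • v = 0 := by
      rw [two_smul]
      nth_rewrite 1 [h4]
      simp
    exact (smul_eq_zero.mp h5).resolve_left h2ne
  have hsup : W ⊔ W' = ⊤ := by
    rw [eq_top_iff]
    intro v _
    refine Submodule.mem_sup.2 ⟨(2⁻¹ : ZMod p) • (v + ω v), ?_, (2⁻¹ : ZMod p) • (v - ω v), ?_, ?_⟩
    · apply W.smul_mem
      rw [hW, map_add, hωω, add_comm]
    · apply W'.smul_mem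
      rw [hW', map_sub, hωω]
      abel
    · rw [← smul_add]
      have : v + ω v + (v - ω v) = (2 : ZMod p) • v := by
        rw [two_smul]
        abel
      rw [this, smul_smul, inv_mul_cancel₀ h2ne, one_smul]
  have hmap : W.map τ.toLinearMap = W' := by
    apply le_antisymm
    · rintro _ ⟨v, hv, rfl⟩
      rw [hW']
      have h1 := hτω v
      rw [(hW v).1 hv] at h1
      show ω (τ v) = - τ v
      calc ω (τ v) = -(-ω (τ v)) := (neg_neg _).symm
        _ = - τ v := by rw [← h1]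
    · intro u hu
      refine ⟨τ.symm u, ?_, by simp⟩
      rw [SetLike.mem_coe, hW]
      apply τ.injective
      rw [hτω]
      simp only [LinearEquiv.apply_symm_apply]
      rw [(hW' u).1 hu, neg_neg]
  have hfr : Module.finrank (ZMod p) W' = Module.finrank (ZMod p) W := by
    rw [← hmap]
    exact LinearEquiv.finrank_map_eq τ W
  have hdim := Submodule.finrank_sup_add_finrank_inf_eq W W'
  rw [hsup, hinf, finrank_top, finrank_bot, hfr, add_zero] at hdim
  set r := Module.finrank (ZMod p) W with hr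
  have hVr : Module.finrank (ZMod p) V = 2 * r := by omega
  have hr1 : 1 ≤ r := by
    have h1 : 0 < Module.finrank (ZMod p) V := Module.finrank_pos
    omega
  have hVcard : Nat.card V = p ^ r * p ^ r := by
    have h3 := Module.card_eq_pow_finrank (K := ZMod p) (V := V)
    rw [ZMod.card] at h3
    rw [Nat.card_eq_fintype_card, h3, hVr, two_mul, pow_add]
  refine ⟨ω, α, β, W, W', hω, hωω, hW, hW', hinf, hsup, ?_, hVcard, hr1⟩
  intro v
  exact hτω v

end Cfsg.Agent.Lib.Zass
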