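import Mathlib
import Cfsg.Agent.Lib.Zass.Lin

/-!
# The insoluble groups regular on the non-zero vectors of a vector space
-/

set_option autoImplicit false

namespace Cfsg.Agent.Lib.Zass

open Subgroup
open Cfsg.Agent.Lib.Perm.RegLin

theorem arith_r_aux : ∀ r : ℕ, r < 120 → 2 ≤ r → (r + 1) ∣ 120 → 120 ∣ (r * r - 1) →
    r = 11 ∨ r = 19 ∨ r = 29 ∨ r = 59 ∨ r = 119 := by
  intro r h1 h2 h3 h4
  interval_cases r <;> omega

theorem arith_r {r c d : ℕ} (hr : 2 ≤ r) (hc : c ∣ r - 1) (h : 5 * (c * d) + 1 = r * r)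
    (hd : d ∣ 24) (h120 : 120 ∣ 5 * (c * d)) : r = 11 ∨ r = 19 ∨ r = 29 ∨ r = 59 ∨ r = 119 := by
  obtain ⟨e, he⟩ := hc
  have hcpos : 0 < c := by
    rcases Nat.eq_zero_or_pos c with h0 | h0
    · rw [h0, zero_mul] at he
      omega
    · exact h0
  obtain ⟨u, rfl⟩ : ∃ u, r = u + 1 := ⟨r - 1, by omega⟩
  have hu : u = c * e := by simpa using he
  have h1 : (u + 1 + 1) * e = 5 * d := by
    apply Nat.eq_of_mul_eq_mul_left hcpos
    have h2 : 5 * (c * d) = (u + 1) * (u + 1) - 1 := by omega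
    have h3 : (u + 1) * (u + 1) - 1 = (u + 2) * u := by
      have : (u + 1) * (u + 1) = (u + 2) * u + 1 := by ring
      omega
    calc c * ((u + 1 + 1) * e) = (u + 2) * (c * e) := by ring
      _ = (u + 2) * u := by rw [← hu]
      _ = 5 * (c * d) := by rw [h2, h3]
      _ = c * (5 * d) := by ring
  have h2 : (u + 1 + 1) ∣ 5 * d := ⟨e, h1.symm⟩
  have h3 : (u + 1 + 1) ∣ 120 := h2.trans (by
    obtain ⟨f, hf⟩ := hd
    exact ⟨f, by rw [show (120 : ℕ) = 5 * 24 by norm_num, hf]; ring⟩)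
  have h4 := Nat.le_of_dvd (by norm_num) h3
  apply arith_r_aux (u + 1) (by omega) hr h3
  have h5 : (u + 1) * (u + 1) - 1 = 5 * (c * d) := by omega
  rw [h5]
  exact h120

section Generic

variable {G : Type*} [Group G] [Finite G]

/-- The index of the normaliser, by the Frattini argument. -/
theorem card_eq_five_mul (N : Subgroup G) [N.Normal] (P : Sylow 2 N) (hN : Nat.card N = 120)
    (hP : Nat.card (normalizer (((P : Subgroup N)) : Set N)) = 24) :
    Nat.card G = 5 * Nat.card (normalizer (((P : Subgroup N).map N.subtype : Subgroup G) : Set G)) := by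
  haveI : Fact (Nat.Prime 2) := ⟨Nat.prime_two⟩
  set T : Subgroup G := normalizer (((P : Subgroup N).map N.subtype : Subgroup G) : Set G) with hT
  have htop : T ⊔ N = ⊤ := Sylow.normalizer_sup_eq_top P
  have h1 : N.relIndex T = N.index := by
    rw [← relIndex_sup_left, sup_comm, htop, relIndex_top_right]
  have h2 : Nat.card (N.subgroupOf T) = 24 := by
    rw [← hP]
    apply Nat.card_congr
    refine Equiv.ofBijective (fun x => ⟨⟨((x : T) : G), x.2⟩, ?_⟩) ⟨?_, ?_⟩
    · rw [mem_normalizer_iff]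
      intro h
      have hx := (mem_normalizer_iff.mp (x : T).2 (h : G))
      constructor
      · intro hh
        have h3 : ((h : G)) ∈ ((P : Subgroup N).map N.subtype : Subgroup G) := ⟨h, hh, rfl⟩
        obtain ⟨w, hw, hwe⟩ := hx.mp h3
        have h4 : w = ⟨((x : T) : G), x.2⟩ * h * (⟨((x : T) : G), x.2⟩ : N)⁻¹ := Subtype.ext hwe
        rw [← h4]
        exact hw
      · intro hh
        have h3 : ((x : T) : G) * (h : G) * ((x : T) : G)⁻¹ ∈ ((P : Subgroup N).map N.subtype : Subgroup G) :=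
          ⟨_, hh, rfl⟩
        obtain ⟨w, hw, hwe⟩ := hx.mpr h3
        have h4 : w = h := Subtype.ext hwe
        rw [← h4]
        exact hw
    · intro x y hxy
      apply Subtype.ext
      apply Subtype.ext
      have h3 := congrArg (fun z : normalizer (((P : Subgroup N)) : Set N) => ((z : N) : G)) hxy
      exact h3
    · rintro ⟨⟨x, hxN⟩, hx⟩
      have hxT : x ∈ T := by
        rw [hT, mem_normalizer_iff]
        intro h
        have hxx := mem_normalizer_iff.mp hx
        constructor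
        · rintro ⟨w, hw, rfl⟩
          refine ⟨(⟨x, hxN⟩ : N) * w * (⟨x, hxN⟩ : N)⁻¹, (hxx w).mp hw, rfl⟩
        · rintro ⟨w, hw, hwe⟩
          have hhN : h ∈ N := by
            have e1 : h = x⁻¹ * (x * h * x⁻¹) * x := by group
            rw [e1]
            apply mul_mem (mul_mem (inv_mem hxN) _) hxN
            rw [← hwe]
            exact w.2
          refine ⟨⟨h, hhN⟩, ?_, rfl⟩
          apply (hxx ⟨h, hhN⟩).mpr
          have h4 : (⟨x, hxN⟩ : N) * ⟨h, hhN⟩ * (⟨x, hxN⟩ : N)⁻¹ = w := Subtype.ext hwe.symm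
          rw [h4]
          exact hw
      exact ⟨⟨⟨x, hxT⟩, hxN⟩, rfl⟩
  have h3 := Subgroup.card_mul_index (N.subgroupOf T)
  have h4 := Subgroup.card_mul_index N
  have h5 : (N.subgroupOf T).index = N.index := h1
  rw [h2, h5] at h3
  rw [hN] at h4
  omega

/-- The normaliser modulo the centraliser. -/
theorem card_normalizer_quat {Q : Subgroup G} (hQ : IsQ8 Q) :
    ∃ d : ℕ, d ∣ 24 ∧ Nat.card (normalizer (Q : Set G)) = Nat.card (centralizer (Q : Set G)) * d := by
  obtain ⟨e⟩ := hQ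
  let ψ := Q.normalizerMonoidHom
  refine ⟨Nat.card ψ.range, ?_, ?_⟩
  · have h1 : Nat.card ψ.range ∣ Nat.card (MulAut Q) := Subgroup.card_subgroup_dvd_card _
    rw [Nat.card_congr (MulAut.congr e).toEquiv] at h1
    exact h1.trans Cfsg.Agent.Lib.Perm.RegLin.card_mulAut_dvd
  · have h := ψ.ker.card_mul_index
    rw [Subgroup.index_ker] at h
    have h2 : Nat.card ψ.ker = Nat.card (centralizer (Q : Set G)) := by
      rw [Subgroup.normalizerMonoidHom_ker]
      exact Nat.card_congr (Subgroup.subgroupOfEquivOfLe (centralizer_le_normalizer _)).toEquiv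
    rw [h2] at h
    exact h.symm

/-- The product decomposition. -/
theorem prod_of_central (N : Subgroup G) {m : ℕ} [Fact m.Prime]
    (hcard : Nat.card G = Nat.card N * m) (hm : ¬ m ∣ Nat.card N) {g : G} (hg : orderOf g = m)
    (hcomm : ∀ n ∈ N, n * g = g * n) : Nonempty (G ≃* N × Multiplicative (ZMod m)) := by
  let M : Subgroup G := zpowers g
  have hMc : Nat.card M = m := by rw [Nat.card_zpowers, hg]
  have hmp : m.Prime := Fact.out
  have hcop : (Nat.card N).Coprime (Nat.card M) := by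
    rw [hMc]
    exact ((Nat.Prime.coprime_iff_not_dvd hmp).mpr hm).symm
  have hinf : N ⊓ M = ⊥ := disjoint_iff.mp (Subgroup.disjoint_of_coprime_natCard hcop)
  have hcm : ∀ n ∈ N, ∀ u ∈ M, n * u = u * n := by
    intro n hn u hu
    obtain ⟨k, rfl⟩ := mem_zpowers_iff.mp hu
    have h1 : Commute n g := hcomm n hn
    exact (h1.zpow_right k).eq
  let φ : N × M →* G := MonoidHom.noncommCoprod N.subtype M.subtype (fun a b => hcm a a.2 b b.2)
  have hφ : ∀ x : N × M, φ x = (x.1 : G) * (x.2 : G) := fun x => rfl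
  have hinj : Function.Injective φ := by
    rw [injective_iff_map_eq_one]
    rintro ⟨a, b⟩ hab
    rw [hφ] at hab
    have h1 : (a : G) = (b : G)⁻¹ := eq_inv_of_mul_eq_one_left hab
    have h2 : (a : G) ∈ N ⊓ M := mem_inf.mpr ⟨a.2, by rw [h1]; exact M.inv_mem b.2⟩
    rw [hinf, mem_bot] at h2
    have h3 : (b : G) = 1 := by
      rw [h2, one_mul] at hab
      exact hab
    exact Prod.ext (Subtype.ext h2) (Subtype.ext h3)
  have hbij : Function.Bijective φ := by
    apply hinj.bijective_of_nat_card_le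
    rw [Nat.card_prod, hMc, hcard]
  have e2 : M ≃* Multiplicative (ZMod m) := mulEquivOfPrimeCardEq hMc (by
    rw [Nat.card_congr Multiplicative.toAdd, Nat.card_eq_fintype_card, ZMod.card])
  exact ⟨(MulEquiv.ofBijective φ hbij).symm.trans (MulEquiv.prodCongr (MulEquiv.refl _) e2)⟩

/-- An element of large prime order commuting with enough of a normal subgroup of order `120`
centralises it. -/
theorem central_of_fix (N : Subgroup G) [N.Normal] (hN : Nat.card N = 120) {m : ℕ} [Fact m.Prime]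
    (hm : ¬ m ∣ 96) {g : G} (hg : orderOf g = m)
    (h8 : ∃ A : Subgroup N, Nat.card A = 8 ∧ ∀ a ∈ A, (a : G) * g = g * a)
    (h3 : ∃ y : N, orderOf y = 3 ∧ (y : G) * g = g * y) : ∀ n ∈ N, n * g = g * n := by
  classical
  haveI : Fintype N := Fintype.ofFinite _
  let K : Subgroup N := (centralizer ({g} : Set G)).subgroupOf N
  have hK : ∀ x : N, x ∈ K ↔ (x : G) * g = g * x := by
    intro x
    rw [mem_subgroupOf, mem_centralizer_singleton_iff]
  have hd1 : 8 ∣ Nat.card K := by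
    obtain ⟨A, hA, hAc⟩ := h8
    rw [← hA]
    exact Subgroup.card_dvd_of_le (fun a ha => (hK a).mpr (hAc a ha))
  have hd2 : 3 ∣ Nat.card K := by
    obtain ⟨y, hy, hyc⟩ := h3
    have h1 : orderOf (⟨y, (hK y).mpr hyc⟩ : K) = 3 := by
      rw [Subgroup.orderOf_mk]
      exact hy
    rw [← h1]
    exact orderOf_dvd_natCard _
  have hd3 : Nat.card K ∣ 120 := by
    rw [← hN]
    exact Subgroup.card_subgroup_dvd_card K
  have hd4 : 24 ∣ Nat.card K := by
    have : Nat.Coprime 8 3 := by norm_num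
    have := this.mul_dvd_of_dvd_of_dvd hd1 hd2
    simpa using this
  have hK24 : Nat.card K = 24 ∨ Nat.card K = 120 := by
    obtain ⟨k, hk⟩ := hd4
    rw [hk] at hd3
    have h5 : k ∣ 5 := by
      have : (24 : ℕ) * k ∣ 24 * 5 := by simpa using hd3
      exact (Nat.mul_dvd_mul_iff_left (by norm_num)).mp this
    rcases (Nat.dvd_prime (by norm_num : Nat.Prime 5)).mp h5 with h | h
    · left; rw [hk, h]
    · right; rw [hk, h]
  have hg1 : g ^ m = 1 := by rw [← hg]; exact pow_orderOf_eq_one g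
  let f : Function.End N := fun n =>
    ⟨g * n * g⁻¹, (inferInstance : N.Normal).conj_mem n n.2 g⟩
  have hfpow : ∀ (k : ℕ) (n : N), (((f ^ k) n : N) : G) = g ^ k * n * (g ^ k)⁻¹ := by
    intro k
    induction k with
    | zero =>
      intro n
      rw [pow_zero]
      show (n : G) = _
      simp
    | succ k ih =>
      intro n
      rw [pow_succ']
      show (f ((f ^ k) n) : G) = _
      show g * (((f ^ k) n : N) : G) * g⁻¹ = _
      rw [ih, pow_succ']
      group
  have hf1 : f ^ (m ^ 1) = 1 := by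
    rw [pow_one]
    funext n
    apply Subtype.ext
    rw [hfpow, hg1]
    show _ = (n : G)
    simp
  have hmod := Equiv.Perm.card_fixedPoints_modEq (f := f) (p := m) (n := 1) hf1
  have hfix : Fintype.card (Function.fixedPoints f) = Nat.card K := by
    rw [← Nat.card_eq_fintype_card]
    apply Nat.card_congr
    refine Equiv.subtypeEquivRight ?_
    intro x
    rw [Function.mem_fixedPoints]
    constructor
    · intro h
      have h1 : g * (x : G) * g⁻¹ = x := congrArg Subtype.val h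
      apply (hK x).mpr
      calc (x : G) * g = (g * x * g⁻¹) * g := by rw [h1]
        _ = g * x := by group
    · intro h
      apply Subtype.ext
      show g * (x : G) * g⁻¹ = x
      rw [← (hK x).mp h]
      group
  rw [hfix, ← Nat.card_eq_fintype_card, hN] at hmod
  have hK120 : Nat.card K = 120 := by
    rcases hK24 with h | h
    · exfalso
      rw [h] at hmod
      apply hm
      have := (Nat.modEq_iff_dvd' (by norm_num)).mp hmod.symm
      simpa using this
    · exact h
  have htop : K = ⊤ := by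
    apply Subgroup.eq_top_of_card_eq
    rw [hK120, hN]
  intro n hn
  apply (hK ⟨n, hn⟩).mp
  rw [htop]
  trivial

end Generic

section Main

theorem three_dvd_aux {c d : ℕ} (h : c * d = 72) (hd : d ∣ 24) : 3 ∣ c := by
  have h1 := Nat.le_of_dvd (by norm_num) hd
  interval_cases d <;> omega

theorem seven_dvd_aux {c d : ℕ} (h : c * d = 168) (hd : d ∣ 24) : 7 ∣ c := by
  have h1 := Nat.le_of_dvd (by norm_num) hd
  interval_cases d <;> omega

theorem tn_dvd_aux {c d : ℕ} (h : c * d = 696) (hd : d ∣ 24) : 29 ∣ c := by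
  have h1 := Nat.le_of_dvd (by norm_num) hd
  interval_cases d <;> omega

/-- The perfect residual. -/
theorem exists_perfect (G : Type*) [Group G] [Finite G] (hsolv : ¬ Group.IsSolvable G) :
    ∃ N : Subgroup G, N.Normal ∧ N ≠ ⊥ ∧ _root_.commutator N = ⊤ := by
  obtain ⟨M, ⟨n, rfl⟩, hmin⟩ := (wellFounded_lt (α := Subgroup G)).has_min
    (Set.range (derivedSeries G)) ⟨_, 0, rfl⟩
  refine ⟨derivedSeries G n, inferInstance, ?_, ?_⟩
  · intro h
    exact hsolv ((isSolvable_def G).2 ⟨n, h⟩)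
  · apply perfect_of_commutator_eq
    have h1 : ⁅derivedSeries G n, derivedSeries G n⁆ ≤ derivedSeries G n := commutator_le_self _
    have h2 : ¬ derivedSeries G (n + 1) < derivedSeries G n := hmin _ ⟨n + 1, rfl⟩
    exact eq_of_le_of_not_lt h1 h2

variable {p : ℕ} [Fact p.Prime] {V : Type*} [AddCommGroup V] [Module (ZMod p) V] [Finite V]
  {H : Subgroup (V ≃ₗ[ZMod p] V)}

/-- The main theorem on insoluble groups regular on the non-zero vectors. -/
theorem insoluble_main (hreg : Reg H) (hsolv : ¬ Group.IsSolvable H) :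
    (Nat.card V = 121 ∧ Nonempty (H ≃* Matrix.SpecialLinearGroup (Fin 2) (ZMod 5))) ∨
    (Nat.card V = 841 ∧
      Nonempty (H ≃* Matrix.SpecialLinearGroup (Fin 2) (ZMod 5) × Multiplicative (ZMod 7))) ∨
    (Nat.card V = 3481 ∧
      Nonempty (H ≃* Matrix.SpecialLinearGroup (Fin 2) (ZMod 5) × Multiplicative (ZMod 29))) := by
  classical
  haveI : Finite (V ≃ₗ[ZMod p] V) := finite_equiv
  haveI hVnt : Nontrivial V := by
    by_contra h0
    rw [not_nontrivial_iff_subsingleton] at h0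
    apply hsolv
    haveI : Subsingleton (V ≃ₗ[ZMod p] V) :=
      ⟨fun a b => LinearEquiv.ext (fun v => Subsingleton.elim _ _)⟩
    haveI : Subsingleton H := ⟨fun a b => Subtype.ext (Subsingleton.elim _ _)⟩
    infer_instance
  obtain ⟨N, hNn, hNb, hNp⟩ := exists_perfect H hsolv
  haveI := hNn
  have hZH : ZH H := zh_of_reg hreg (MonoidHom.id H) Function.injective_id
  have hZN : ZH N := zh_of_reg hreg N.subtype N.subtype_injective
  haveI hNnt : Nontrivial N := (Subgroup.nontrivial_iff_ne_bot N).mpr hNb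
  obtain ⟨eN⟩ := main_zh hZN hNp hNnt
  have hSA := sa_of hZN hNp hNnt
  have hcN : Nat.card N = 120 := card_eq_five hZN hNp hSA
  haveI : Fact (Nat.Prime 2) := ⟨Nat.prime_two⟩
  obtain ⟨S⟩ : Nonempty (Sylow 2 N) := inferInstance
  have hQ8 := hSA.q8 S
  obtain ⟨s₀, hs₀, hs₀2⟩ := hQ8.exists_not_sq
  obtain ⟨y₀, a, hy₀T, hy₀o⟩ := (hSA.act S).three hQ8
  have hy₀3 : y₀ ^ 3 = 1 := hSA.tri3 S y₀ (a + 1) hy₀T hy₀o
  have hcyc₀ := cyc3_of_tri hQ8 hy₀T hy₀3 hs₀ hs₀2
  have ht₀ : y₀ * s₀ * y₀⁻¹ ∈ (S : Subgroup N) := conj_mem_N hy₀T.1 hs₀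
  have hq₀ : QP s₀ (y₀ * s₀ * y₀⁻¹) := (hQ8.pair hs₀ hs₀2 ht₀ (hy₀T.2 s₀ hs₀ hs₀2)).1
  set t₀ : N := y₀ * s₀ * y₀⁻¹ with ht₀def
  have hq : QP (s₀ : H) (t₀ : H) := hq₀.map N.subtype N.subtype_injective
  have hc : Cyc3 (y₀ : H) (s₀ : H) (t₀ : H) := hcyc₀.map N.subtype N.subtype_injective
  let Q : Subgroup H := (S : Subgroup N).map N.subtype
  have hQQ : IsQ8 Q := by
    obtain ⟨e⟩ := hQ8
    exact ⟨((S : Subgroup N).equivMapOfInjective N.subtype N.subtype_injective).symm.trans e⟩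
  have hsQ : (s₀ : H) ∈ Q := ⟨s₀, hs₀, rfl⟩
  have htQ : (t₀ : H) ∈ Q := ⟨t₀, ht₀, rfl⟩
  let C : Subgroup H := centralizer (Q : Set H)
  have hCs : ∀ g ∈ C, g * (s₀ : H) = (s₀ : H) * g := fun g hg =>
    (mem_centralizer_iff.mp hg _ hsQ).symm
  have hCt : ∀ g ∈ C, g * (t₀ : H) = (t₀ : H) * g := fun g hg =>
    (mem_centralizer_iff.mp hg _ htQ).symm
  obtain ⟨hp2, ω, α, β, W, W', hω, hωω, hW, hW', hinf, hsup, hτω, hVcard, hk1⟩ := split_data hreg hq
  have hCinv : Inv C W := by
    intro d hd v hv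
    rw [hW] at hv ⊢
    have h1 : ∀ (g : H), g * (d : H) = (d : H) * g →
        (g : V ≃ₗ[ZMod p] V) (((d : H) : V ≃ₗ[ZMod p] V) v) =
          ((d : H) : V ≃ₗ[ZMod p] V) ((g : V ≃ₗ[ZMod p] V) v) := by
      intro g hg
      have : ((g * (d : H) : H) : V ≃ₗ[ZMod p] V) v = (((d : H) * g : H) : V ≃ₗ[ZMod p] V) v := by
        rw [hg]
      exact this
    rw [hω, h1 _ (hCs d hd).symm, h1 _ (hCt d hd).symm]
    have e1 : α • ((d : H) : V ≃ₗ[ZMod p] V) (((s₀ : H) : V ≃ₗ[ZMod p] V) v) +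
        β • ((d : H) : V ≃ₗ[ZMod p] V) (((t₀ : H) : V ≃ₗ[ZMod p] V) v) =
        ((d : H) : V ≃ₗ[ZMod p] V) (α • ((s₀ : H) : V ≃ₗ[ZMod p] V) v +
          β • ((t₀ : H) : V ≃ₗ[ZMod p] V) v) := by
      rw [map_add, map_smul, map_smul]
    rw [e1, ← hω, hv]
  have hCd := card_dvd hreg C W hCinv
  have hTc := card_eq_five_mul N S hcN (card_normalizer hZN hNp hSA S)
  obtain ⟨d, hd24, hTd⟩ := card_normalizer_quat hQQ
  have hH1 := card_add_one hreg
  have h120 : 120 ∣ Nat.card H := by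
    rw [← hcN]
    exact Subgroup.card_subgroup_dvd_card N
  set k := Module.finrank (ZMod p) W with hk
  set c := Nat.card C with hc'
  have hpp : p.Prime := Fact.out
  have hHcd : Nat.card H = 5 * (c * d) := by
    rw [hTc]
    congr 1
  have hr2 : 2 ≤ p ^ k := le_trans hpp.two_le (Nat.le_self_pow (by omega) p)
  have hy₀1 : y₀ ≠ 1 := hcyc₀.x1
  have hy₀ord : orderOf y₀ = 3 := orderOf_eq_prime hy₀3 hy₀1
  have hy3 : (y₀ : H) ^ 3 = 1 := hc.x3
  have hyord : orderOf (y₀ : H) = 3 := by rw [Subgroup.orderOf_coe]; exact hy₀ord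
  have h8 : ∀ g ∈ C, ∃ A : Subgroup N, Nat.card A = 8 ∧ ∀ a ∈ A, (a : H) * g = g * a := by
    intro g hg
    refine ⟨S, hQ8.card, fun a ha => ?_⟩
    exact mem_centralizer_iff.mp hg _ ⟨a, ha, rfl⟩
  have hyc : ∀ g ∈ C, g * (y₀ : H) = (y₀ : H) * g := fun g hg =>
    hZH.y1 hq hc (hCs g hg) (hCt g hg)
  have hno3 : ¬ 3 ∣ c := by
    intro h3
    haveI : Fact (Nat.Prime 3) := ⟨by norm_num⟩
    obtain ⟨g, hg⟩ := exists_prime_orderOf_dvd_card' (G := C) 3 h3
    have hg' : orderOf (g : H) = 3 := by rw [Subgroup.orderOf_coe]; exact hg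
    have hm := hZH.comm_mem (hyc g g.2) (by rw [hg', hyord])
    have hg1 : (g : H) ≠ 1 := by
      intro h0
      rw [h0, orderOf_one] at hg'
      omega
    have hgs := hCs g g.2
    have hys : (y₀ : H) * (s₀ : H) = (s₀ : H) * (y₀ : H) := by
      rcases zp3_cases hy3 hm hg1 with h | h
      · rw [h] at hgs
        exact hgs
      · rw [h] at hgs
        have h5 : (s₀ : H) * (y₀ : H)⁻¹ = (y₀ : H)⁻¹ * (s₀ : H) := hgs.symm
        calc (y₀ : H) * (s₀ : H) = (y₀ : H) * ((s₀ : H) * (y₀ : H)⁻¹) * (y₀ : H) := by group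
          _ = (y₀ : H) * ((y₀ : H)⁻¹ * (s₀ : H)) * (y₀ : H) := by rw [h5]
          _ = (s₀ : H) * (y₀ : H) := by group
    have h6 : (t₀ : H) = (s₀ : H) := by
      rw [← hc.xs, hys]
      group
    apply hq.not_comm
    rw [h6]
  rcases arith_r hr2 hCd (by rw [← hHcd, hH1, hVcard]) hd24 (by rw [← hHcd]; exact h120) with
    h | h | h | h | h
  · -- degree `11 ^ 2`
    left
    refine ⟨by rw [hVcard, h], ?_⟩
    have hcH : Nat.card H = 120 := by
      have h2 : Nat.card V = 121 := by rw [hVcard, h]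
      omega
    have hNtop : N = ⊤ := Subgroup.eq_top_of_card_eq N (by rw [hcN, hcH])
    exact ⟨(Subgroup.topEquiv.symm.trans (MulEquiv.subgroupCongr hNtop.symm)).trans eN⟩
  · -- degree `19 ^ 2`: excluded
    exfalso
    have hcH : Nat.card H = 360 := by
      have h2 : Nat.card V = 361 := by rw [hVcard, h]
      omega
    apply hno3
    apply three_dvd_aux (d := d) _ hd24
    omega
  · -- degree `29 ^ 2`
    right; left
    refine ⟨by rw [hVcard, h], ?_⟩
    have hcH : Nat.card H = 840 := by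
      have h2 : Nat.card V = 841 := by rw [hVcard, h]
      omega
    haveI : Fact (Nat.Prime 7) := ⟨by norm_num⟩
    have h7 : 7 ∣ c := by
      apply seven_dvd_aux (d := d) _ hd24
      omega
    obtain ⟨g, hg⟩ := exists_prime_orderOf_dvd_card' (G := C) 7 h7
    have hg' : orderOf (g : H) = 7 := by rw [Subgroup.orderOf_coe]; exact hg
    have hcomm := central_of_fix N hcN (m := 7) (by norm_num) hg' (h8 g g.2)
      ⟨y₀, hy₀ord, (hyc g g.2).symm⟩
    obtain ⟨e⟩ := prod_of_central N (by rw [hcN, hcH]) (by rw [hcN]; norm_num) hg' hcomm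
    exact ⟨e.trans (MulEquiv.prodCongr eN (MulEquiv.refl _))⟩
  · -- degree `59 ^ 2`
    right; right
    refine ⟨by rw [hVcard, h], ?_⟩
    have hcH : Nat.card H = 3480 := by
      have h2 : Nat.card V = 3481 := by rw [hVcard, h]
      omega
    haveI : Fact (Nat.Prime 29) := ⟨by norm_num⟩
    have h7 : 29 ∣ c := by
      apply tn_dvd_aux (d := d) _ hd24
      omega
    obtain ⟨g, hg⟩ := exists_prime_orderOf_dvd_card' (G := C) 29 h7
    have hg' : orderOf (g : H) = 29 := by rw [Subgroup.orderOf_coe]; exact hg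
    have hcomm := central_of_fix N hcN (m := 29) (by norm_num) hg' (h8 g g.2)
      ⟨y₀, hy₀ord, (hyc g g.2).symm⟩
    obtain ⟨e⟩ := prod_of_central N (by rw [hcN, hcH]) (by rw [hcN]; norm_num) hg' hcomm
    exact ⟨e.trans (MulEquiv.prodCongr eN (MulEquiv.refl _))⟩
  · -- `119` is not a prime power
    exfalso
    have h7 : 7 ∣ p ^ k := by rw [h]; norm_num
    have h17 : 17 ∣ p ^ k := by rw [h]; norm_num
    have hp7 := (Nat.prime_dvd_prime_iff_eq (by norm_num) hpp).mp
      ((Nat.Prime.dvd_of_dvd_pow (by norm_num) h7))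
    have hp17 := (Nat.prime_dvd_prime_iff_eq (by norm_num) hpp).mp
      ((Nat.Prime.dvd_of_dvd_pow (by norm_num) h17))
    omega

end Main

end Cfsg.Agent.Lib.Zass
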