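import Mathlib
import Cfsg.Agent.Lib.Zass.Insol

/-!
# Minimal non-abelian normal subgroups of groups regular on the non-zero vectors
-/

set_option autoImplicit false

namespace Cfsg.Agent.Lib.Zass

open Subgroup
open Cfsg.Agent.Lib.Perm.RegLin

variable {p : ℕ} [Fact p.Prime] {V : Type*} [AddCommGroup V] [Module (ZMod p) V] [Finite V]
  {H : Subgroup (V ≃ₗ[ZMod p] V)}

/-- The structure of a minimal non-abelian normal subgroup centralising a maximal normal abelian
subgroup. -/
theorem minimal_struct (hreg : Reg H)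
    (A : Subgroup H) (hAn : A.Normal) (hAc : IsMulCommutative A)
    (hAmax : ∀ B : Subgroup H, B.Normal → IsMulCommutative B → A ≤ B → B = A)
    (N : Subgroup H) (hNn : N.Normal) (hNle : N ≤ centralizer (A : Set H))
    (hNna : ¬ IsMulCommutative N)
    (hNmin : ∀ M : Subgroup H, M.Normal → M ≤ N → ¬ IsMulCommutative M → M = N) :
    Nonempty (N ≃* QuaternionGroup 2) ∨ Nonempty (N ≃* Matrix.SpecialLinearGroup (Fin 2) (ZMod 5)) := by
  classical
  haveI : Finite (V ≃ₗ[ZMod p] V) := finite_equiv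
  haveI := hNn
  haveI hVnt : Nontrivial V := by
    by_contra h0
    rw [not_nontrivial_iff_subsingleton] at h0
    apply hNna
    haveI : Subsingleton (V ≃ₗ[ZMod p] V) :=
      ⟨fun a b => LinearEquiv.ext (fun v => Subsingleton.elim _ _)⟩
    haveI : Subsingleton H := ⟨fun a b => Subtype.ext (Subsingleton.elim _ _)⟩
    exact ⟨⟨fun a b => Subsingleton.elim _ _⟩⟩
  by_cases hder : IsMulCommutative (⁅N, N⁆ : Subgroup H)
  · left
    obtain ⟨-, -, -, -, -, -, -, -, -, h⟩ :=
      quat_struct_of_der hreg A hAn hAc hAmax N hNn hNle hNna hNmin hder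
    exact h
  · right
    have heq := hNmin _ inferInstance (commutator_le_left N N) hder
    have hperf := perfect_of_commutator_eq N heq
    haveI hnt : Nontrivial N := by
      by_contra h0
      rw [not_nontrivial_iff_subsingleton] at h0
      exact hNna ⟨⟨fun a b => Subsingleton.elim _ _⟩⟩
    exact main_zh (zh_of_reg hreg N.subtype N.subtype_injective) hperf hnt

/-- A normal subgroup containing a quaternion pair is irreducible. -/
theorem irreducible_of_qp (hreg : Reg H) [Nontrivial V] (N : Subgroup H) (hNn : N.Normal) {s t : H}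
    (hs : s ∈ N) (ht : t ∈ N) (hq : QP s t) (U : Submodule (ZMod p) V) (hU : Inv N U) :
    U = ⊥ ∨ U = ⊤ := by
  classical
  by_contra hcon
  push Not at hcon
  obtain ⟨hU0, hU1⟩ := hcon
  obtain ⟨U₀, hle, hU₀0, hU₀inv, hU₀min⟩ := exists_minimal N U hU0 hU
  have hU₀1 : U₀ ≠ ⊤ := fun h => hU1 (top_le_iff.mp (h ▸ hle))
  obtain ⟨hp2, ω, α, β, W, W', hω, hωω, hW, hW', hinf, hsup, hτω, -, -⟩ := split_data hreg hq
  have hτN : s * t ∈ N := mul_mem hs ht
  set τ : V ≃ₗ[ZMod p] V := ((s * t : H) : V ≃ₗ[ZMod p] V) with hτ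
  have hωinv : ∀ X : Submodule (ZMod p) V, Inv N X → ∀ v ∈ X, ω v ∈ X := by
    intro X hX v hv
    rw [hω]
    exact add_mem (X.smul_mem _ (hX s hs v hv)) (X.smul_mem _ (hX t ht v hv))
  have hωτ : ∀ v, ω (τ v) = -τ (ω v) := by
    intro v
    rw [hτω, neg_neg]
  obtain ⟨x, hx, hx0⟩ := (Submodule.ne_bot_iff U₀).mp hU₀0
  obtain ⟨a, haU, haW, ha0⟩ : ∃ a, a ∈ U₀ ∧ a ∈ W ∧ a ≠ 0 := by
    by_cases h : x + ω x = 0
    · refine ⟨τ x, hU₀inv _ hτN _ hx, ?_, ?_⟩
      · rw [hW, hωτ]
        have h1 : ω x = -x := (eq_neg_of_add_eq_zero_right h)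
        rw [h1, map_neg, neg_neg]
      · exact (LinearEquiv.map_ne_zero_iff τ).mpr hx0
    · exact ⟨x + ω x, add_mem hx (hωinv _ hU₀inv _ hx), by rw [hW, map_add, hωω, add_comm], h⟩
  obtain ⟨b, hbW', hbU⟩ : ∃ b, b ∈ W' ∧ b ∉ U₀ := by
    by_contra hno
    push Not at hno
    apply hU₀1
    rw [eq_top_iff, ← hsup]
    apply sup_le _ hno
    intro v hv
    have h1 : τ v ∈ W' := by
      rw [hW', hωτ, (hW v).mp hv]
    have h2 := hno _ h1
    have h3 := hU₀inv (s * t)⁻¹ (inv_mem hτN) _ h2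
    have h4 : (((s * t)⁻¹ : H) : V ≃ₗ[ZMod p] V) (τ v) = v := by
      show (((s * t)⁻¹ * (s * t) : H) : V ≃ₗ[ZMod p] V) v = v
      rw [inv_mul_cancel]
      rfl
    rwa [h4] at h3
  have hab : a + b ≠ 0 := by
    intro h0
    have h1 : a = -b := eq_neg_of_add_eq_zero_left h0
    have h2 : a ∈ W ⊓ W' := ⟨haW, by rw [h1]; exact neg_mem hbW'⟩
    rw [hinf, Submodule.mem_bot] at h2
    exact ha0 h2
  obtain ⟨h, hh, -⟩ := hreg a (a + b) ha0 hab
  let U' : Submodule (ZMod p) V := U₀.map ((h : V ≃ₗ[ZMod p] V).toLinearMap)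
  have hU'inv : Inv N U' := by
    intro n hn u hu
    obtain ⟨x, hx, hxu⟩ := hu
    refine ⟨((h⁻¹ * (n : H) * h : H) : V ≃ₗ[ZMod p] V) x, ?_, ?_⟩
    · apply hU₀inv _ _ _ hx
      have : h⁻¹ * n * h = h⁻¹ * n * h⁻¹⁻¹ := by rw [inv_inv]
      rw [this]
      exact hNn.conj_mem n hn h⁻¹
    · have hxu' : (h : V ≃ₗ[ZMod p] V) x = u := hxu
      show (h : V ≃ₗ[ZMod p] V) (((h⁻¹ * (n : H) * h : H) : V ≃ₗ[ZMod p] V) x) = ((n : H) : V ≃ₗ[ZMod p] V) u
      rw [← hxu']
      show ((h * (h⁻¹ * (n : H) * h) : H) : V ≃ₗ[ZMod p] V) x = (((n : H) * h : H) : V ≃ₗ[ZMod p] V) x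
      congr 2
      group
  have hvU' : a + b ∈ U' := ⟨a, haU, hh⟩
  have h2ne : (2 : ZMod p) ≠ 0 := by
    intro h0
    have h1 : ((2 : ℕ) : ZMod p) = 0 := by exact_mod_cast h0
    rw [ZMod.natCast_eq_zero_iff] at h1
    have hpp : p.Prime := Fact.out
    have := (Nat.prime_dvd_prime_iff_eq hpp Nat.prime_two).mp h1
    exact hp2 this
  have haU' : a ∈ U' := by
    have h1 : ω (a + b) = a - b := by
      rw [map_add, (hW a).mp haW, (hW' b).mp hbW', sub_eq_add_neg]
    have h2 := hωinv U' hU'inv _ hvU'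
    rw [h1] at h2
    have h3 : (2 : ZMod p) • a = (a + b) + (a - b) := by
      rw [two_smul]
      abel
    have h4 : (2 : ZMod p) • a ∈ U' := by
      rw [h3]
      exact add_mem hvU' h2
    have h5 := U'.smul_mem (2⁻¹ : ZMod p) h4
    rwa [smul_smul, inv_mul_cancel₀ h2ne, one_smul] at h5
  have hinter : Inv N (U₀ ⊓ U') := fun n hn u hu => ⟨hU₀inv n hn u hu.1, hU'inv n hn u hu.2⟩
  have hle' : U₀ ≤ U' := by
    rcases hU₀min _ inf_le_left hinter with h0 | h0
    · exfalso
      have h1 : a ∈ U₀ ⊓ U' := ⟨haU, haU'⟩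
      rw [h0, Submodule.mem_bot] at h1
      exact ha0 h1
    · rw [← h0]
      exact inf_le_right
  have hfin : Module.finrank (ZMod p) U' = Module.finrank (ZMod p) U₀ :=
    LinearEquiv.finrank_map_eq _ _
  have heq : U₀ = U' := Submodule.eq_of_le_of_finrank_eq hle' hfin.symm
  apply hbU
  have h1 : b = (a + b) - a := by abel
  rw [h1, heq]
  exact sub_mem hvU' haU'

/-- The centraliser of an irreducible subgroup is abelian. -/
theorem comm_of_irr (N : Subgroup H) (hirr : ∀ U : Submodule (ZMod p) V, Inv N U → U = ⊥ ∨ U = ⊤)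
    [Nontrivial V] {c d : H} (hc : c ∈ centralizer (N : Set H)) (hd : d ∈ centralizer (N : Set H)) :
    c * d = d * c := by
  classical
  let ρ : H → Module.End (ZMod p) V := fun g => ((g : V ≃ₗ[ZMod p] V) : V →ₗ[ZMod p] V)
  have hρ : ∀ g v, ρ g v = (g : V ≃ₗ[ZMod p] V) v := fun g v => rfl
  let R : Subring (Module.End (ZMod p) V) := Subring.centralizer (ρ '' (N : Set H))
  have hR : ∀ f : Module.End (ZMod p) V, f ∈ R ↔ ∀ n ∈ N, ∀ v, (n : V ≃ₗ[ZMod p] V) (f v) = f ((n : V ≃ₗ[ZMod p] V) v) := by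
    intro f
    rw [Subring.mem_centralizer_iff]
    constructor
    · intro h n hn v
      have h1 := h (ρ n) ⟨n, hn, rfl⟩
      exact congrArg (fun T : Module.End (ZMod p) V => T v) h1
    · rintro h _ ⟨n, hn, rfl⟩
      ext v
      exact h n hn v
  have hinj : ∀ f ∈ R, f ≠ 0 → Function.Injective f := by
    intro f hf hf0
    let K : Submodule (ZMod p) V := LinearMap.ker f
    have hK : Inv N K := by
      intro n hn v hv
      have hv' : f v = 0 := hv
      show f _ = 0
      rw [← (hR f).mp hf n hn v, hv', map_zero]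
    rcases hirr K hK with h | h
    · exact LinearMap.ker_eq_bot.mp h
    · exfalso
      apply hf0
      exact LinearMap.ker_eq_top.mp h
  haveI : Finite (Module.End (ZMod p) V) :=
    Finite.of_injective (fun f : Module.End (ZMod p) V => (f : V → V)) DFunLike.coe_injective
  haveI : Finite R := inferInstance
  haveI hnt : Nontrivial R := by
    refine ⟨⟨1, 0, fun h => ?_⟩⟩
    have h1 : (1 : Module.End (ZMod p) V) = 0 := congrArg Subtype.val h
    obtain ⟨v, hv⟩ := exists_ne (0 : V)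
    exact hv (congrArg (fun T : Module.End (ZMod p) V => T v) h1)
  haveI hnz : NoZeroDivisors R := by
    refine ⟨fun {x y} hxy => ?_⟩
    by_cases hx : x = 0
    · exact Or.inl hx
    · right
      have hx' : (x : Module.End (ZMod p) V) ≠ 0 := fun h0 => hx (Subtype.ext h0)
      have hi := hinj x x.2 hx'
      apply Subtype.ext
      ext v
      apply hi
      have h1 : ((x * y : R) : Module.End (ZMod p) V) v = 0 := by
        rw [hxy]
        rfl
      have h2 : ((0 : R) : Module.End (ZMod p) V) v = 0 := rfl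
      rw [h2, map_zero]
      exact h1
  haveI : IsDomain R := NoZeroDivisors.to_isDomain R
  have hF := Finite.isDomain_to_isField R
  have hcR : ρ c ∈ R := by
    rw [hR]
    intro n hn v
    have h1 : n * c = c * n := (mem_centralizer_iff.mp hc n hn)
    have : ((n * c : H) : V ≃ₗ[ZMod p] V) v = ((c * n : H) : V ≃ₗ[ZMod p] V) v := by rw [h1]
    exact this
  have hdR : ρ d ∈ R := by
    rw [hR]
    intro n hn v
    have h1 : n * d = d * n := (mem_centralizer_iff.mp hd n hn)
    have : ((n * d : H) : V ≃ₗ[ZMod p] V) v = ((d * n : H) : V ≃ₗ[ZMod p] V) v := by rw [h1]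
    exact this
  have hcomm := hF.mul_comm ⟨ρ c, hcR⟩ ⟨ρ d, hdR⟩
  have h2 : ρ c * ρ d = ρ d * ρ c := congrArg Subtype.val hcomm
  apply Subtype.ext
  apply LinearEquiv.ext
  intro v
  exact congrArg (fun T : Module.End (ZMod p) V => T v) h2

/-- The irreducibility and the centraliser. -/
theorem irreducible_and_centralizer (hreg : Reg H)
    (A : Subgroup H) (hAn : A.Normal) (hAc : IsMulCommutative A)
    (hAmax : ∀ B : Subgroup H, B.Normal → IsMulCommutative B → A ≤ B → B = A)
    (N : Subgroup H) (hNn : N.Normal) (hNle : N ≤ centralizer (A : Set H))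
    (hNna : ¬ IsMulCommutative N)
    (hNmin : ∀ M : Subgroup H, M.Normal → M ≤ N → ¬ IsMulCommutative M → M = N) :
    (∀ W : Submodule (ZMod p) V, (∀ n ∈ N, ∀ v ∈ W, ((n : H) : V ≃ₗ[ZMod p] V) v ∈ W) →
      W = ⊥ ∨ W = ⊤) ∧ centralizer (N : Set H) = A := by
  classical
  haveI : Finite (V ≃ₗ[ZMod p] V) := finite_equiv
  haveI := hNn
  haveI hVnt : Nontrivial V := by
    by_contra h0
    rw [not_nontrivial_iff_subsingleton] at h0
    apply hNna
    haveI : Subsingleton (V ≃ₗ[ZMod p] V) :=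
      ⟨fun a b => LinearEquiv.ext (fun v => Subsingleton.elim _ _)⟩
    haveI : Subsingleton H := ⟨fun a b => Subtype.ext (Subsingleton.elim _ _)⟩
    exact ⟨⟨fun a b => Subsingleton.elim _ _⟩⟩
  obtain ⟨s, t, hs, ht, hq⟩ : ∃ s t : H, s ∈ N ∧ t ∈ N ∧ QP s t := by
    by_cases hder : IsMulCommutative (⁅N, N⁆ : Subgroup H)
    · obtain ⟨-, a, b, ha, hb, hao, hba, hb2, -, -⟩ :=
        quat_struct_of_der hreg A hAn hAc hAmax N hNn hNle hNna hNmin hder
      refine ⟨a, b, ha, hb, ?_⟩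
      refine ⟨by rw [← hao]; exact pow_orderOf_eq_one a,
        pow_ne_one_of_lt_orderOf (by norm_num) (by omega), hb2, hba⟩
    · have heq := hNmin _ inferInstance (commutator_le_left N N) hder
      have hperf := perfect_of_commutator_eq N heq
      haveI hnt : Nontrivial N := by
        by_contra h0
        rw [not_nontrivial_iff_subsingleton] at h0
        exact hNna ⟨⟨fun a b => Subsingleton.elim _ _⟩⟩
      have hZ := zh_of_reg hreg N.subtype N.subtype_injective
      have hSA := sa_of hZ hperf hnt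
      haveI : Fact (Nat.Prime 2) := ⟨Nat.prime_two⟩
      obtain ⟨S⟩ : Nonempty (Sylow 2 N) := inferInstance
      have hQ8 := hSA.q8 S
      obtain ⟨s₀, hs₀, hs₀2⟩ := hQ8.exists_not_sq
      obtain ⟨t₀, ht₀, ht₀n⟩ := hQ8.exists_other hs₀ hs₀2
      have hq₀ := (hQ8.pair hs₀ hs₀2 ht₀ ht₀n).1
      exact ⟨s₀, t₀, s₀.2, t₀.2, hq₀.map N.subtype N.subtype_injective⟩
  have hirr := irreducible_of_qp hreg N hNn hs ht hq
  refine ⟨hirr, ?_⟩
  have hCn : (centralizer (N : Set H)).Normal := inferInstance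
  have hCc : IsMulCommutative (centralizer (N : Set H)) := by
    refine ⟨⟨fun x y => Subtype.ext ?_⟩⟩
    exact comm_of_irr N hirr x.2 y.2
  have hle : A ≤ centralizer (N : Set H) := by
    intro a ha
    rw [mem_centralizer_iff]
    intro n hn
    exact (mem_centralizer_iff.mp (hNle hn) a ha).symm
  exact hAmax _ hCn hCc hle

end Cfsg.Agent.Lib.Zass
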